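import Cfsg.Agent.Helper5.CharP3
import Cfsg.Agent.Helper5.WeakCl
import Cfsg.Agent.Helper5.Coprime2
import Cfsg.Agent.Helper3.AxB

set_option autoImplicit false

namespace Cfsg.Agent.Helper5

open scoped commutatorElement

universe u

theorem hall_witt_identity {G : Type*} [Group G] (a b c : G) :
    ⁅⁅a, b⁆, b * c * b⁻¹⁆ * ⁅⁅b, c⁆, c * a * c⁻¹⁆ * ⁅⁅c, a⁆, a * b * a⁻¹⁆ = 1 := by
  simp only [commutatorElement_def]
  group

/-- In a group of characteristic `p`, if `Q ⊴ T` (a Sylow `p`-subgroup) and `C_T(Q) ≤ Q`, then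
every subgroup containing `Q` has characteristic `p`. -/
theorem charP_of_ge_selfCentralizing {G : Type u} [Group G] [Finite G] {p : ℕ} [Fact p.Prime]
    (hG : Subgroup.centralizer (Cfsg.pCore p G : Set G) ≤ Cfsg.pCore p G) (T : Sylow p G)
    (Q : Subgroup G) (hQT : Q ≤ (T : Subgroup G))
    (hQn : (T : Subgroup G) ≤ Subgroup.normalizer (Q : Set G))
    (hC : (T : Subgroup G) ⊓ Subgroup.centralizer (Q : Set G) ≤ Q) (L : Subgroup G)
    (hQL : Q ≤ L) :
    Subgroup.centralizer (Cfsg.pCore p ↥L : Set ↥L) ≤ Cfsg.pCore p ↥L := by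
  have hpp : p.Prime := Fact.out
  rw [charP_iff]
  haveI hRn : (Cfsg.pCore p G).Normal := pCore_normal p G
  have hRT : Cfsg.pCore p G ≤ (T : Subgroup G) := pCore_le_sylow T
  have hRp : IsPGroup p (Cfsg.pCore p G) := pCore_isPGroup
  have hQp : IsPGroup p Q := T.2.to_le hQT
  have hPp : IsPGroup p ((Cfsg.pCore p ↥L).map L.subtype) := pCoreMap_isPGroup L
  have hLP : L ≤ Subgroup.normalizer (((Cfsg.pCore p ↥L).map L.subtype : Subgroup G) : Set G) :=
    le_normalizer_pCoreMap p L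
  -- P₁ = [R, Q]
  have hP₁R : ⁅Cfsg.pCore p G, Q⁆ ≤ Cfsg.pCore p G := Subgroup.commutator_le_left _ _
  have hP₁Q : ⁅Cfsg.pCore p G, Q⁆ ≤ Q :=
    commutator_le_right_of_le_normalizer _ _ (hRT.trans hQn)
  have hRL : Cfsg.pCore p G ⊓ L ≤ (Cfsg.pCore p ↥L).map L.subtype :=
    le_pCoreMap L _ inf_le_right
      (le_normalizer_inf _ _ L (by rw [Subgroup.normalizer_eq_top_iff.2 hRn]; exact le_top)
        Subgroup.le_normalizer) (hRp.to_le inf_le_left)
  have hP₁P : ⁅Cfsg.pCore p G, Q⁆ ≤ (Cfsg.pCore p ↥L).map L.subtype :=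
    (le_inf hP₁R (hP₁Q.trans hQL)).trans hRL
  have hRP₁ : Cfsg.pCore p G ≤ Subgroup.normalizer ((⁅Cfsg.pCore p G, Q⁆ : Subgroup G) : Set G) :=
    le_normalizer_commutator_self_left _ _
  -- E = C_L(P)
  have hLE : L ≤ Subgroup.normalizer ((L ⊓ Subgroup.centralizer
      (((Cfsg.pCore p ↥L).map L.subtype : Subgroup G) : Set G) : Subgroup G) : Set G) :=
    le_normalizer_inf _ _ L Subgroup.le_normalizer
      (hLP.trans (normalizer_le_normalizer_centralizer _))
  have hEP₁ : ∀ e ∈ L ⊓ Subgroup.centralizer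
      (((Cfsg.pCore p ↥L).map L.subtype : Subgroup G) : Set G),
      ∀ a ∈ ⁅Cfsg.pCore p G, Q⁆, e * a = a * e := by
    intro e he a ha
    exact (Subgroup.mem_centralizer_iff.1 he.2 a (hP₁P ha)).symm
  -- key commutator computation
  have hkey : ∀ q ∈ Q, ∀ e ∈ L ⊓ Subgroup.centralizer
      (((Cfsg.pCore p ↥L).map L.subtype : Subgroup G) : Set G), ∀ r ∈ Cfsg.pCore p G,
      ⁅⁅q, e⁆, r⁆ ∈ ⁅Cfsg.pCore p G, Q⁆ := by
    intro q hq e he r hr
    have hr' : e⁻¹ * r * e ∈ Cfsg.pCore p G := by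
      have := hRn.conj_mem r hr e⁻¹
      simpa using this
    have hHW := hall_witt_identity q e (e⁻¹ * r * e)
    have h1 : e * (e⁻¹ * r * e) * e⁻¹ = r := by group
    rw [h1] at hHW
    -- third factor is trivial
    have h3 : ⁅⁅e⁻¹ * r * e, q⁆, q * e * q⁻¹⁆ = 1 := by
      have hmem : ⁅e⁻¹ * r * e, q⁆ ∈ ⁅Cfsg.pCore p G, Q⁆ :=
        Subgroup.commutator_mem_commutator hr' hq
      have hqe : q * e * q⁻¹ ∈ L ⊓ Subgroup.centralizer
          (((Cfsg.pCore p ↥L).map L.subtype : Subgroup G) : Set G) :=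
        (Subgroup.mem_normalizer_iff.1 (hLE (hQL hq)) e).1 he
      have hc := hEP₁ _ hqe _ hmem
      rw [commutatorElement_eq_one_iff_commute]
      exact hc.symm
    -- second factor lies in P₁
    have h2 : ⁅⁅e, e⁻¹ * r * e⁆, (e⁻¹ * r * e) * q * (e⁻¹ * r * e)⁻¹⁆ ∈ ⁅Cfsg.pCore p G, Q⁆ := by
      set s := e⁻¹ * r * e with hs
      have hr₁ : ⁅e, s⁆ ∈ Cfsg.pCore p G := by
        rw [commutatorElement_def]
        have h5 : e * s * e⁻¹ ∈ Cfsg.pCore p G := hRn.conj_mem s hr' e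
        exact (Cfsg.pCore p G).mul_mem h5 ((Cfsg.pCore p G).inv_mem hr')
      have h6 : ⁅⁅e, s⁆, s * q * s⁻¹⁆ = s * ⁅s⁻¹ * ⁅e, s⁆ * s, q⁆ * s⁻¹ := by
        simp only [commutatorElement_def]; group
      rw [h6]
      have h7 : s⁻¹ * ⁅e, s⁆ * s ∈ Cfsg.pCore p G := by
        have := hRn.conj_mem _ hr₁ s⁻¹
        simpa using this
      exact (Subgroup.mem_normalizer_iff.1 (hRP₁ hr') _).1
        (Subgroup.commutator_mem_commutator h7 hq)
    rw [h3, mul_one] at hHW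
    have h4 : ⁅⁅q, e⁆, r⁆ = (⁅⁅e, e⁻¹ * r * e⁆, (e⁻¹ * r * e) * q * (e⁻¹ * r * e)⁻¹⁆)⁻¹ :=
      eq_inv_of_mul_eq_one_left hHW
    rw [h4]
    exact Subgroup.inv_mem _ h2
  -- X = [Q, E]
  have hXE : ⁅Q, L ⊓ Subgroup.centralizer
      (((Cfsg.pCore p ↥L).map L.subtype : Subgroup G) : Set G)⁆ ≤ L ⊓ Subgroup.centralizer
      (((Cfsg.pCore p ↥L).map L.subtype : Subgroup G) : Set G) :=
    commutator_le_right_of_le_normalizer _ _ (hQL.trans hLE)
  have hXR : ∀ x ∈ ⁅Q, L ⊓ Subgroup.centralizer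
      (((Cfsg.pCore p ↥L).map L.subtype : Subgroup G) : Set G)⁆, ∀ r ∈ Cfsg.pCore p G,
      x * r * x⁻¹ * r⁻¹ ∈ ⁅Cfsg.pCore p G, Q⁆ := by
    intro x hx
    have hxE := hXE hx
    rw [Subgroup.commutator_def] at hx
    induction hx using Subgroup.closure_induction with
    | mem x hx =>
      obtain ⟨q, hq, e, he, rfl⟩ := hx
      intro r hr
      have := hkey q hq e he r hr
      rwa [commutatorElement_def ⁅q, e⁆ r] at this
    | one => intro r _; simp
    | mul x y hx hy ihx ihy =>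
      have hxE' := hXE (by rw [Subgroup.commutator_def]; exact hx)
      have hyE' := hXE (by rw [Subgroup.commutator_def]; exact hy)
      intro r hr
      have h1 := ihx hxE' r hr
      have h2 := ihy hyE' r hr
      have h3 : x * y * r * (x * y)⁻¹ * r⁻¹ = x * (y * r * y⁻¹ * r⁻¹) * x⁻¹ * (x * r * x⁻¹ * r⁻¹) := by
        group
      rw [h3]
      have h4 : x * (y * r * y⁻¹ * r⁻¹) * x⁻¹ = y * r * y⁻¹ * r⁻¹ := by
        rw [hEP₁ x hxE' _ h2]; group
      rw [h4]
      exact Subgroup.mul_mem _ h2 h1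
    | inv x hx ihx =>
      have hxE' := hXE (by rw [Subgroup.commutator_def]; exact hx)
      intro r hr
      have h1 := ihx hxE' r hr
      have h3 : x⁻¹ * r * x⁻¹⁻¹ * r⁻¹ = x⁻¹ * (x * r * x⁻¹ * r⁻¹)⁻¹ * x := by group
      rw [h3]
      have h4 : x⁻¹ * (x * r * x⁻¹ * r⁻¹)⁻¹ * x = (x * r * x⁻¹ * r⁻¹)⁻¹ := by
        have h5 := hEP₁ x hxE' _ (Subgroup.inv_mem _ h1)
        calc x⁻¹ * (x * r * x⁻¹ * r⁻¹)⁻¹ * x = x⁻¹ * ((x * r * x⁻¹ * r⁻¹)⁻¹ * x) := by group
          _ = x⁻¹ * (x * (x * r * x⁻¹ * r⁻¹)⁻¹) := by rw [h5]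
          _ = _ := by group
      rw [h4]
      exact Subgroup.inv_mem _ h1
  -- X is a p-group
  have hXp : IsPGroup p (⁅Q, L ⊓ Subgroup.centralizer
      (((Cfsg.pCore p ↥L).map L.subtype : Subgroup G) : Set G)⁆ : Subgroup G) := by
    apply isPGroup_of_coprime_elements_trivial
    intro x hx hxc
    have h1 := stab_two x (orderOf x) (pow_orderOf_eq_one x) (⁅Cfsg.pCore p G, Q⁆)
      (Cfsg.pCore p G) (hEP₁ x (hXE hx)) (hXR x hx)
      (fun a ha ham => eq_one_of_pow_coprime _ (hRp.to_le hP₁R) _ hxc a ha ham)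
    have h2 : x ∈ Subgroup.centralizer (Cfsg.pCore p G : Set G) :=
      Subgroup.mem_centralizer_iff.2 (fun a ha => (h1 a ha).symm)
    exact Helper3.eq_one_of_mem_pGroup_of_coprime p _ hRp (hG h2) hxc
  -- X ≤ P
  have hXP : ⁅Q, L ⊓ Subgroup.centralizer
      (((Cfsg.pCore p ↥L).map L.subtype : Subgroup G) : Set G)⁆ ≤
      (Cfsg.pCore p ↥L).map L.subtype := by
    have h1 : ⁅Q, L ⊓ Subgroup.centralizer
        (((Cfsg.pCore p ↥L).map L.subtype : Subgroup G) : Set G)⁆ ≤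
        (Cfsg.pCore p ↥(L ⊓ Subgroup.centralizer
          (((Cfsg.pCore p ↥L).map L.subtype : Subgroup G) : Set G) : Subgroup G)).map
          (L ⊓ Subgroup.centralizer
          (((Cfsg.pCore p ↥L).map L.subtype : Subgroup G) : Set G) : Subgroup G).subtype := by
      apply le_pCoreMap _ _ hXE _ hXp
      rw [Subgroup.commutator_comm]
      exact le_normalizer_commutator_self_left _ _
    refine h1.trans ?_
    exact le_pCoreMap L _ ((pCoreMap_le p _).trans inf_le_left)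
      (hLE.trans (normalizer_le_normalizer_pCoreMap _)) (pCoreMap_isPGroup _)
  -- p'-elements of E centralize Q
  have hEQ : ∀ x ∈ L ⊓ Subgroup.centralizer
      (((Cfsg.pCore p ↥L).map L.subtype : Subgroup G) : Set G), (orderOf x).Coprime p →
      x ∈ Subgroup.centralizer (Q : Set G) := by
    intro x hx hxc
    refine Subgroup.mem_centralizer_iff.2 ?_
    intro q hq
    have hcP : ⁅q, x⁆ ∈ (Cfsg.pCore p ↥L).map L.subtype :=
      hXP (Subgroup.commutator_mem_commutator hq hx)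
    have hcx : Commute ⁅q, x⁆ x := Subgroup.mem_centralizer_iff.1 hx.2 _ hcP
    have h1 : q * x * q⁻¹ = ⁅q, x⁆ * x := by rw [commutatorElement_def]; group
    have h2 : (q * x * q⁻¹) ^ orderOf x = 1 := by
      rw [conj_pow, pow_orderOf_eq_one]; group
    rw [h1, hcx.mul_pow, pow_orderOf_eq_one, mul_one] at h2
    have h3 : ⁅q, x⁆ = 1 := eq_one_of_pow_coprime _ hPp _ hxc _ hcP h2
    exact (commutatorElement_eq_one_iff_commute.1 h3).eq
  -- p'-elements centralizing Q are trivial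
  have hCQ : ∀ x ∈ Subgroup.centralizer (Q : Set G), (orderOf x).Coprime p → x = 1 := by
    intro x hx hxc
    have hN : Subgroup.normalizer ((Cfsg.pCore p G : Subgroup G) : Set G) = ⊤ :=
      Subgroup.normalizer_eq_top_iff.2 hRn
    have h1 := Helper3.thompson_AxB p (Cfsg.pCore p G) (Subgroup.zpowers x) Q hRp
      (by rw [Nat.card_zpowers]; exact hxc) hQp
      (Subgroup.commutator_eq_bot_iff_le_centralizer.2 (Subgroup.zpowers_le.2 hx))
      (by rw [hN]; exact le_top) (by rw [hN]; exact le_top) (by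
        intro r hr
        have hrQ : r ∈ Q := hC ⟨hRT hr.1, hr.2⟩
        rw [Subgroup.zpowers_eq_closure, Subgroup.centralizer_closure,
          mem_centralizer_singleton_iff]
        exact Subgroup.mem_centralizer_iff.1 hx r hrQ)
    have h2 : x ∈ Subgroup.centralizer (Cfsg.pCore p G : Set G) := by
      refine Subgroup.mem_centralizer_iff.2 ?_
      intro a ha
      exact (Subgroup.mem_centralizer_iff.1 (h1 ha) x (Subgroup.mem_zpowers x)).symm
    exact Helper3.eq_one_of_mem_pGroup_of_coprime p _ hRp (hG h2) hxc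
  have hEp : IsPGroup p (L ⊓ Subgroup.centralizer
      (((Cfsg.pCore p ↥L).map L.subtype : Subgroup G) : Set G) : Subgroup G) :=
    isPGroup_of_coprime_elements_trivial _ (fun x hx hxc => hCQ x (hEQ x hx hxc) hxc)
  exact le_pCoreMap L _ inf_le_left hLE hEp

end Cfsg.Agent.Helper5
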