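import Mathlib
import Cfsg.Prelude.Def_LocalEven
import Cfsg.Agent.Helper5.Basic
import Cfsg.Agent.Helper1.Dihedral

set_option autoImplicit false

namespace Cfsg.Agent.Helper5

open scoped commutatorElement
open DihedralGroup

/-- the rotation subgroup of the dihedral group. -/
def rotSub (n : ℕ) : Subgroup (DihedralGroup n) where
  carrier := {g | ∃ i, g = r i}
  mul_mem' := by
    rintro _ _ ⟨i, rfl⟩ ⟨j, rfl⟩
    exact ⟨i + j, r_mul_r i j⟩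
  one_mem' := ⟨0, one_def⟩
  inv_mem' := by
    rintro _ ⟨i, rfl⟩
    exact ⟨-i, inv_r i⟩

theorem rotSub_normal (n : ℕ) : (rotSub n).Normal := by
  constructor
  rintro _ ⟨i, rfl⟩ (j | j)
  · exact ⟨i, by rw [r_mul_r, inv_r, r_mul_r]; congr 1; ring⟩
  · exact ⟨-i, by rw [sr_mul_r, inv_sr, sr_mul_sr]; congr 1; ring⟩

theorem involves_of_quotient {G : Type*} [Group G] {A : Type*} [Group A] (K : Subgroup G)
    (N₀ : Subgroup ↥K) [hN : N₀.Normal] (e : ↥K ⧸ N₀ ≃* A) : Cfsg.Involves A G := by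
  have e0 : (N₀.map K.subtype).subgroupOf K = N₀ :=
    Subgroup.comap_map_eq_self_of_injective K.subtype_injective _
  obtain ⟨R, hR⟩ : ∃ R : Subgroup G, R.subgroupOf K = N₀ := ⟨_, e0⟩
  subst hR
  exact ⟨K, R, hN, ⟨e⟩⟩

/-- (2) implies (3). -/
theorem exists_inverted_of_not_centralizes {G : Type*} [Group G] [Finite G] {p : ℕ}
    [Fact p.Prime] (x : G) (P : Subgroup G) (hx : ∃ k : ℕ, orderOf x = 2 ^ k)
    (hP : IsPGroup p ↥P) (hxN : x ∈ Subgroup.normalizer (P : Set G))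
    (hxC : x ∉ Subgroup.centralizer (P : Set G)) :
    ∃ x y : G, (∃ k : ℕ, orderOf x = 2 ^ k) ∧ (∃ k : ℕ, orderOf y = p ^ k) ∧ y ≠ 1 ∧
      x * y * x⁻¹ = y⁻¹ := by
  classical
  have hp : p.Prime := Fact.out
  obtain ⟨k, hk⟩ := hx
  have hex : ∃ j : ℕ, x ^ (2 ^ j) ∈ Subgroup.centralizer (P : Set G) := by
    refine ⟨k, ?_⟩
    rw [← hk, pow_orderOf_eq_one]
    exact Subgroup.one_mem _
  obtain ⟨j, hj, hjmin⟩ : ∃ j : ℕ, x ^ (2 ^ j) ∈ Subgroup.centralizer (P : Set G) ∧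
      ∀ i < j, x ^ (2 ^ i) ∉ Subgroup.centralizer (P : Set G) :=
    ⟨Nat.find hex, Nat.find_spec hex, fun i hi => Nat.find_min hex hi⟩
  have hj0 : j ≠ 0 := by
    rintro rfl
    rw [pow_zero, pow_one] at hj
    exact hxC hj
  obtain ⟨i, rfl⟩ := Nat.exists_eq_succ_of_ne_zero hj0
  obtain ⟨x', hx'⟩ : ∃ x' : G, x' = x ^ (2 ^ i) := ⟨_, rfl⟩
  have hx'C : x' ∉ Subgroup.centralizer (P : Set G) := hx' ▸ hjmin i (Nat.lt_succ_self i)
  have hx'2 : x' * x' ∈ Subgroup.centralizer (P : Set G) := by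
    have e : x' * x' = x ^ (2 ^ (i + 1)) := by
      rw [hx', ← pow_add, pow_succ]; congr 1; ring
    rw [e]; exact hj
  have hx'N : x' ∈ Subgroup.normalizer (P : Set G) := hx' ▸ Subgroup.pow_mem _ hxN _
  have hx'o : ∃ k : ℕ, orderOf x' = 2 ^ k := by
    have h1 : x' ^ (2 ^ k) = 1 := by
      rw [hx', ← pow_mul, mul_comm, pow_mul, ← hk, pow_orderOf_eq_one, one_pow]
    obtain ⟨m, -, hm⟩ := (Nat.dvd_prime_pow Nat.prime_two).1 (orderOf_dvd_of_pow_eq_one h1)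
    exact ⟨m, hm⟩
  obtain ⟨u, hu, hux⟩ : ∃ u ∈ P, u * x' ≠ x' * u := by
    by_contra hcon
    apply hx'C
    rw [Subgroup.mem_centralizer_iff]
    intro u hu
    by_contra hne
    exact hcon ⟨u, hu, hne⟩
  have hc : x' * u * x'⁻¹ ∈ P := (Subgroup.mem_normalizer_iff.1 hx'N u).1 hu
  refine ⟨x', u⁻¹ * (x' * u * x'⁻¹), hx'o, ?_, ?_, ?_⟩
  · obtain ⟨m, hm⟩ := hP ⟨u⁻¹ * (x' * u * x'⁻¹), P.mul_mem (P.inv_mem hu) hc⟩
    have hm' : (u⁻¹ * (x' * u * x'⁻¹)) ^ p ^ m = 1 := by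
      have := congrArg Subtype.val hm
      simpa using this
    obtain ⟨m', -, hm''⟩ := (Nat.dvd_prime_pow hp).1 (orderOf_dvd_of_pow_eq_one hm')
    exact ⟨m', hm''⟩
  · intro h
    apply hux
    have h1 : x' * u * x'⁻¹ = u := by
      have := congrArg (fun t => u * t) h
      simpa using this
    calc u * x' = u * x' := rfl
      _ = (x' * u * x'⁻¹) * x' := by rw [h1]
      _ = x' * u := by group
  · have h2 : u * (x' * x') = (x' * x') * u := Subgroup.mem_centralizer_iff.1 hx'2 u hu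
    calc x' * (u⁻¹ * (x' * u * x'⁻¹)) * x'⁻¹
        = x' * u⁻¹ * x'⁻¹ * ((x' * x') * u) * x'⁻¹ * x'⁻¹ := by group
      _ = x' * u⁻¹ * x'⁻¹ * (u * (x' * x')) * x'⁻¹ * x'⁻¹ := by rw [h2]
      _ = (u⁻¹ * (x' * u * x'⁻¹))⁻¹ := by group

theorem pow_conj_inv {G : Type*} [Group G] (x y : G) (h : x * y * x⁻¹ = y⁻¹) (n : ℕ) :
    x * y ^ n * x⁻¹ = (y ^ n)⁻¹ := by
  have h1 : x * y ^ n * x⁻¹ = (x * y * x⁻¹) ^ n := by
    rw [conj_pow]
  rw [h1, h, inv_pow]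

theorem zpow_conj_inv {G : Type*} [Group G] (x y : G) (h : x * y * x⁻¹ = y⁻¹) (n : ℤ) :
    x * y ^ n * x⁻¹ = (y ^ n)⁻¹ := by
  have h1 : x * y ^ n * x⁻¹ = (x * y * x⁻¹) ^ n := by
    rw [conj_zpow]
  rw [h1, h, inv_zpow]

theorem not_commute_of_inverts {G : Type*} [Group G] {p : ℕ} [Fact p.Prime] (hp2 : p ≠ 2)
    (x y : G) (hy : ∃ k : ℕ, orderOf y = p ^ k) (hy1 : y ≠ 1) (h : x * y * x⁻¹ = y⁻¹) :
    x * y ≠ y * x := by
  have hp : p.Prime := Fact.out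
  intro hc
  have h1 : y = y⁻¹ := by
    rw [← h, hc, mul_inv_cancel_right]
  have h2 : y ^ 2 = 1 := by
    rw [pow_two]
    nth_rewrite 1 [h1]
    exact inv_mul_cancel y
  obtain ⟨k, hk⟩ := hy
  have h3 : orderOf y ∣ 2 := orderOf_dvd_of_pow_eq_one h2
  rw [hk] at h3
  rcases k with _ | k
  · rw [pow_zero, orderOf_eq_one_iff] at hk
    exact hy1 hk
  · have h4 : p ∣ 2 := (dvd_pow_self p (Nat.succ_ne_zero k)).trans h3
    exact hp2 ((Nat.prime_dvd_prime_iff_eq hp Nat.prime_two).1 h4)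

/-- (3) implies (2). -/
theorem exists_not_centralizes_of_inverted {G : Type*} [Group G] [Finite G] {p : ℕ}
    [Fact p.Prime] (hp2 : p ≠ 2) (x y : G) (hx : ∃ k : ℕ, orderOf x = 2 ^ k)
    (hy : ∃ k : ℕ, orderOf y = p ^ k) (hy1 : y ≠ 1) (h : x * y * x⁻¹ = y⁻¹) :
    ∃ (x : G) (P : Subgroup G), (∃ k : ℕ, orderOf x = 2 ^ k) ∧ IsPGroup p ↥P ∧
      x ∈ Subgroup.normalizer (P : Set G) ∧ x ∉ Subgroup.centralizer (P : Set G) := by
  refine ⟨x, Subgroup.zpowers y, hx, ?_, ?_, ?_⟩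
  · obtain ⟨k, hk⟩ := hy
    apply IsPGroup.of_card (n := k)
    rw [Nat.card_zpowers, hk]
  · apply mem_normalizer_of_conj_le
    rintro _ ⟨_, ⟨n, rfl⟩, rfl⟩
    show x * y ^ n * x⁻¹ ∈ Subgroup.zpowers y
    rw [zpow_conj_inv x y h n]
    exact Subgroup.inv_mem _ ⟨n, rfl⟩
  · intro hc
    have h1 := Subgroup.mem_centralizer_iff.1 hc y (Subgroup.mem_zpowers y)
    exact not_commute_of_inverts hp2 x y hy hy1 h h1.symm

/-- (3) implies (1). -/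
theorem involves_dihedral_of_inverted {G : Type*} [Group G] [Finite G] {p : ℕ}
    [Fact p.Prime] (hp2 : p ≠ 2) (x y : G)
    (hy : ∃ k : ℕ, orderOf y = p ^ k) (hy1 : y ≠ 1) (h : x * y * x⁻¹ = y⁻¹) :
    Cfsg.Involves (DihedralGroup p) G := by
  have hp : p.Prime := Fact.out
  -- reduce to order p
  obtain ⟨y', hy'o, hy'⟩ : ∃ y' : G, orderOf y' = p ∧ x * y' * x⁻¹ = y'⁻¹ := by
    obtain ⟨k, hk⟩ := hy
    rcases k with _ | k
    · rw [pow_zero, orderOf_eq_one_iff] at hk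
      exact absurd hk hy1
    · refine ⟨y ^ (p ^ k), ?_, pow_conj_inv x y h _⟩
      rw [orderOf_pow_of_dvd (pow_ne_zero _ hp.ne_zero) (by rw [hk]; exact pow_dvd_pow p (Nat.le_succ k)),
        hk, pow_succ, Nat.mul_div_cancel_left _ (pow_pos hp.pos k)]
  have hy'1 : y' ≠ 1 := by
    intro h1
    rw [h1, orderOf_one] at hy'o
    exact hp.one_lt.ne hy'o
  have hnc := not_commute_of_inverts hp2 x y' ⟨1, by rw [hy'o, pow_one]⟩ hy'1 hy'
  obtain ⟨K, hK⟩ : ∃ K : Subgroup G, K = Subgroup.closure ({y', x} : Set G) := ⟨_, rfl⟩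
  have hyK : y' ∈ K := hK ▸ Subgroup.subset_closure (by simp)
  have hxK : x ∈ K := hK ▸ Subgroup.subset_closure (by simp)
  have hx2y : x * x * y' = y' * (x * x) := by
    have h1 : x * y' = y'⁻¹ * x := by rw [← hy']; group
    calc x * x * y' = x * (x * y') := by group
      _ = x * (y'⁻¹ * x) := by rw [h1]
      _ = (x * y' * x⁻¹)⁻¹ * (x * x) := by group
      _ = y' * (x * x) := by rw [hy', inv_inv]
  have hcen : ∀ g ∈ K, g * (x * x) = (x * x) * g := by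
    have h1 : K ≤ Subgroup.centralizer ({x * x} : Set G) := by
      rw [hK, Subgroup.closure_le]
      rintro g (rfl | rfl)
      · rw [SetLike.mem_coe, Subgroup.mem_centralizer_iff]
        rintro _ rfl
        exact hx2y
      · rw [SetLike.mem_coe, Subgroup.mem_centralizer_iff]
        rintro _ rfl
        group
    intro g hg
    exact (Subgroup.mem_centralizer_iff.1 (h1 hg) _ rfl).symm
  obtain ⟨N₀, hN₀⟩ : ∃ N₀ : Subgroup ↥K, N₀ = Subgroup.zpowers ((⟨x, hxK⟩ : ↥K) * ⟨x, hxK⟩) :=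
    ⟨_, rfl⟩
  have hN₀c : ∀ n ∈ N₀, ∀ g : ↥K, g * n = n * g := by
    intro n hn g
    rw [hN₀] at hn
    obtain ⟨i, rfl⟩ := hn
    have h1 : g * ((⟨x, hxK⟩ : ↥K) * ⟨x, hxK⟩) = ((⟨x, hxK⟩ : ↥K) * ⟨x, hxK⟩) * g :=
      Subtype.ext (hcen g g.2)
    exact ((Commute.zpow_right (show Commute g ((⟨x, hxK⟩ : ↥K) * ⟨x, hxK⟩) from h1)) i)
  haveI hN₀n : N₀.Normal := by
    constructor
    intro n hn g
    rw [hN₀c n hn g, mul_inv_cancel_right]
    exact hn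
  have hpow_x : ∀ n ∈ N₀, ∃ i : ℤ, (n : G) = (x * x) ^ i := by
    intro n hn
    rw [hN₀] at hn
    obtain ⟨i, rfl⟩ := hn
    exact ⟨i, by simp⟩
  obtain ⟨ρ, hρ⟩ : ∃ ρ : ↥K ⧸ N₀, ρ = QuotientGroup.mk' N₀ ⟨y', hyK⟩ := ⟨_, rfl⟩
  obtain ⟨d, hd⟩ : ∃ d : ↥K ⧸ N₀, d = QuotientGroup.mk' N₀ ⟨x, hxK⟩ := ⟨_, rfl⟩
  have h2 : d * d = 1 := by
    rw [hd, ← map_mul]
    apply (QuotientGroup.eq_one_iff _).2
    rw [hN₀]
    exact Subgroup.mem_zpowers _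
  have h3 : d * ρ * d = ρ⁻¹ := by
    have e : (⟨x, hxK⟩ : ↥K) * ⟨y', hyK⟩ * ⟨x, hxK⟩ =
        (⟨y', hyK⟩ : ↥K)⁻¹ * ((⟨x, hxK⟩ : ↥K) * ⟨x, hxK⟩) := by
      apply Subtype.ext
      show x * y' * x = y'⁻¹ * (x * x)
      rw [← hy']; group
    rw [hd, hρ, ← map_mul, ← map_mul, e, map_mul, map_inv]
    have e2 : QuotientGroup.mk' N₀ ((⟨x, hxK⟩ : ↥K) * ⟨x, hxK⟩) = 1 := by
      apply (QuotientGroup.eq_one_iff _).2
      rw [hN₀]
      exact Subgroup.mem_zpowers _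
    rw [e2, mul_one]
  have hρ1 : ρ ≠ 1 := by
    intro h1
    rw [hρ] at h1
    have h4 := (QuotientGroup.eq_one_iff _).1 h1
    obtain ⟨i, hi⟩ := hpow_x _ h4
    apply hnc
    have hi' : y' = (x * x) ^ i := hi
    have hcomm : Commute x ((x * x) ^ i) := (Commute.mul_right (Commute.refl x) (Commute.refl x)).zpow_right i
    rw [hi']
    exact hcomm
  have hord : orderOf ρ = p := by
    apply orderOf_eq_prime
    · rw [hρ, ← map_pow]
      have e : (⟨y', hyK⟩ : ↥K) ^ p = 1 := by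
        apply Subtype.ext
        rw [SubmonoidClass.coe_pow]
        show y' ^ p = 1
        rw [← hy'o]; exact pow_orderOf_eq_one y'
      rw [e, map_one]
    · exact hρ1
  have hdz : d ∉ Subgroup.zpowers ρ := by
    rintro ⟨i, hi⟩
    have hc : Commute ρ d := by
      have hi' : d = ρ ^ i := hi.symm
      rw [hi']
      exact (Commute.refl ρ).zpow_right i
    have h4 : ρ = ρ⁻¹ := by
      rw [← h3]
      have h5 : d * ρ = ρ * d := hc.eq.symm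
      rw [h5, mul_assoc, h2, mul_one]
    have h5 : ρ ^ 2 = 1 := by
      rw [pow_two]
      nth_rewrite 1 [h4]
      exact inv_mul_cancel ρ
    have h6 : p ∣ 2 := hord ▸ orderOf_dvd_of_pow_eq_one h5
    exact hp2 ((Nat.prime_dvd_prime_iff_eq hp Nat.prime_two).1 h6)
  obtain ⟨e1⟩ := Helper1.nonempty_dihedral_mulEquiv_closure p ρ d h2 h3 hord hdz
  have htop : Subgroup.closure ({ρ, d} : Set (↥K ⧸ N₀)) = ⊤ := by
    have h7 : Subgroup.closure (((↑) : ↥K → G) ⁻¹' ({y', x} : Set G)) = (⊤ : Subgroup ↥K) := by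
      subst hK
      exact Subgroup.closure_closure_coe_preimage
    have h8 := congrArg (Subgroup.map (QuotientGroup.mk' N₀)) h7
    rw [MonoidHom.map_closure, Subgroup.map_top_of_surjective _ (QuotientGroup.mk'_surjective N₀)]
      at h8
    rw [eq_top_iff, ← h8]
    apply Subgroup.closure_mono
    rintro _ ⟨g, hg, rfl⟩
    rcases hg with hg | hg
    · left
      rw [hρ]
      congr 1
      exact Subtype.ext hg
    · right
      rw [hd]
      congr 1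
      exact Subtype.ext hg
  have e2 : DihedralGroup p ≃* (↥K ⧸ N₀) :=
    (e1.trans (MulEquiv.subgroupCongr htop)).trans Subgroup.topEquiv
  exact involves_of_quotient K N₀ e2.symm

/-- (1) implies (2). -/
theorem exists_not_centralizes_of_involves {G : Type*} [Group G] [Finite G] {p : ℕ}
    [Fact p.Prime] (hp2 : p ≠ 2) (hinv : Cfsg.Involves (DihedralGroup p) G) :
    ∃ (x : G) (P : Subgroup G), (∃ k : ℕ, orderOf x = 2 ^ k) ∧ IsPGroup p ↥P ∧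
      x ∈ Subgroup.normalizer (P : Set G) ∧ x ∉ Subgroup.centralizer (P : Set G) := by
  have hp : p.Prime := Fact.out
  obtain ⟨K, R, hn, ⟨e⟩⟩ := hinv
  obtain ⟨f, hf⟩ : ∃ f : ↥K →* DihedralGroup p,
      f = e.toMonoidHom.comp (QuotientGroup.mk' (R.subgroupOf K)) := ⟨_, rfl⟩
  have hfs : Function.Surjective f := by
    rw [hf]
    exact e.surjective.comp (QuotientGroup.mk'_surjective _)
  haveI hrn := rotSub_normal p
  obtain ⟨A, hA⟩ : ∃ A : Subgroup ↥K, A = (rotSub p).comap f := ⟨_, rfl⟩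
  haveI hAn : A.Normal := hA ▸ Subgroup.Normal.comap hrn f
  obtain ⟨u₀, hu₀⟩ := hfs (r 1)
  obtain ⟨a, m, hm, hum⟩ := Nat.exists_eq_pow_mul_and_not_dvd (orderOf_pos u₀).ne' p hp.ne_one
  have hm0 : m ≠ 0 := by
    rintro rfl
    exact hm (dvd_zero p)
  obtain ⟨u₁, hu₁⟩ : ∃ u₁ : ↥K, u₁ = u₀ ^ m := ⟨_, rfl⟩
  have hu₁o : orderOf u₁ = p ^ a := by
    rw [hu₁, orderOf_pow_of_dvd hm0 (by rw [hum]; exact dvd_mul_left m _), hum,
      Nat.mul_div_cancel _ (Nat.pos_of_ne_zero hm0)]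
  have hfu₁ : f u₁ = r (m : ZMod p) := by
    rw [hu₁, map_pow, hu₀, r_one_pow]
  have hmz : (m : ZMod p) ≠ 0 := by
    rw [Ne, ZMod.natCast_eq_zero_iff]
    exact hm
  have hu₁A : u₁ ∈ A := by
    rw [hA, Subgroup.mem_comap, hfu₁]
    exact ⟨_, rfl⟩
  have hzp : IsPGroup p ↥(Subgroup.zpowers u₁) := by
    apply IsPGroup.of_card (n := a)
    rw [Nat.card_zpowers, hu₁o]
  have hU : IsPGroup p ↥((Subgroup.zpowers u₁).subgroupOf A) :=
    hzp.comap_of_injective A.subtype A.subtype_injective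
  obtain ⟨P₀, hP₀⟩ := hU.exists_le_sylow
  obtain ⟨P, hP⟩ : ∃ P : Subgroup ↥K, P = (P₀ : Subgroup ↥A).map A.subtype := ⟨_, rfl⟩
  have hu₁P : u₁ ∈ P := by
    rw [hP]
    exact ⟨⟨u₁, hu₁A⟩, hP₀ (Subgroup.mem_subgroupOf.2 (Subgroup.mem_zpowers u₁)), rfl⟩
  have hfrat : Subgroup.normalizer ((P : Subgroup ↥K) : Set ↥K) ⊔ A = ⊤ := by
    rw [hP]
    exact Sylow.normalizer_sup_eq_top P₀
  obtain ⟨k₀, hk₀⟩ := hfs (sr 0)
  have hk₀' : k₀ ∈ Subgroup.normalizer ((P : Subgroup ↥K) : Set ↥K) ⊔ A := by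
    rw [hfrat]; trivial
  obtain ⟨n, hn, a', ha', hna⟩ := Subgroup.mem_sup_of_normal_right.1 hk₀'
  obtain ⟨i, hi⟩ : ∃ i, f n = sr i := by
    rw [hA, Subgroup.mem_comap] at ha'
    obtain ⟨j, hj⟩ := ha'
    have h1 : f n = f k₀ * (f a')⁻¹ := by
      rw [← hna, map_mul, mul_inv_cancel_right]
    rw [h1, hk₀, hj, inv_r, sr_mul_r]
    exact ⟨_, rfl⟩
  obtain ⟨b, m', hm', hnm⟩ := Nat.exists_eq_pow_mul_and_not_dvd (orderOf_pos n).ne' 2
    (by norm_num)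
  have hm'0 : m' ≠ 0 := by
    rintro rfl
    exact hm' (dvd_zero 2)
  obtain ⟨x₁, hx₁⟩ : ∃ x₁ : ↥K, x₁ = n ^ m' := ⟨_, rfl⟩
  have hx₁o : orderOf x₁ = 2 ^ b := by
    rw [hx₁, orderOf_pow_of_dvd hm'0 (by rw [hnm]; exact dvd_mul_left m' _), hnm,
      Nat.mul_div_cancel _ (Nat.pos_of_ne_zero hm'0)]
  have hx₁N : x₁ ∈ Subgroup.normalizer ((P : Subgroup ↥K) : Set ↥K) :=
    hx₁ ▸ Subgroup.pow_mem _ hn _
  have hfx₁ : f x₁ = sr i := by
    have hodd : Odd m' := Nat.not_even_iff_odd.1 (fun h => hm' (even_iff_two_dvd.1 h))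
    obtain ⟨t, ht⟩ := hodd
    rw [hx₁, map_pow, hi, ht, pow_succ, pow_mul, pow_two, sr_mul_self, one_pow, one_mul]
  have hne : u₁ * x₁ ≠ x₁ * u₁ := by
    intro h
    have h1 := congrArg f h
    rw [map_mul, map_mul, hfu₁, hfx₁, r_mul_sr, sr_mul_r] at h1
    have h2 : i - (m : ZMod p) = i + (m : ZMod p) := by
      injection h1
    have h3 : (2 : ZMod p) * (m : ZMod p) = 0 := by
      linear_combination (-1 : ZMod p) * h2
    have h2ne : (2 : ZMod p) ≠ 0 := by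
      intro h2z
      have h5 : ((2 : ℕ) : ZMod p) = 0 := by exact_mod_cast h2z
      rw [ZMod.natCast_eq_zero_iff] at h5
      exact hp2 ((Nat.prime_dvd_prime_iff_eq hp Nat.prime_two).1 h5)
    haveI : Fact p.Prime := ⟨hp⟩
    rcases mul_eq_zero.1 h3 with h6 | h6
    · exact h2ne h6
    · exact hmz h6
  refine ⟨(x₁ : G), P.map K.subtype, ⟨b, ?_⟩, ?_, ?_, ?_⟩
  · rw [Subgroup.orderOf_coe, hx₁o]
  · rw [hP]
    exact (P₀.2.map _).map _
  · apply mem_normalizer_of_conj_le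
    rintro _ ⟨_, ⟨q, hq, rfl⟩, rfl⟩
    exact ⟨x₁ * q * x₁⁻¹, (Subgroup.mem_normalizer_iff.1 hx₁N q).1 hq, rfl⟩
  · intro hc
    have h1 := Subgroup.mem_centralizer_iff.1 hc (u₁ : G) ⟨u₁, hu₁P, rfl⟩
    exact hne (Subtype.ext h1)

theorem dihedral_involved_iff {G : Type*} [Group G] [Finite G] {p : ℕ} [Fact p.Prime]
    (hp : p ≠ 2) :
    (Cfsg.Involves (DihedralGroup p) G ↔ ∃ (x : G) (P : Subgroup G),
      (∃ k : ℕ, orderOf x = 2 ^ k) ∧ IsPGroup p ↥P ∧ x ∈ Subgroup.normalizer (P : Set G) ∧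
        x ∉ Subgroup.centralizer (P : Set G)) ∧
    (Cfsg.Involves (DihedralGroup p) G ↔ ∃ x y : G, (∃ k : ℕ, orderOf x = 2 ^ k) ∧
      (∃ k : ℕ, orderOf y = p ^ k) ∧ y ≠ 1 ∧ x * y * x⁻¹ = y⁻¹) := by
  have h12 := exists_not_centralizes_of_involves (G := G) hp
  have h23 : (∃ (x : G) (P : Subgroup G), (∃ k : ℕ, orderOf x = 2 ^ k) ∧ IsPGroup p ↥P ∧
      x ∈ Subgroup.normalizer (P : Set G) ∧ x ∉ Subgroup.centralizer (P : Set G)) →
      ∃ x y : G, (∃ k : ℕ, orderOf x = 2 ^ k) ∧ (∃ k : ℕ, orderOf y = p ^ k) ∧ y ≠ 1 ∧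
        x * y * x⁻¹ = y⁻¹ := by
    rintro ⟨x, P, hx, hP, hxN, hxC⟩
    exact exists_inverted_of_not_centralizes x P hx hP hxN hxC
  have h31 : (∃ x y : G, (∃ k : ℕ, orderOf x = 2 ^ k) ∧ (∃ k : ℕ, orderOf y = p ^ k) ∧ y ≠ 1 ∧
      x * y * x⁻¹ = y⁻¹) → Cfsg.Involves (DihedralGroup p) G := by
    rintro ⟨x, y, -, hy, hy1, h⟩
    exact involves_dihedral_of_inverted hp x y hy hy1 h
  exact ⟨⟨h12, fun h => h31 (h23 h)⟩, ⟨fun h => h23 (h12 h), h31⟩⟩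

end Cfsg.Agent.Helper5
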