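import Mathlib

namespace Cfsg.Agent.Helper5

theorem padicValNat_two_pow_mul_odd (e n' : ℕ) (hn' : ¬ 2 ∣ n') : padicValNat 2 (2 ^ e * n') = e := by
  have h0 : n' ≠ 0 := by
    rintro rfl
    exact hn' (dvd_zero 2)
  rw [padicValNat.mul (pow_ne_zero _ (by norm_num)) h0, padicValNat.prime_pow,
    padicValNat.eq_zero_of_not_dvd hn', add_zero]

theorem padicValNat_lt_of_dvd_two_mul (o n : ℕ) (hn : n ≠ 0) (h1 : o ∣ 2 * n) (h2 : ¬ o ∣ n) :
    padicValNat 2 n < padicValNat 2 o := by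
  by_contra hcon
  push Not at hcon
  have ho : o ≠ 0 := by
    rintro rfl
    rw [zero_dvd_iff] at h1
    omega
  obtain ⟨e, o', ho', hoe⟩ := Nat.exists_eq_pow_mul_and_not_dvd ho 2 (by norm_num)
  have hv : padicValNat 2 o = e := by rw [hoe]; exact padicValNat_two_pow_mul_odd e o' ho'
  rw [hv] at hcon
  apply h2
  rw [hoe]
  have hcop : Nat.Coprime 2 o' := (Nat.Prime.coprime_iff_not_dvd Nat.prime_two).2 ho'
  have h3 : o' ∣ n := by
    have : o' ∣ 2 * n := dvd_trans ⟨2 ^ e, by rw [hoe, mul_comm]⟩ h1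
    exact hcop.symm.dvd_of_dvd_mul_left this
  have h4 : 2 ^ e ∣ n := dvd_trans (pow_dvd_pow 2 hcon) pow_padicValNat_dvd
  exact (Nat.Coprime.pow_left e hcop).mul_dvd_of_dvd_of_dvd h4 h3

/-- `-1` is an `n`-th power in a finite field of odd order `q` iff `v₂(n) < v₂(q - 1)`. -/
theorem exists_pow_eq_neg_one_iff {F : Type*} [Field F] [Fintype F] {q : ℕ} (hF : Fintype.card F = q)
    (hq : Odd q) {n : ℕ} (hn : 1 ≤ n) :
    (∃ c : F, c ≠ 0 ∧ c ^ n = -1) ↔ padicValNat 2 n < padicValNat 2 (q - 1) := by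
  classical
  have h2 : (2 : F) ≠ 0 := by
    apply Ring.two_ne_zero
    intro h
    have := FiniteField.even_card_of_char_two h
    rw [hF] at this
    obtain ⟨t, ht⟩ := hq
    omega
  have hneg : (-1 : F) ≠ 1 := by
    intro h
    apply h2
    linear_combination (-1 : F) * h
  have hcard : Nat.card Fˣ = q - 1 := by
    rw [Nat.card_units, Nat.card_eq_fintype_card, hF]
  have hq1 : q - 1 ≠ 0 := by
    have : 1 < Fintype.card F := Fintype.one_lt_card
    rw [hF] at this
    omega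
  constructor
  · rintro ⟨c, hc, hcn⟩
    have hu : (Units.mk0 c hc) ^ n ≠ 1 := by
      intro h
      have := congrArg Units.val h
      simp only [Units.val_pow_eq_pow_val, Units.val_mk0, Units.val_one] at this
      rw [hcn] at this
      exact hneg this
    have hu2 : (Units.mk0 c hc) ^ (2 * n) = 1 := by
      apply Units.ext
      simp only [Units.val_pow_eq_pow_val, Units.val_mk0, Units.val_one]
      rw [mul_comm, pow_mul, hcn]
      norm_num
    have h3 := padicValNat_lt_of_dvd_two_mul (orderOf (Units.mk0 c hc)) n (by omega)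
      (orderOf_dvd_of_pow_eq_one hu2) (fun h => hu (orderOf_dvd_iff_pow_eq_one.1 h))
    have h4 : orderOf (Units.mk0 c hc) ∣ q - 1 := by
      rw [← hcard]; exact orderOf_dvd_natCard _
    have h5 : padicValNat 2 (orderOf (Units.mk0 c hc)) ≤ padicValNat 2 (q - 1) :=
      (padicValNat_dvd_iff_le hq1).1 (dvd_trans pow_padicValNat_dvd h4)
    omega
  · intro hlt
    obtain ⟨e, n', hn', hne⟩ := Nat.exists_eq_pow_mul_and_not_dvd (show n ≠ 0 by omega) 2 (by norm_num)
    have hv : padicValNat 2 n = e := by rw [hne]; exact padicValNat_two_pow_mul_odd e n' hn'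
    rw [hv] at hlt
    have hdvd : 2 ^ (e + 1) ∣ q - 1 := (padicValNat_dvd_iff_le hq1).2 hlt
    obtain ⟨g, hg⟩ := IsCyclic.exists_ofOrder_eq_natCard (α := Fˣ)
    rw [hcard] at hg
    obtain ⟨k, hk⟩ := hdvd
    have hk0 : k ≠ 0 := by
      rintro rfl
      rw [mul_zero] at hk
      exact hq1 hk
    have ho : orderOf (g ^ k) = 2 ^ (e + 1) := by
      rw [orderOf_pow_of_dvd hk0 (by rw [hg, hk]; exact dvd_mul_left _ _), hg, hk,
        Nat.mul_div_cancel _ (Nat.pos_of_ne_zero hk0)]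
    have ho2 : orderOf ((g ^ k) ^ 2 ^ e) = 2 := by
      rw [orderOf_pow_of_dvd (pow_ne_zero _ (by norm_num)) (by rw [ho]; exact pow_dvd_pow (2 : ℕ) (by omega)),
        ho, pow_succ, Nat.mul_div_cancel_left _ (pow_pos (by norm_num) e)]
    have hval : (((g ^ k) ^ 2 ^ e : Fˣ) : F) = -1 := by
      have h5 : ((g ^ k) ^ 2 ^ e : Fˣ) ^ 2 = 1 := by
        have h8 := pow_orderOf_eq_one ((g ^ k) ^ 2 ^ e : Fˣ)
        rwa [ho2] at h8
      have h6 : (((g ^ k) ^ 2 ^ e : Fˣ) : F) * (((g ^ k) ^ 2 ^ e : Fˣ) : F) = 1 := by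
        have := congrArg Units.val h5
        simpa [sq] using this
      rcases mul_self_eq_one_iff.1 h6 with h7 | h7
      · exfalso
        have : ((g ^ k) ^ 2 ^ e : Fˣ) = 1 := Units.ext h7
        rw [this, orderOf_one] at ho2
        omega
      · exact h7
    refine ⟨((g ^ k : Fˣ) : F), Units.ne_zero _, ?_⟩
    have hodd : Odd n' := Nat.odd_iff.2 (by omega)
    calc ((g ^ k : Fˣ) : F) ^ n = ((((g ^ k) ^ 2 ^ e : Fˣ) : F)) ^ n' := by
          rw [hne, pow_mul]; simp
      _ = -1 := by rw [hval, hodd.neg_one_pow]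

end Cfsg.Agent.Helper5
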