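import Mathlib
import Cfsg.Prelude.Def_Characters
import Cfsg.Prelude.Def_ParabolicCharacters
import Cfsg.Agent.S0262

namespace Cfsg.Agent.Helper5

open Matrix

universe uPS

section
variable {F : Type uPS} [Field F]

/-- the upper triangular subgroup of `SL₂` -/
abbrev borelSL (F : Type uPS) [Field F] : Subgroup (Matrix.SpecialLinearGroup (Fin 2) F) :=
  (Cfsg.upperTriangularGL 2 F).comap Matrix.SpecialLinearGroup.toGL

lemma mem_borelSL (x : Matrix.SpecialLinearGroup (Fin 2) F) :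
    x ∈ borelSL F ↔ (x : Matrix (Fin 2) (Fin 2) F) 1 0 = 0 := by
  change (x : Matrix (Fin 2) (Fin 2) F).BlockTriangular id ↔ _
  constructor
  · intro h
    exact h (show id (0 : Fin 2) < id 1 by decide)
  · intro h i j hij
    fin_cases i <;> fin_cases j <;> simp_all

lemma ps_conj10 (g x : Matrix.SpecialLinearGroup (Fin 2) F) :
    ((x⁻¹ * g * x : Matrix.SpecialLinearGroup (Fin 2) F) : Matrix (Fin 2) (Fin 2) F) 1 0 =
      (x : Matrix (Fin 2) (Fin 2) F) 0 0 ^ 2 * (g : Matrix (Fin 2) (Fin 2) F) 1 0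
        + (x : Matrix (Fin 2) (Fin 2) F) 0 0 * (x : Matrix (Fin 2) (Fin 2) F) 1 0 *
          ((g : Matrix (Fin 2) (Fin 2) F) 1 1 - (g : Matrix (Fin 2) (Fin 2) F) 0 0)
        - (x : Matrix (Fin 2) (Fin 2) F) 1 0 ^ 2 * (g : Matrix (Fin 2) (Fin 2) F) 0 1 := by
  simp [Matrix.SpecialLinearGroup.coe_inv, Matrix.adjugate_fin_two, Matrix.mul_apply, Fin.sum_univ_two,
    Matrix.vecMul, dotProduct]
  ring

lemma ps_conj00 (g x : Matrix.SpecialLinearGroup (Fin 2) F) :
    ((x⁻¹ * g * x : Matrix.SpecialLinearGroup (Fin 2) F) : Matrix (Fin 2) (Fin 2) F) 0 0 =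
      ((x : Matrix (Fin 2) (Fin 2) F) 1 1 * (g : Matrix (Fin 2) (Fin 2) F) 0 0
        - (x : Matrix (Fin 2) (Fin 2) F) 0 1 * (g : Matrix (Fin 2) (Fin 2) F) 1 0) *
          (x : Matrix (Fin 2) (Fin 2) F) 0 0
      + ((x : Matrix (Fin 2) (Fin 2) F) 1 1 * (g : Matrix (Fin 2) (Fin 2) F) 0 1
        - (x : Matrix (Fin 2) (Fin 2) F) 0 1 * (g : Matrix (Fin 2) (Fin 2) F) 1 1) *
          (x : Matrix (Fin 2) (Fin 2) F) 1 0 := by
  simp [Matrix.SpecialLinearGroup.coe_inv, Matrix.adjugate_fin_two, Matrix.mul_apply, Fin.sum_univ_two,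
    Matrix.vecMul, dotProduct]
  ring

lemma ps_det (x : Matrix.SpecialLinearGroup (Fin 2) F) :
    (x : Matrix (Fin 2) (Fin 2) F) 0 0 * (x : Matrix (Fin 2) (Fin 2) F) 1 1
      - (x : Matrix (Fin 2) (Fin 2) F) 0 1 * (x : Matrix (Fin 2) (Fin 2) F) 1 0 = 1 := by
  have := x.2
  rwa [Matrix.det_fin_two] at this

lemma ps_ez_eval [DecidableEq F] (α : MulChar F ℂ) (y : Matrix.SpecialLinearGroup (Fin 2) F) :
    Cfsg.extendByZero (borelSL F)
      (fun b => α (((b : Matrix.SpecialLinearGroup (Fin 2) F) : Matrix (Fin 2) (Fin 2) F) 0 0)) y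
      = if (y : Matrix (Fin 2) (Fin 2) F) 1 0 = 0 then α ((y : Matrix (Fin 2) (Fin 2) F) 0 0) else 0 := by
  unfold Cfsg.extendByZero
  by_cases h : (y : Matrix (Fin 2) (Fin 2) F) 1 0 = 0
  · have hy : y ∈ borelSL F := (mem_borelSL y).2 h
    rw [if_pos h]
    exact Subtype.val_injective.extend_apply _ _ (⟨y, hy⟩ : borelSL F)
  · rw [if_neg h]
    apply Function.extend_apply'
    rintro ⟨⟨b, hb⟩, rfl⟩
    exact h ((mem_borelSL _).1 hb)

lemma ps_sum_ite_const {ι : Type*} [Fintype ι] (p : ι → Prop) [DecidablePred p] (c : ℂ) :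
    ∑ x, (if p x then c else 0) = (Nat.card {x // p x} : ℂ) * c := by
  rw [Finset.sum_ite, Finset.sum_const, Finset.sum_const_zero, add_zero, nsmul_eq_mul,
    Nat.card_eq_fintype_card, Fintype.card_subtype]

lemma ps_card_low0 :
    Nat.card {x : Matrix.SpecialLinearGroup (Fin 2) F // (x : Matrix (Fin 2) (Fin 2) F) 1 0 = 0}
      = Nat.card (borelSL F) :=
  (Nat.card_congr (Equiv.subtypeEquivRight (fun x => (mem_borelSL x)))).symm

/-- the Weyl element -/
def psW (F : Type uPS) [Field F] : Matrix.SpecialLinearGroup (Fin 2) F :=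
  ⟨!![0, 1; -1, 0], by simp [Matrix.det_fin_two]⟩

lemma ps_card_up0 :
    Nat.card {x : Matrix.SpecialLinearGroup (Fin 2) F // (x : Matrix (Fin 2) (Fin 2) F) 0 0 = 0}
      = Nat.card (borelSL F) := by
  rw [← ps_card_low0]
  refine Nat.card_congr ((Equiv.mulLeft (psW F)).subtypeEquiv ?_)
  intro x
  change (x : Matrix (Fin 2) (Fin 2) F) 0 0 = 0 ↔
    ((psW F * x : Matrix.SpecialLinearGroup (Fin 2) F) : Matrix (Fin 2) (Fin 2) F) 1 0 = 0
  rw [Matrix.SpecialLinearGroup.coe_mul]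
  simp [psW, Matrix.mul_apply, Fin.sum_univ_two]

lemma ps_card_borel [Fintype F] :
    Nat.card (borelSL F) = (Fintype.card F - 1) * Fintype.card F := by
  rw [← ps_card_low0]
  have e : {x : Matrix.SpecialLinearGroup (Fin 2) F // (x : Matrix (Fin 2) (Fin 2) F) 1 0 = 0} ≃ Fˣ × F :=
    { toFun := fun x =>
        (⟨(x.1 : Matrix (Fin 2) (Fin 2) F) 0 0, (x.1 : Matrix (Fin 2) (Fin 2) F) 1 1,
          by have := ps_det x.1; rw [x.2] at this; simpa using this,
          by have := ps_det x.1; rw [x.2] at this; rw [mul_comm]; simpa using this⟩,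
          (x.1 : Matrix (Fin 2) (Fin 2) F) 0 1)
      invFun := fun p =>
        ⟨(⟨!![(p.1 : F), p.2; 0, ((p.1⁻¹ : Fˣ) : F)], by simp [Matrix.det_fin_two]⟩ :
            Matrix.SpecialLinearGroup (Fin 2) F), by simp⟩
      left_inv := by
        rintro ⟨x, hx⟩
        apply Subtype.ext
        apply Matrix.SpecialLinearGroup.ext
        intro i j
        fin_cases i <;> fin_cases j
        · simp
        · simp
        · simpa using hx.symm
        · simp
      right_inv := by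
        rintro ⟨u, b⟩
        refine Prod.ext (Units.ext ?_) ?_
        · simp
        · simp }
  rw [Nat.card_congr e, Nat.card_prod, Nat.card_units, Nat.card_eq_fintype_card]

lemma ps_card_SL [Fintype F] [DecidableEq F] :
    Fintype.card (Matrix.SpecialLinearGroup (Fin 2) F) = (Fintype.card F + 1) * Nat.card (borelSL F) := by
  rw [ps_card_borel, ← Nat.card_eq_fintype_card, Cfsg.Agent.S0262.card_SL2 F]
  have hq : 1 ≤ Fintype.card F := Fintype.card_pos
  obtain ⟨k, hk⟩ : ∃ k, Fintype.card F = k + 1 := ⟨Fintype.card F - 1, by omega⟩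
  rw [hk]
  have h1 : (k + 1) ^ 2 - 1 = k * (k + 2) := by
    have : (k + 1) ^ 2 = k * (k + 2) + 1 := by ring
    omega
  rw [h1, Nat.add_sub_cancel]
  ring

lemma ps_borel_ne [Fintype F] : (Nat.card (borelSL F) : ℂ) ≠ 0 := by
  have : 0 < Nat.card (borelSL F) := Nat.card_pos
  exact_mod_cast this.ne'

variable [Fintype F] [DecidableEq F]

theorem ps_part1 (α : MulChar F ℂ) (g : Matrix.SpecialLinearGroup (Fin 2) F)
    (h01 : (g : Matrix (Fin 2) (Fin 2) F) 0 1 = 0) (h10 : (g : Matrix (Fin 2) (Fin 2) F) 1 0 = 0)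
    (hne : (g : Matrix (Fin 2) (Fin 2) F) 0 0 ^ 2 ≠ 1) :
    Cfsg.indFun (borelSL F)
      (fun b => α (((b : Matrix.SpecialLinearGroup (Fin 2) F) : Matrix (Fin 2) (Fin 2) F) 0 0)) g
      = α ((g : Matrix (Fin 2) (Fin 2) F) 0 0) + α ((g : Matrix (Fin 2) (Fin 2) F) 1 1) := by
  have hdet := ps_det g
  rw [h01, h10] at hdet
  have hne' : (g : Matrix (Fin 2) (Fin 2) F) 1 1 - (g : Matrix (Fin 2) (Fin 2) F) 0 0 ≠ 0 := by
    intro h
    apply hne
    have h2 : (g : Matrix (Fin 2) (Fin 2) F) 1 1 = (g : Matrix (Fin 2) (Fin 2) F) 0 0 := sub_eq_zero.1 h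
    rw [h2] at hdet
    rw [pow_two]
    simpa using hdet
  have key : ∀ x : Matrix.SpecialLinearGroup (Fin 2) F,
      Cfsg.extendByZero (borelSL F)
        (fun b => α (((b : Matrix.SpecialLinearGroup (Fin 2) F) : Matrix (Fin 2) (Fin 2) F) 0 0))
        (x⁻¹ * g * x)
      = (if (x : Matrix (Fin 2) (Fin 2) F) 1 0 = 0 then α ((g : Matrix (Fin 2) (Fin 2) F) 0 0) else 0)
        + (if (x : Matrix (Fin 2) (Fin 2) F) 0 0 = 0 then α ((g : Matrix (Fin 2) (Fin 2) F) 1 1) else 0) := by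
    intro x
    have hdx := ps_det x
    rw [ps_ez_eval, ps_conj10, ps_conj00, h01, h10]
    by_cases hx1 : (x : Matrix (Fin 2) (Fin 2) F) 1 0 = 0
    · have hx0 : (x : Matrix (Fin 2) (Fin 2) F) 0 0 ≠ 0 := by
        intro h0
        rw [h0, hx1] at hdx
        simp at hdx
      rw [if_pos hx1, if_neg hx0, if_pos (by rw [hx1]; ring), add_zero]
      congr 1
      rw [hx1] at hdx ⊢
      linear_combination (g : Matrix (Fin 2) (Fin 2) F) 0 0 * hdx
    · rw [if_neg hx1, zero_add]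
      by_cases hx0 : (x : Matrix (Fin 2) (Fin 2) F) 0 0 = 0
      · rw [if_pos hx0, if_pos (by rw [hx0]; ring)]
        congr 1
        rw [hx0] at hdx ⊢
        linear_combination (g : Matrix (Fin 2) (Fin 2) F) 1 1 * hdx
      · rw [if_neg hx0, if_neg]
        intro h
        apply mul_ne_zero (mul_ne_zero hx0 hx1) hne'
        linear_combination h
  unfold Cfsg.indFun
  simp_rw [key]
  rw [Finset.sum_add_distrib, ps_sum_ite_const, ps_sum_ite_const, ps_card_low0, ps_card_up0]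
  have hB := ps_borel_ne (F := F)
  field_simp

theorem ps_part2 (α : MulChar F ℂ) (g : Matrix.SpecialLinearGroup (Fin 2) F)
    (h : ∀ (c : F) (v : Fin 2 → F), v ≠ 0 → (g : Matrix (Fin 2) (Fin 2) F).mulVec v ≠ c • v) :
    Cfsg.indFun (borelSL F)
      (fun b => α (((b : Matrix.SpecialLinearGroup (Fin 2) F) : Matrix (Fin 2) (Fin 2) F) 0 0)) g = 0 := by
  unfold Cfsg.indFun
  rw [Finset.sum_eq_zero, mul_zero]
  intro x _
  rw [ps_ez_eval, if_neg]
  intro hy
  obtain ⟨y, hyd⟩ : ∃ y : Matrix.SpecialLinearGroup (Fin 2) F, y = x⁻¹ * g * x := ⟨_, rfl⟩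
  rw [← hyd] at hy
  have hmul : x * y = g * x := by rw [hyd]; group
  have hxy := congrArg (fun m : Matrix.SpecialLinearGroup (Fin 2) F => (m : Matrix (Fin 2) (Fin 2) F)) hmul
  simp only [Matrix.SpecialLinearGroup.coe_mul] at hxy
  have e00 := congrFun (congrFun hxy 0) 0
  have e10 := congrFun (congrFun hxy 1) 0
  simp only [Matrix.mul_apply, Fin.sum_univ_two, hy, mul_zero, add_zero] at e00 e10
  apply h ((y : Matrix (Fin 2) (Fin 2) F) 0 0)
    ![(x : Matrix (Fin 2) (Fin 2) F) 0 0, (x : Matrix (Fin 2) (Fin 2) F) 1 0]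
  · intro hv
    have h0 : (x : Matrix (Fin 2) (Fin 2) F) 0 0 = 0 := by simpa using congrFun hv 0
    have h1 : (x : Matrix (Fin 2) (Fin 2) F) 1 0 = 0 := by simpa using congrFun hv 1
    have hd := ps_det x
    rw [h0, h1] at hd
    simp at hd
  · ext i
    fin_cases i
    · simp only [Matrix.mulVec, dotProduct, Fin.sum_univ_two, Pi.smul_apply, smul_eq_mul]
      simp
      linear_combination -e00
    · simp only [Matrix.mulVec, dotProduct, Fin.sum_univ_two, Pi.smul_apply, smul_eq_mul]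
      simp
      linear_combination -e10

theorem ps_part3 (α : MulChar F ℂ) (g : Matrix.SpecialLinearGroup (Fin 2) F)
    (h10 : (g : Matrix (Fin 2) (Fin 2) F) 1 0 = 0)
    (heq : (g : Matrix (Fin 2) (Fin 2) F) 0 0 = (g : Matrix (Fin 2) (Fin 2) F) 1 1)
    (h01 : (g : Matrix (Fin 2) (Fin 2) F) 0 1 ≠ 0) :
    Cfsg.indFun (borelSL F)
      (fun b => α (((b : Matrix.SpecialLinearGroup (Fin 2) F) : Matrix (Fin 2) (Fin 2) F) 0 0)) g
      = α ((g : Matrix (Fin 2) (Fin 2) F) 0 0) := by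
  have key : ∀ x : Matrix.SpecialLinearGroup (Fin 2) F,
      Cfsg.extendByZero (borelSL F)
        (fun b => α (((b : Matrix.SpecialLinearGroup (Fin 2) F) : Matrix (Fin 2) (Fin 2) F) 0 0))
        (x⁻¹ * g * x)
      = (if (x : Matrix (Fin 2) (Fin 2) F) 1 0 = 0 then α ((g : Matrix (Fin 2) (Fin 2) F) 0 0) else 0) := by
    intro x
    have hdx := ps_det x
    rw [ps_ez_eval, ps_conj10, ps_conj00]
    by_cases hx1 : (x : Matrix (Fin 2) (Fin 2) F) 1 0 = 0
    · rw [if_pos hx1, if_pos (by rw [hx1, h10]; ring)]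
      congr 1
      rw [hx1] at hdx ⊢
      rw [h10]
      linear_combination (g : Matrix (Fin 2) (Fin 2) F) 0 0 * hdx
    · rw [if_neg hx1, if_neg]
      intro h
      apply mul_ne_zero (pow_ne_zero 2 hx1) h01
      linear_combination -h + (x : Matrix (Fin 2) (Fin 2) F) 0 0 ^ 2 * h10
        - (x : Matrix (Fin 2) (Fin 2) F) 0 0 * (x : Matrix (Fin 2) (Fin 2) F) 1 0 * heq
  unfold Cfsg.indFun
  simp_rw [key]
  rw [ps_sum_ite_const, ps_card_low0]
  have hB := ps_borel_ne (F := F)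
  field_simp

theorem ps_part4 (α : MulChar F ℂ) (g : Matrix.SpecialLinearGroup (Fin 2) F)
    (h01 : (g : Matrix (Fin 2) (Fin 2) F) 0 1 = 0) (h10 : (g : Matrix (Fin 2) (Fin 2) F) 1 0 = 0)
    (heq : (g : Matrix (Fin 2) (Fin 2) F) 0 0 = (g : Matrix (Fin 2) (Fin 2) F) 1 1) :
    Cfsg.indFun (borelSL F)
      (fun b => α (((b : Matrix.SpecialLinearGroup (Fin 2) F) : Matrix (Fin 2) (Fin 2) F) 0 0)) g
      = ((Fintype.card F : ℂ) + 1) * α ((g : Matrix (Fin 2) (Fin 2) F) 0 0) := by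
  have key : ∀ x : Matrix.SpecialLinearGroup (Fin 2) F,
      Cfsg.extendByZero (borelSL F)
        (fun b => α (((b : Matrix.SpecialLinearGroup (Fin 2) F) : Matrix (Fin 2) (Fin 2) F) 0 0))
        (x⁻¹ * g * x)
      = α ((g : Matrix (Fin 2) (Fin 2) F) 0 0) := by
    intro x
    have hdx := ps_det x
    rw [ps_ez_eval, ps_conj10, ps_conj00, if_pos]
    · congr 1
      linear_combination (g : Matrix (Fin 2) (Fin 2) F) 0 0 * hdx
        - (x : Matrix (Fin 2) (Fin 2) F) 0 1 * (x : Matrix (Fin 2) (Fin 2) F) 0 0 * h10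
        + (x : Matrix (Fin 2) (Fin 2) F) 1 1 * (x : Matrix (Fin 2) (Fin 2) F) 1 0 * h01
        + (x : Matrix (Fin 2) (Fin 2) F) 0 1 * (x : Matrix (Fin 2) (Fin 2) F) 1 0 * heq
    · linear_combination (x : Matrix (Fin 2) (Fin 2) F) 0 0 ^ 2 * h10
        - (x : Matrix (Fin 2) (Fin 2) F) 0 0 * (x : Matrix (Fin 2) (Fin 2) F) 1 0 * heq
        - (x : Matrix (Fin 2) (Fin 2) F) 1 0 ^ 2 * h01
  unfold Cfsg.indFun
  simp_rw [key]
  rw [Finset.sum_const, Finset.card_univ, nsmul_eq_mul, ps_card_SL]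
  have hB := ps_borel_ne (F := F)
  push_cast
  field_simp

end

end Cfsg.Agent.Helper5
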