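import Mathlib
import Cfsg.Agent.Helper5.PrinSer

namespace Cfsg.Agent.Helper5

universe uPT

theorem ps_triple_sum {G : Type*} [Group G] [Fintype G] (A Bf : G → ℂ) :
    ∑ g : G, (∑ x : G, A (x⁻¹ * g * x)) * (∑ y : G, Bf (y⁻¹ * g * y))
      = (Fintype.card G : ℂ) * ∑ b : G, A b * ∑ z : G, Bf (z⁻¹ * b * z) := by
  have hS : ∀ x b : G, ∑ y : G, Bf (y⁻¹ * (x * b * x⁻¹) * y) = ∑ z : G, Bf (z⁻¹ * b * z) := by
    intro x b
    refine (Fintype.sum_equiv (Equiv.mulLeft x) (fun z => Bf (z⁻¹ * b * z))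
      (fun y => Bf (y⁻¹ * (x * b * x⁻¹) * y)) (fun z => ?_)).symm
    simp only [Equiv.coe_mulLeft]
    congr 1
    group
  have hx : ∀ x : G, ∑ g : G, A (x⁻¹ * g * x) * (∑ y : G, Bf (y⁻¹ * g * y))
      = ∑ b : G, A b * ∑ z : G, Bf (z⁻¹ * b * z) := by
    intro x
    refine (Fintype.sum_equiv (MulAut.conj x).toEquiv (fun b => A b * ∑ z : G, Bf (z⁻¹ * b * z))
      (fun g => A (x⁻¹ * g * x) * (∑ y : G, Bf (y⁻¹ * g * y))) (fun b => ?_)).symm
    simp only [MulEquiv.toEquiv_eq_coe, MulEquiv.coe_toEquiv, MulAut.conj_apply]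
    rw [hS]
    congr 2
    group
  simp_rw [Finset.sum_mul]
  rw [Finset.sum_comm]
  rw [Finset.sum_congr rfl (fun x _ => hx x), Finset.sum_const, Finset.card_univ, nsmul_eq_mul]

section
variable {F : Type uPT} [Field F] [Fintype F] [DecidableEq F]

/-- upper triangular element with given diagonal unit and corner -/
def psB (u : Fˣ) (c : F) : Matrix.SpecialLinearGroup (Fin 2) F :=
  ⟨!![(u : F), c; 0, ((u⁻¹ : Fˣ) : F)], by simp [Matrix.det_fin_two]⟩

omit [Fintype F] [DecidableEq F] in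
lemma psB_00 (u : Fˣ) (c : F) : ((psB u c : Matrix.SpecialLinearGroup (Fin 2) F) :
    Matrix (Fin 2) (Fin 2) F) 0 0 = (u : F) := by simp [psB]

omit [Fintype F] [DecidableEq F] in
lemma psB_01 (u : Fˣ) (c : F) : ((psB u c : Matrix.SpecialLinearGroup (Fin 2) F) :
    Matrix (Fin 2) (Fin 2) F) 0 1 = c := by simp [psB]

omit [Fintype F] [DecidableEq F] in
lemma psB_10 (u : Fˣ) (c : F) : ((psB u c : Matrix.SpecialLinearGroup (Fin 2) F) :
    Matrix (Fin 2) (Fin 2) F) 1 0 = 0 := by simp [psB]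

omit [Fintype F] [DecidableEq F] in
lemma psB_11 (u : Fˣ) (c : F) : ((psB u c : Matrix.SpecialLinearGroup (Fin 2) F) :
    Matrix (Fin 2) (Fin 2) F) 1 1 = ((u⁻¹ : Fˣ) : F) := by simp [psB]

theorem ps_sum_borel (f : Matrix.SpecialLinearGroup (Fin 2) F → ℂ) :
    ∑ b : Matrix.SpecialLinearGroup (Fin 2) F,
        (if (b : Matrix (Fin 2) (Fin 2) F) 1 0 = 0 then f b else 0)
      = ∑ u : Fˣ, ∑ c : F, f (psB u c) := by
  rw [← Fintype.sum_prod_type', ← Finset.sum_filter]
  symm
  apply Finset.sum_bij (fun (p : Fˣ × F) _ => psB p.1 p.2)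
  · intro p _
    rw [Finset.mem_filter]
    exact ⟨Finset.mem_univ _, psB_10 _ _⟩
  · intro p _ p' _ h
    have h0 := congrArg (fun m : Matrix.SpecialLinearGroup (Fin 2) F =>
      (m : Matrix (Fin 2) (Fin 2) F) 0 0) h
    have h1 := congrArg (fun m : Matrix.SpecialLinearGroup (Fin 2) F =>
      (m : Matrix (Fin 2) (Fin 2) F) 0 1) h
    simp only [psB_00, psB_01] at h0 h1
    exact Prod.ext (Units.ext h0) h1
  · intro b hb
    rw [Finset.mem_filter] at hb
    have hdet := ps_det b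
    rw [hb.2, mul_zero, sub_zero] at hdet
    refine ⟨(⟨(b : Matrix (Fin 2) (Fin 2) F) 0 0, (b : Matrix (Fin 2) (Fin 2) F) 1 1, hdet,
      by rw [mul_comm]; exact hdet⟩, (b : Matrix (Fin 2) (Fin 2) F) 0 1), Finset.mem_univ _, ?_⟩
    apply Matrix.SpecialLinearGroup.ext
    intro i j
    fin_cases i <;> fin_cases j
    · simp [psB]
    · simp [psB]
    · simpa [psB] using hb.2.symm
    · simp [psB]
  · intro p _
    rfl

theorem ps_sum_units (g : F → ℂ) (h0 : g 0 = 0) : ∑ u : Fˣ, g (u : F) = ∑ a : F, g a := by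
  rw [← Finset.sum_filter_of_ne (s := Finset.univ) (p := fun a : F => a ≠ 0)
    (fun a _ ha => by rintro rfl; exact ha h0)]
  apply Finset.sum_bij (fun (u : Fˣ) _ => (u : F))
  · intro u _
    rw [Finset.mem_filter]
    exact ⟨Finset.mem_univ _, u.ne_zero⟩
  · intro u _ v _ h
    exact Units.ext h
  · intro a ha
    rw [Finset.mem_filter] at ha
    exact ⟨Units.mk0 a ha.2, Finset.mem_univ _, rfl⟩
  · intro u _
    rfl

theorem ps_char_sum (α β : MulChar F ℂ) [Decidable (α = β)] [Decidable (α = β⁻¹)] :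
    ∑ u : Fˣ, α (u : F) * ((starRingEnd ℂ) (β (u : F)) + (starRingEnd ℂ) (β ((u⁻¹ : Fˣ) : F)))
      = ((Fintype.card F : ℂ) - 1) * ((if α = β then 1 else 0) + (if α = β⁻¹ then 1 else 0)) := by
  classical
  have h1 : ∀ u : Fˣ, α (u : F) * ((starRingEnd ℂ) (β (u : F)) +
      (starRingEnd ℂ) (β ((u⁻¹ : Fˣ) : F))) = (α * β⁻¹) (u : F) + (α * β) (u : F) := by
    intro u
    rw [MulChar.mul_apply, MulChar.mul_apply, mul_add]
    congr 2
    · rw [starRingEnd_apply, MulChar.star_apply']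
    · rw [starRingEnd_apply, MulChar.star_apply', MulChar.inv_apply', Units.val_inv_eq_inv_val,
        inv_inv]
  rw [Finset.sum_congr rfl (fun u _ => h1 u), Finset.sum_add_distrib]
  have hsum : ∀ χ : MulChar F ℂ, ∑ u : Fˣ, χ (u : F)
      = if χ = 1 then ((Fintype.card F : ℂ) - 1) else 0 := by
    intro χ
    rw [ps_sum_units (fun a => χ a) (MulChar.map_nonunit χ not_isUnit_zero)]
    by_cases h : χ = 1
    · rw [if_pos h, h, MulChar.sum_one_eq_card_units, Fintype.card_units,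
        Nat.cast_sub Fintype.card_pos, Nat.cast_one]
    · rw [if_neg h, MulChar.sum_eq_zero_of_ne_one h]
  rw [hsum, hsum]
  have e1 : (α * β⁻¹ = 1) ↔ α = β := mul_inv_eq_one
  have e2 : (α * β = 1) ↔ α = β⁻¹ := mul_eq_one_iff_eq_inv
  by_cases hab : α = β
  · by_cases hab' : α = β⁻¹
    · rw [if_pos (e1.2 hab), if_pos (e2.2 hab'), if_pos hab, if_pos hab']
      ring
    · rw [if_pos (e1.2 hab), if_neg (fun h => hab' (e2.1 h)), if_pos hab, if_neg hab']
      ring
  · by_cases hab' : α = β⁻¹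
    · rw [if_neg (fun h => hab (e1.1 h)), if_pos (e2.2 hab'), if_neg hab, if_pos hab']
      ring
    · rw [if_neg (fun h => hab (e1.1 h)), if_neg (fun h => hab' (e2.1 h)), if_neg hab,
        if_neg hab']
      ring

theorem ps_inner_c (β : MulChar F ℂ) (u : Fˣ) :
    ∑ c : F, ∑ z : Matrix.SpecialLinearGroup (Fin 2) F,
      (starRingEnd ℂ) (Cfsg.extendByZero (borelSL F)
        (fun b => β (((b : Matrix.SpecialLinearGroup (Fin 2) F) : Matrix (Fin 2) (Fin 2) F) 0 0))
        (z⁻¹ * psB u c * z))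
      = (Fintype.card F : ℂ) * (Nat.card (borelSL F) : ℂ) *
        ((starRingEnd ℂ) (β (u : F)) + (starRingEnd ℂ) (β ((u⁻¹ : Fˣ) : F))) := by
  rw [Finset.sum_comm]
  have hz : ∀ z : Matrix.SpecialLinearGroup (Fin 2) F,
      ∑ c : F, (starRingEnd ℂ) (Cfsg.extendByZero (borelSL F)
        (fun b => β (((b : Matrix.SpecialLinearGroup (Fin 2) F) : Matrix (Fin 2) (Fin 2) F) 0 0))
        (z⁻¹ * psB u c * z))
      = (if (z : Matrix (Fin 2) (Fin 2) F) 1 0 = 0 then
          (Fintype.card F : ℂ) * (starRingEnd ℂ) (β (u : F))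
        else (starRingEnd ℂ) (β ((u⁻¹ : Fˣ) : F))) := by
    intro z
    have hdz := ps_det z
    by_cases hz0 : (z : Matrix (Fin 2) (Fin 2) F) 1 0 = 0
    · rw [if_pos hz0]
      have h3 : ∀ c : F, (starRingEnd ℂ) (Cfsg.extendByZero (borelSL F)
          (fun b => β (((b : Matrix.SpecialLinearGroup (Fin 2) F) : Matrix (Fin 2) (Fin 2) F) 0 0))
          (z⁻¹ * psB u c * z)) = (starRingEnd ℂ) (β (u : F)) := by
        intro c
        rw [ps_ez_eval, ps_conj10, ps_conj00, psB_00, psB_01, psB_10, psB_11,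
          if_pos (by rw [hz0]; ring)]
        refine congrArg (fun t => (starRingEnd ℂ) (β t)) ?_
        rw [hz0] at hdz ⊢
        linear_combination (u : F) * hdz
      rw [Finset.sum_congr rfl (fun c _ => h3 c), Finset.sum_const, Finset.card_univ, nsmul_eq_mul]
    · rw [if_neg hz0]
      obtain ⟨c0, hc0⟩ : ∃ c0 : F, c0 = (z : Matrix (Fin 2) (Fin 2) F) 0 0 *
          (((u⁻¹ : Fˣ) : F) - (u : F)) / (z : Matrix (Fin 2) (Fin 2) F) 1 0 := ⟨_, rfl⟩
      have hc0' : c0 * (z : Matrix (Fin 2) (Fin 2) F) 1 0 = (z : Matrix (Fin 2) (Fin 2) F) 0 0 *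
          (((u⁻¹ : Fˣ) : F) - (u : F)) := by
        rw [hc0, div_mul_cancel₀ _ hz0]
      have h3 : ∀ c : F, (starRingEnd ℂ) (Cfsg.extendByZero (borelSL F)
          (fun b => β (((b : Matrix.SpecialLinearGroup (Fin 2) F) : Matrix (Fin 2) (Fin 2) F) 0 0))
          (z⁻¹ * psB u c * z))
          = if c = c0 then (starRingEnd ℂ) (β ((u⁻¹ : Fˣ) : F)) else 0 := by
        intro c
        rw [ps_ez_eval, ps_conj10, ps_conj00, psB_00, psB_01, psB_10, psB_11]
        by_cases hc : c = c0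
        · rw [if_pos hc, if_pos]
          · refine congrArg (fun t => (starRingEnd ℂ) (β t)) ?_
            rw [hc]
            linear_combination ((u⁻¹ : Fˣ) : F) * hdz + (z : Matrix (Fin 2) (Fin 2) F) 1 1 * hc0'
          · rw [hc]
            linear_combination (-(z : Matrix (Fin 2) (Fin 2) F) 1 0) * hc0'
        · rw [if_neg hc, if_neg, map_zero]
          intro h
          apply hc
          apply mul_right_cancel₀ hz0
          rw [hc0']
          have h4 : (z : Matrix (Fin 2) (Fin 2) F) 1 0 * ((z : Matrix (Fin 2) (Fin 2) F) 0 0 *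
              (((u⁻¹ : Fˣ) : F) - (u : F)) - c * (z : Matrix (Fin 2) (Fin 2) F) 1 0) = 0 := by
            linear_combination h
          rcases mul_eq_zero.1 h4 with h5 | h5
          · exact absurd h5 hz0
          · linear_combination -h5
      rw [Finset.sum_congr rfl (fun c _ => h3 c), Finset.sum_ite_eq', if_pos (Finset.mem_univ _)]
  rw [Finset.sum_congr rfl (fun z _ => hz z), Finset.sum_ite, Finset.sum_const, Finset.sum_const,
    nsmul_eq_mul, nsmul_eq_mul]
  have hc1 : (Finset.univ.filter (fun z : Matrix.SpecialLinearGroup (Fin 2) F =>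
      (z : Matrix (Fin 2) (Fin 2) F) 1 0 = 0)).card = Nat.card (borelSL F) := by
    rw [← ps_card_low0, Nat.card_eq_fintype_card, Fintype.card_subtype]
  have hc2 : (Finset.univ.filter (fun z : Matrix.SpecialLinearGroup (Fin 2) F =>
      ¬ (z : Matrix (Fin 2) (Fin 2) F) 1 0 = 0)).card = Fintype.card F * Nat.card (borelSL F) := by
    have h5 := Finset.card_filter_add_card_filter_not (s := (Finset.univ :
      Finset (Matrix.SpecialLinearGroup (Fin 2) F)))
      (fun z : Matrix.SpecialLinearGroup (Fin 2) F => (z : Matrix (Fin 2) (Fin 2) F) 1 0 = 0)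
    rw [hc1, Finset.card_univ, ps_card_SL] at h5
    have h6 : (Fintype.card F + 1) * Nat.card (borelSL F)
        = Nat.card (borelSL F) + Fintype.card F * Nat.card (borelSL F) := by ring
    omega
  rw [hc1, hc2]
  push_cast
  ring

theorem ps_T_eval (α β : MulChar F ℂ) :
    ∑ b : Matrix.SpecialLinearGroup (Fin 2) F,
      (Cfsg.extendByZero (borelSL F)
        (fun b => α (((b : Matrix.SpecialLinearGroup (Fin 2) F) : Matrix (Fin 2) (Fin 2) F) 0 0)) b) *
      ∑ z : Matrix.SpecialLinearGroup (Fin 2) F,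
        (starRingEnd ℂ) (Cfsg.extendByZero (borelSL F)
          (fun b => β (((b : Matrix.SpecialLinearGroup (Fin 2) F) : Matrix (Fin 2) (Fin 2) F) 0 0))
          (z⁻¹ * b * z))
      = (Fintype.card F : ℂ) * (Nat.card (borelSL F) : ℂ) *
        ∑ u : Fˣ, α (u : F) * ((starRingEnd ℂ) (β (u : F)) +
          (starRingEnd ℂ) (β ((u⁻¹ : Fˣ) : F))) := by
  have h1 : ∀ b : Matrix.SpecialLinearGroup (Fin 2) F,
      (Cfsg.extendByZero (borelSL F)
        (fun b => α (((b : Matrix.SpecialLinearGroup (Fin 2) F) : Matrix (Fin 2) (Fin 2) F) 0 0)) b) *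
      ∑ z : Matrix.SpecialLinearGroup (Fin 2) F,
        (starRingEnd ℂ) (Cfsg.extendByZero (borelSL F)
          (fun b => β (((b : Matrix.SpecialLinearGroup (Fin 2) F) : Matrix (Fin 2) (Fin 2) F) 0 0))
          (z⁻¹ * b * z))
      = if (b : Matrix (Fin 2) (Fin 2) F) 1 0 = 0 then
          α ((b : Matrix (Fin 2) (Fin 2) F) 0 0) *
          ∑ z : Matrix.SpecialLinearGroup (Fin 2) F,
            (starRingEnd ℂ) (Cfsg.extendByZero (borelSL F)
              (fun b => β (((b : Matrix.SpecialLinearGroup (Fin 2) F) : Matrix (Fin 2) (Fin 2) F) 0 0))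
              (z⁻¹ * b * z))
        else 0 := by
    intro b
    rw [ps_ez_eval, ite_mul, zero_mul]
  rw [Finset.sum_congr rfl (fun b _ => h1 b), ps_sum_borel, Finset.mul_sum]
  apply Finset.sum_congr rfl
  intro u _
  simp_rw [psB_00]
  rw [← Finset.mul_sum, ps_inner_c]
  ring

theorem ps_inner (α β : MulChar F ℂ) [Decidable (α = β)] [Decidable (α = β⁻¹)] :
    Cfsg.classInner
      (Cfsg.indFun (borelSL F)
        (fun b => α (((b : Matrix.SpecialLinearGroup (Fin 2) F) : Matrix (Fin 2) (Fin 2) F) 0 0)))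
      (Cfsg.indFun (borelSL F)
        (fun b => β (((b : Matrix.SpecialLinearGroup (Fin 2) F) : Matrix (Fin 2) (Fin 2) F) 0 0)))
      = (if α = β then 1 else 0) + (if α = β⁻¹ then 1 else 0) := by
  have hB := ps_borel_ne (F := F)
  have hBc : (Nat.card (borelSL F) : ℂ) = ((Fintype.card F : ℂ) - 1) * (Fintype.card F : ℂ) := by
    rw [ps_card_borel, Nat.cast_mul, Nat.cast_sub Fintype.card_pos, Nat.cast_one]
  have hG : (Fintype.card (Matrix.SpecialLinearGroup (Fin 2) F) : ℂ) ≠ 0 := by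
    have : 0 < Fintype.card (Matrix.SpecialLinearGroup (Fin 2) F) := Fintype.card_pos
    exact_mod_cast this.ne'
  unfold Cfsg.classInner Cfsg.indFun
  have hterm : ∀ g : Matrix.SpecialLinearGroup (Fin 2) F,
      ((Nat.card (borelSL F) : ℂ)⁻¹ * ∑ x : Matrix.SpecialLinearGroup (Fin 2) F,
        Cfsg.extendByZero (borelSL F)
          (fun b => α (((b : Matrix.SpecialLinearGroup (Fin 2) F) : Matrix (Fin 2) (Fin 2) F) 0 0))
          (x⁻¹ * g * x)) *
      (starRingEnd ℂ) ((Nat.card (borelSL F) : ℂ)⁻¹ * ∑ y : Matrix.SpecialLinearGroup (Fin 2) F,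
        Cfsg.extendByZero (borelSL F)
          (fun b => β (((b : Matrix.SpecialLinearGroup (Fin 2) F) : Matrix (Fin 2) (Fin 2) F) 0 0))
          (y⁻¹ * g * y))
      = (Nat.card (borelSL F) : ℂ)⁻¹ * (Nat.card (borelSL F) : ℂ)⁻¹ *
        ((∑ x : Matrix.SpecialLinearGroup (Fin 2) F,
          Cfsg.extendByZero (borelSL F)
            (fun b => α (((b : Matrix.SpecialLinearGroup (Fin 2) F) : Matrix (Fin 2) (Fin 2) F) 0 0))
            (x⁻¹ * g * x)) *
        (∑ y : Matrix.SpecialLinearGroup (Fin 2) F,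
          (starRingEnd ℂ) (Cfsg.extendByZero (borelSL F)
            (fun b => β (((b : Matrix.SpecialLinearGroup (Fin 2) F) : Matrix (Fin 2) (Fin 2) F) 0 0))
            (y⁻¹ * g * y)))) := by
    intro g
    rw [map_mul, map_inv₀, Complex.conj_natCast, map_sum]
    ring
  rw [Finset.sum_congr rfl (fun g _ => hterm g), ← Finset.mul_sum]
  have hts := ps_triple_sum (G := Matrix.SpecialLinearGroup (Fin 2) F)
    (Cfsg.extendByZero (borelSL F)
      (fun b => α (((b : Matrix.SpecialLinearGroup (Fin 2) F) : Matrix (Fin 2) (Fin 2) F) 0 0)))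
    (fun h => (starRingEnd ℂ) (Cfsg.extendByZero (borelSL F)
      (fun b => β (((b : Matrix.SpecialLinearGroup (Fin 2) F) : Matrix (Fin 2) (Fin 2) F) 0 0)) h))
  beta_reduce at hts
  rw [hts, ps_T_eval, ps_char_sum, Nat.card_eq_fintype_card, hBc]
  have hq1 : ((Fintype.card F : ℂ) - 1) ≠ 0 := by
    intro h
    apply hB
    rw [hBc, h, zero_mul]
  have hq0 : (Fintype.card F : ℂ) ≠ 0 := by
    intro h
    apply hB
    rw [hBc, h, mul_zero]
  field_simp

end

end Cfsg.Agent.Helper5
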