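import Mathlib
import Cfsg.Agent.Helper5.PrinSer2
import Cfsg.Agent.S0148
import Cfsg.Agent.Lead.CharCore5
import Cfsg.Agent.Lead.CharLin2

namespace Cfsg.Agent.Helper5

universe uGP

section
variable {F : Type uGP} [Field F] [Fintype F] [DecidableEq F]

omit [Fintype F] [DecidableEq F] in
lemma gp_mem (x : Matrix.GeneralLinearGroup (Fin 2) F) :
    x ∈ Cfsg.upperTriangularGL 2 F ↔ (x : Matrix (Fin 2) (Fin 2) F) 1 0 = 0 := by
  change (x : Matrix (Fin 2) (Fin 2) F).BlockTriangular id ↔ _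
  constructor
  · intro h
    exact h (show id (0 : Fin 2) < id 1 by decide)
  · intro h i j hij
    fin_cases i <;> fin_cases j <;> simp_all

omit [Fintype F] in
lemma gp_ez_eval (α β : MulChar F ℂ) (y : Matrix.GeneralLinearGroup (Fin 2) F) :
    Cfsg.extendByZero (Cfsg.upperTriangularGL 2 F)
      (fun b => α (((b : Matrix.GeneralLinearGroup (Fin 2) F) : Matrix (Fin 2) (Fin 2) F) 0 0) *
        β (((b : Matrix.GeneralLinearGroup (Fin 2) F) : Matrix (Fin 2) (Fin 2) F) 1 1)) y
      = if (y : Matrix (Fin 2) (Fin 2) F) 1 0 = 0 then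
          α ((y : Matrix (Fin 2) (Fin 2) F) 0 0) * β ((y : Matrix (Fin 2) (Fin 2) F) 1 1) else 0 := by
  unfold Cfsg.extendByZero
  by_cases h : (y : Matrix (Fin 2) (Fin 2) F) 1 0 = 0
  · have hy : y ∈ Cfsg.upperTriangularGL 2 F := (gp_mem y).2 h
    rw [if_pos h]
    exact Subtype.val_injective.extend_apply _ _ (⟨y, hy⟩ : Cfsg.upperTriangularGL 2 F)
  · rw [if_neg h]
    apply Function.extend_apply'
    rintro ⟨⟨b, hb⟩, rfl⟩
    exact h ((gp_mem _).1 hb)

omit [Fintype F] [DecidableEq F] in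
lemma gp_det (z : Matrix.GeneralLinearGroup (Fin 2) F) :
    (z : Matrix (Fin 2) (Fin 2) F) 0 0 * (z : Matrix (Fin 2) (Fin 2) F) 1 1
      - (z : Matrix (Fin 2) (Fin 2) F) 0 1 * (z : Matrix (Fin 2) (Fin 2) F) 1 0 ≠ 0 := by
  have h := (Matrix.isUnits_det_units z).ne_zero
  rwa [Matrix.det_fin_two] at h

/-- upper triangular element of `GL₂` -/
noncomputable def gpB (u v : Fˣ) (c : F) : Matrix.GeneralLinearGroup (Fin 2) F :=
  Matrix.GeneralLinearGroup.mkOfDetNeZero !![(u : F), c; 0, (v : F)]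
    (by simp [Matrix.det_fin_two])

omit [Fintype F] in
lemma gpB_val (u v : Fˣ) (c : F) :
    ((gpB u v c : Matrix.GeneralLinearGroup (Fin 2) F) : Matrix (Fin 2) (Fin 2) F)
      = !![(u : F), c; 0, (v : F)] := rfl

omit [Fintype F] in
lemma gp_rel (z y : Matrix.GeneralLinearGroup (Fin 2) F) (u v : Fˣ) (c : F)
    (hy : y = z⁻¹ * gpB u v c * z) :
    (z : Matrix (Fin 2) (Fin 2) F) 0 0 * (y : Matrix (Fin 2) (Fin 2) F) 0 0
        + (z : Matrix (Fin 2) (Fin 2) F) 0 1 * (y : Matrix (Fin 2) (Fin 2) F) 1 0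
      = (u : F) * (z : Matrix (Fin 2) (Fin 2) F) 0 0 + c * (z : Matrix (Fin 2) (Fin 2) F) 1 0 ∧
    (z : Matrix (Fin 2) (Fin 2) F) 1 0 * (y : Matrix (Fin 2) (Fin 2) F) 0 0
        + (z : Matrix (Fin 2) (Fin 2) F) 1 1 * (y : Matrix (Fin 2) (Fin 2) F) 1 0
      = (v : F) * (z : Matrix (Fin 2) (Fin 2) F) 1 0 ∧
    (z : Matrix (Fin 2) (Fin 2) F) 0 0 * (y : Matrix (Fin 2) (Fin 2) F) 0 1
        + (z : Matrix (Fin 2) (Fin 2) F) 0 1 * (y : Matrix (Fin 2) (Fin 2) F) 1 1
      = (u : F) * (z : Matrix (Fin 2) (Fin 2) F) 0 1 + c * (z : Matrix (Fin 2) (Fin 2) F) 1 1 ∧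
    (z : Matrix (Fin 2) (Fin 2) F) 1 0 * (y : Matrix (Fin 2) (Fin 2) F) 0 1
        + (z : Matrix (Fin 2) (Fin 2) F) 1 1 * (y : Matrix (Fin 2) (Fin 2) F) 1 1
      = (v : F) * (z : Matrix (Fin 2) (Fin 2) F) 1 1 := by
  have hmul : z * y = gpB u v c * z := by rw [hy]; group
  have h := congrArg (fun m : Matrix.GeneralLinearGroup (Fin 2) F =>
    (m : Matrix (Fin 2) (Fin 2) F)) hmul
  simp only [Units.val_mul, gpB_val] at h
  have e00 := congrFun (congrFun h 0) 0
  have e10 := congrFun (congrFun h 1) 0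
  have e01 := congrFun (congrFun h 0) 1
  have e11 := congrFun (congrFun h 1) 1
  simp [Matrix.mul_apply, Fin.sum_univ_two] at e00 e10 e01 e11
  exact ⟨by linear_combination e00, by linear_combination e10, by linear_combination e01,
    by linear_combination e11⟩

theorem gp_sum_borel (f : Matrix.GeneralLinearGroup (Fin 2) F → ℂ) :
    ∑ b : Matrix.GeneralLinearGroup (Fin 2) F,
        (if (b : Matrix (Fin 2) (Fin 2) F) 1 0 = 0 then f b else 0)
      = ∑ p : Fˣ × Fˣ × F, f (gpB p.1 p.2.1 p.2.2) := by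
  rw [← Finset.sum_filter]
  symm
  apply Finset.sum_bij (fun (p : Fˣ × Fˣ × F) _ => gpB p.1 p.2.1 p.2.2)
  · intro p _
    rw [Finset.mem_filter]
    refine ⟨Finset.mem_univ _, ?_⟩
    rw [gpB_val]
    simp
  · intro p _ p' _ h
    have hm := congrArg (fun m : Matrix.GeneralLinearGroup (Fin 2) F =>
      (m : Matrix (Fin 2) (Fin 2) F)) h
    simp only [gpB_val] at hm
    have h0 := congrFun (congrFun hm 0) 0
    have h1 := congrFun (congrFun hm 0) 1
    have h2 := congrFun (congrFun hm 1) 1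
    simp at h0 h1 h2
    exact Prod.ext (Units.ext h0) (Prod.ext (Units.ext h2) h1)
  · intro b hb
    rw [Finset.mem_filter] at hb
    have hdet := gp_det b
    rw [hb.2, mul_zero, sub_zero] at hdet
    have h00 : (b : Matrix (Fin 2) (Fin 2) F) 0 0 ≠ 0 := left_ne_zero_of_mul hdet
    have h11 : (b : Matrix (Fin 2) (Fin 2) F) 1 1 ≠ 0 := right_ne_zero_of_mul hdet
    refine ⟨(Units.mk0 _ h00, Units.mk0 _ h11, (b : Matrix (Fin 2) (Fin 2) F) 0 1),
      Finset.mem_univ _, ?_⟩
    apply Units.ext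
    rw [gpB_val]
    ext i j
    fin_cases i <;> fin_cases j
    · simp
    · simp
    · simpa using hb.2.symm
    · simp
  · intro p _
    rfl

theorem gp_hsum (χ ψ : MulChar F ℂ) :
    ∑ u : Fˣ, χ (u : F) * (starRingEnd ℂ) (ψ (u : F))
      = if χ = ψ then ((Fintype.card F : ℂ) - 1) else 0 := by
  have h1 : ∀ u : Fˣ, χ (u : F) * (starRingEnd ℂ) (ψ (u : F)) = (χ * ψ⁻¹) (u : F) := by
    intro u
    rw [MulChar.mul_apply, starRingEnd_apply, MulChar.star_apply']
  rw [Finset.sum_congr rfl (fun u _ => h1 u),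
    ps_sum_units (fun a => (χ * ψ⁻¹) a) (MulChar.map_nonunit _ not_isUnit_zero)]
  by_cases h : χ = ψ
  · rw [if_pos h, h, mul_inv_cancel, MulChar.sum_one_eq_card_units, Fintype.card_units,
      Nat.cast_sub Fintype.card_pos, Nat.cast_one]
  · rw [if_neg h, MulChar.sum_eq_zero_of_ne_one (fun h' => h (mul_inv_eq_one.1 h'))]

theorem gp_counts :
    ((Finset.univ.filter (fun z : Matrix.GeneralLinearGroup (Fin 2) F =>
      (z : Matrix (Fin 2) (Fin 2) F) 1 0 = 0)).card
        = (Fintype.card F - 1) * (Fintype.card F - 1) * Fintype.card F) ∧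
    ((Finset.univ.filter (fun z : Matrix.GeneralLinearGroup (Fin 2) F =>
      ¬ (z : Matrix (Fin 2) (Fin 2) F) 1 0 = 0)).card
        = Fintype.card F * ((Fintype.card F - 1) * (Fintype.card F - 1) * Fintype.card F)) := by
  have h1 : (Finset.univ.filter (fun z : Matrix.GeneralLinearGroup (Fin 2) F =>
      (z : Matrix (Fin 2) (Fin 2) F) 1 0 = 0)).card
        = (Fintype.card F - 1) * (Fintype.card F - 1) * Fintype.card F := by
    have h := gp_sum_borel (F := F) (fun _ => (1 : ℂ))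
    rw [Finset.sum_boole] at h
    have h' : ((Finset.univ.filter (fun z : Matrix.GeneralLinearGroup (Fin 2) F =>
        (z : Matrix (Fin 2) (Fin 2) F) 1 0 = 0)).card : ℂ)
        = (((Fintype.card F - 1) * (Fintype.card F - 1) * Fintype.card F : ℕ) : ℂ) := by
      rw [h]
      simp [Fintype.card_units, mul_assoc]
    exact_mod_cast h'
  refine ⟨h1, ?_⟩
  have h5 := Finset.card_filter_add_card_filter_not (s := (Finset.univ :
    Finset (Matrix.GeneralLinearGroup (Fin 2) F)))
    (fun z : Matrix.GeneralLinearGroup (Fin 2) F => (z : Matrix (Fin 2) (Fin 2) F) 1 0 = 0)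
  have hGL : Fintype.card (Matrix.GeneralLinearGroup (Fin 2) F)
      = (Fintype.card F ^ 2 - 1) * (Fintype.card F ^ 2 - Fintype.card F) := by
    rw [← Nat.card_eq_fintype_card, Matrix.card_GL_field, Fin.prod_univ_two]
    simp only [Fin.val_zero, Fin.val_one, pow_zero, pow_one]
  rw [h1, Finset.card_univ, hGL] at h5
  have hq : 1 ≤ Fintype.card F := Fintype.card_pos
  obtain ⟨k, hk⟩ : ∃ k, Fintype.card F = k + 1 := ⟨Fintype.card F - 1, by omega⟩
  rw [hk] at h5 ⊢
  have e1 : (k + 1) ^ 2 - 1 = k * (k + 2) := by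
    have : (k + 1) ^ 2 = k * (k + 2) + 1 := by ring
    omega
  have e2 : (k + 1) ^ 2 - (k + 1) = (k + 1) * k := by
    have : (k + 1) ^ 2 = (k + 1) * k + (k + 1) := by ring
    omega
  rw [e1, e2, Nat.add_sub_cancel] at h5
  rw [Nat.add_sub_cancel]
  have e3 : k * (k + 2) * ((k + 1) * k) = k * k * (k + 1) + (k + 1) * (k * k * (k + 1)) := by ring
  omega

theorem gp_inner_c (α β : MulChar F ℂ) (u v : Fˣ) :
    ∑ c : F, ∑ z : Matrix.GeneralLinearGroup (Fin 2) F,
      (starRingEnd ℂ) (Cfsg.extendByZero (Cfsg.upperTriangularGL 2 F)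
        (fun b => α (((b : Matrix.GeneralLinearGroup (Fin 2) F) : Matrix (Fin 2) (Fin 2) F) 0 0) *
          β (((b : Matrix.GeneralLinearGroup (Fin 2) F) : Matrix (Fin 2) (Fin 2) F) 1 1))
        (z⁻¹ * gpB u v c * z))
      = (Fintype.card F : ℂ) *
        ((((Fintype.card F - 1) * (Fintype.card F - 1) * Fintype.card F : ℕ) : ℂ)) *
        ((starRingEnd ℂ) (α (u : F) * β (v : F)) + (starRingEnd ℂ) (α (v : F) * β (u : F))) := by
  rw [Finset.sum_comm]
  have hz : ∀ z : Matrix.GeneralLinearGroup (Fin 2) F,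
      ∑ c : F, (starRingEnd ℂ) (Cfsg.extendByZero (Cfsg.upperTriangularGL 2 F)
        (fun b => α (((b : Matrix.GeneralLinearGroup (Fin 2) F) : Matrix (Fin 2) (Fin 2) F) 0 0) *
          β (((b : Matrix.GeneralLinearGroup (Fin 2) F) : Matrix (Fin 2) (Fin 2) F) 1 1))
        (z⁻¹ * gpB u v c * z))
      = (if (z : Matrix (Fin 2) (Fin 2) F) 1 0 = 0 then
          (Fintype.card F : ℂ) * (starRingEnd ℂ) (α (u : F) * β (v : F))
        else (starRingEnd ℂ) (α (v : F) * β (u : F))) := by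
    intro z
    have hD := gp_det z
    by_cases hz0 : (z : Matrix (Fin 2) (Fin 2) F) 1 0 = 0
    · rw [if_pos hz0]
      have hz00 : (z : Matrix (Fin 2) (Fin 2) F) 0 0 ≠ 0 := by
        intro h
        apply hD
        rw [h, hz0]
        ring
      have hz11 : (z : Matrix (Fin 2) (Fin 2) F) 1 1 ≠ 0 := by
        intro h
        apply hD
        rw [h, hz0]
        ring
      have h3 : ∀ c : F, (starRingEnd ℂ) (Cfsg.extendByZero (Cfsg.upperTriangularGL 2 F)
          (fun b => α (((b : Matrix.GeneralLinearGroup (Fin 2) F) : Matrix (Fin 2) (Fin 2) F) 0 0) *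
            β (((b : Matrix.GeneralLinearGroup (Fin 2) F) : Matrix (Fin 2) (Fin 2) F) 1 1))
          (z⁻¹ * gpB u v c * z)) = (starRingEnd ℂ) (α (u : F) * β (v : F)) := by
        intro c
        obtain ⟨y, hy⟩ : ∃ y : Matrix.GeneralLinearGroup (Fin 2) F, y = z⁻¹ * gpB u v c * z :=
          ⟨_, rfl⟩
        obtain ⟨e00, e10, e01, e11⟩ := gp_rel z y u v c hy
        rw [← hy]
        have hy10 : (y : Matrix (Fin 2) (Fin 2) F) 1 0 = 0 := by
          apply mul_left_cancel₀ hz11
          linear_combination e10 - ((y : Matrix (Fin 2) (Fin 2) F) 0 0 - (v : F)) * hz0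
        have hy00 : (y : Matrix (Fin 2) (Fin 2) F) 0 0 = (u : F) := by
          apply mul_left_cancel₀ hz00
          linear_combination e00 - (z : Matrix (Fin 2) (Fin 2) F) 0 1 * hy10 + c * hz0
        have hy11 : (y : Matrix (Fin 2) (Fin 2) F) 1 1 = (v : F) := by
          apply mul_left_cancel₀ hz11
          linear_combination e11 - (y : Matrix (Fin 2) (Fin 2) F) 0 1 * hz0
        rw [gp_ez_eval, if_pos hy10, hy00, hy11]
      rw [Finset.sum_congr rfl (fun c _ => h3 c), Finset.sum_const, Finset.card_univ, nsmul_eq_mul]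
    · rw [if_neg hz0]
      obtain ⟨c0, hc0⟩ : ∃ c0 : F, c0 = (z : Matrix (Fin 2) (Fin 2) F) 0 0 *
          ((v : F) - (u : F)) / (z : Matrix (Fin 2) (Fin 2) F) 1 0 := ⟨_, rfl⟩
      have hc0' : c0 * (z : Matrix (Fin 2) (Fin 2) F) 1 0 = (z : Matrix (Fin 2) (Fin 2) F) 0 0 *
          ((v : F) - (u : F)) := by
        rw [hc0, div_mul_cancel₀ _ hz0]
      have h3 : ∀ c : F, (starRingEnd ℂ) (Cfsg.extendByZero (Cfsg.upperTriangularGL 2 F)
          (fun b => α (((b : Matrix.GeneralLinearGroup (Fin 2) F) : Matrix (Fin 2) (Fin 2) F) 0 0) *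
            β (((b : Matrix.GeneralLinearGroup (Fin 2) F) : Matrix (Fin 2) (Fin 2) F) 1 1))
          (z⁻¹ * gpB u v c * z))
          = if c = c0 then (starRingEnd ℂ) (α (v : F) * β (u : F)) else 0 := by
        intro c
        obtain ⟨y, hy⟩ : ∃ y : Matrix.GeneralLinearGroup (Fin 2) F, y = z⁻¹ * gpB u v c * z :=
          ⟨_, rfl⟩
        obtain ⟨e00, e10, e01, e11⟩ := gp_rel z y u v c hy
        rw [← hy]
        have hDy10 : ((z : Matrix (Fin 2) (Fin 2) F) 0 0 * (z : Matrix (Fin 2) (Fin 2) F) 1 1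
            - (z : Matrix (Fin 2) (Fin 2) F) 0 1 * (z : Matrix (Fin 2) (Fin 2) F) 1 0) *
            (y : Matrix (Fin 2) (Fin 2) F) 1 0
            = (z : Matrix (Fin 2) (Fin 2) F) 1 0 * ((z : Matrix (Fin 2) (Fin 2) F) 0 0 *
              ((v : F) - (u : F)) - c * (z : Matrix (Fin 2) (Fin 2) F) 1 0) := by
          linear_combination (z : Matrix (Fin 2) (Fin 2) F) 0 0 * e10
            - (z : Matrix (Fin 2) (Fin 2) F) 1 0 * e00
        by_cases hc : c = c0
        · have hcz : c * (z : Matrix (Fin 2) (Fin 2) F) 1 0 = (z : Matrix (Fin 2) (Fin 2) F) 0 0 *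
              ((v : F) - (u : F)) := by rw [hc, hc0']
          have hy10 : (y : Matrix (Fin 2) (Fin 2) F) 1 0 = 0 := by
            have h4 : ((z : Matrix (Fin 2) (Fin 2) F) 0 0 * (z : Matrix (Fin 2) (Fin 2) F) 1 1
                - (z : Matrix (Fin 2) (Fin 2) F) 0 1 * (z : Matrix (Fin 2) (Fin 2) F) 1 0) *
                (y : Matrix (Fin 2) (Fin 2) F) 1 0 = 0 := by
              rw [hDy10]
              linear_combination (-(z : Matrix (Fin 2) (Fin 2) F) 1 0) * hcz
            rcases mul_eq_zero.1 h4 with h5 | h5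
            · exact absurd h5 hD
            · exact h5
          have hy00 : (y : Matrix (Fin 2) (Fin 2) F) 0 0 = (v : F) := by
            apply mul_left_cancel₀ hz0
            linear_combination e10 - (z : Matrix (Fin 2) (Fin 2) F) 1 1 * hy10
          have hy11 : (y : Matrix (Fin 2) (Fin 2) F) 1 1 = (u : F) := by
            apply mul_left_cancel₀ hD
            linear_combination (z : Matrix (Fin 2) (Fin 2) F) 0 0 * e11
              - (z : Matrix (Fin 2) (Fin 2) F) 1 0 * e01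
              - (z : Matrix (Fin 2) (Fin 2) F) 1 1 * hcz
          rw [gp_ez_eval, if_pos hy10, hy00, hy11, if_pos hc]
        · rw [if_neg hc, gp_ez_eval, if_neg, map_zero]
          intro hy10
          apply hc
          apply mul_right_cancel₀ hz0
          rw [hc0']
          have h4 : (z : Matrix (Fin 2) (Fin 2) F) 1 0 * ((z : Matrix (Fin 2) (Fin 2) F) 0 0 *
              ((v : F) - (u : F)) - c * (z : Matrix (Fin 2) (Fin 2) F) 1 0) = 0 := by
            rw [← hDy10, hy10, mul_zero]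
          rcases mul_eq_zero.1 h4 with h5 | h5
          · exact absurd h5 hz0
          · linear_combination -h5
      rw [Finset.sum_congr rfl (fun c _ => h3 c), Finset.sum_ite_eq', if_pos (Finset.mem_univ _)]
  rw [Finset.sum_congr rfl (fun z _ => hz z), Finset.sum_ite, Finset.sum_const, Finset.sum_const,
    nsmul_eq_mul, nsmul_eq_mul, gp_counts.1, gp_counts.2]
  push_cast
  ring

theorem gp_irr (α β : MulChar F ℂ) (hαβ : α ≠ β) :
    Cfsg.IsIrrCharacter (Matrix.GeneralLinearGroup (Fin 2) F)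
      (Cfsg.indFun (Cfsg.upperTriangularGL 2 F)
        (fun b => α (((b : Matrix.GeneralLinearGroup (Fin 2) F) : Matrix (Fin 2) (Fin 2) F) 0 0) *
          β (((b : Matrix.GeneralLinearGroup (Fin 2) F) : Matrix (Fin 2) (Fin 2) F) 1 1))) := by
  have hθ : Cfsg.IsCharacter (Cfsg.upperTriangularGL 2 F)
      (fun b => α (((b : Matrix.GeneralLinearGroup (Fin 2) F) : Matrix (Fin 2) (Fin 2) F) 0 0) *
        β (((b : Matrix.GeneralLinearGroup (Fin 2) F) : Matrix (Fin 2) (Fin 2) F) 1 1)) := by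
    apply Cfsg.Agent.Lead.isCharacter_of_mul
    · show α ((((1 : Cfsg.upperTriangularGL 2 F) : Matrix.GeneralLinearGroup (Fin 2) F) :
        Matrix (Fin 2) (Fin 2) F) 0 0) * β ((((1 : Cfsg.upperTriangularGL 2 F) :
        Matrix.GeneralLinearGroup (Fin 2) F) : Matrix (Fin 2) (Fin 2) F) 1 1) = 1
      simp
    · intro a b
      have ha := (gp_mem a.1).1 a.2
      have hb := (gp_mem b.1).1 b.2
      show α ((((a * b : Cfsg.upperTriangularGL 2 F) : Matrix.GeneralLinearGroup (Fin 2) F) :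
        Matrix (Fin 2) (Fin 2) F) 0 0) * β ((((a * b : Cfsg.upperTriangularGL 2 F) :
        Matrix.GeneralLinearGroup (Fin 2) F) : Matrix (Fin 2) (Fin 2) F) 1 1)
        = α (((a : Matrix.GeneralLinearGroup (Fin 2) F) : Matrix (Fin 2) (Fin 2) F) 0 0) *
          β (((a : Matrix.GeneralLinearGroup (Fin 2) F) : Matrix (Fin 2) (Fin 2) F) 1 1) *
          (α (((b : Matrix.GeneralLinearGroup (Fin 2) F) : Matrix (Fin 2) (Fin 2) F) 0 0) *
          β (((b : Matrix.GeneralLinearGroup (Fin 2) F) : Matrix (Fin 2) (Fin 2) F) 1 1))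
      rw [Subgroup.coe_mul, Units.val_mul, Matrix.mul_apply, Matrix.mul_apply, Fin.sum_univ_two,
        Fin.sum_univ_two, hb, ha, mul_zero, add_zero, zero_mul, zero_add, map_mul, map_mul]
      ring
  have hchar := Cfsg.Agent.S0148.result (Cfsg.upperTriangularGL 2 F) _ hθ
  apply Cfsg.Agent.Lead.isIrrCharacter_of_classInner_eq_one hchar
  have hN : Nat.card (Cfsg.upperTriangularGL 2 F)
      = (Fintype.card F - 1) * (Fintype.card F - 1) * Fintype.card F := by
    rw [← gp_counts.1, ← Fintype.card_subtype, ← Nat.card_eq_fintype_card]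
    exact Nat.card_congr (Equiv.subtypeEquivRight (fun x => gp_mem x))
  have hq2 : 2 ≤ Fintype.card F := Fintype.one_lt_card
  have hNpos : ((((Fintype.card F - 1) * (Fintype.card F - 1) * Fintype.card F : ℕ)) : ℂ) ≠ 0 := by
    have h1 : 0 < Fintype.card F - 1 := by omega
    have : 0 < (Fintype.card F - 1) * (Fintype.card F - 1) * Fintype.card F :=
      Nat.mul_pos (Nat.mul_pos h1 h1) (by omega)
    exact_mod_cast this.ne'
  have hG : (Fintype.card (Matrix.GeneralLinearGroup (Fin 2) F) : ℂ) ≠ 0 := by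
    have : 0 < Fintype.card (Matrix.GeneralLinearGroup (Fin 2) F) := Fintype.card_pos
    exact_mod_cast this.ne'
  unfold Cfsg.classInner Cfsg.indFun
  rw [hN]
  have hterm : ∀ g : Matrix.GeneralLinearGroup (Fin 2) F,
      (((((Fintype.card F - 1) * (Fintype.card F - 1) * Fintype.card F : ℕ)) : ℂ)⁻¹ *
        ∑ x : Matrix.GeneralLinearGroup (Fin 2) F,
        Cfsg.extendByZero (Cfsg.upperTriangularGL 2 F)
          (fun b => α (((b : Matrix.GeneralLinearGroup (Fin 2) F) : Matrix (Fin 2) (Fin 2) F) 0 0) *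
            β (((b : Matrix.GeneralLinearGroup (Fin 2) F) : Matrix (Fin 2) (Fin 2) F) 1 1))
          (x⁻¹ * g * x)) *
      (starRingEnd ℂ) ((((((Fintype.card F - 1) * (Fintype.card F - 1) * Fintype.card F : ℕ)) : ℂ)⁻¹ *
        ∑ y : Matrix.GeneralLinearGroup (Fin 2) F,
        Cfsg.extendByZero (Cfsg.upperTriangularGL 2 F)
          (fun b => α (((b : Matrix.GeneralLinearGroup (Fin 2) F) : Matrix (Fin 2) (Fin 2) F) 0 0) *
            β (((b : Matrix.GeneralLinearGroup (Fin 2) F) : Matrix (Fin 2) (Fin 2) F) 1 1))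
          (y⁻¹ * g * y)))
      = ((((Fintype.card F - 1) * (Fintype.card F - 1) * Fintype.card F : ℕ)) : ℂ)⁻¹ *
        ((((Fintype.card F - 1) * (Fintype.card F - 1) * Fintype.card F : ℕ)) : ℂ)⁻¹ *
        ((∑ x : Matrix.GeneralLinearGroup (Fin 2) F,
          Cfsg.extendByZero (Cfsg.upperTriangularGL 2 F)
            (fun b => α (((b : Matrix.GeneralLinearGroup (Fin 2) F) : Matrix (Fin 2) (Fin 2) F) 0 0) *
              β (((b : Matrix.GeneralLinearGroup (Fin 2) F) : Matrix (Fin 2) (Fin 2) F) 1 1))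
            (x⁻¹ * g * x)) *
        (∑ y : Matrix.GeneralLinearGroup (Fin 2) F,
          (starRingEnd ℂ) (Cfsg.extendByZero (Cfsg.upperTriangularGL 2 F)
            (fun b => α (((b : Matrix.GeneralLinearGroup (Fin 2) F) : Matrix (Fin 2) (Fin 2) F) 0 0) *
              β (((b : Matrix.GeneralLinearGroup (Fin 2) F) : Matrix (Fin 2) (Fin 2) F) 1 1))
            (y⁻¹ * g * y)))) := by
    intro g
    rw [map_mul, map_inv₀, Complex.conj_natCast, map_sum]
    ring
  rw [Finset.sum_congr rfl (fun g _ => hterm g), ← Finset.mul_sum]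
  have hts := ps_triple_sum (G := Matrix.GeneralLinearGroup (Fin 2) F)
    (Cfsg.extendByZero (Cfsg.upperTriangularGL 2 F)
      (fun b => α (((b : Matrix.GeneralLinearGroup (Fin 2) F) : Matrix (Fin 2) (Fin 2) F) 0 0) *
        β (((b : Matrix.GeneralLinearGroup (Fin 2) F) : Matrix (Fin 2) (Fin 2) F) 1 1)))
    (fun h => (starRingEnd ℂ) (Cfsg.extendByZero (Cfsg.upperTriangularGL 2 F)
      (fun b => α (((b : Matrix.GeneralLinearGroup (Fin 2) F) : Matrix (Fin 2) (Fin 2) F) 0 0) *
        β (((b : Matrix.GeneralLinearGroup (Fin 2) F) : Matrix (Fin 2) (Fin 2) F) 1 1)) h))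
  beta_reduce at hts
  rw [hts]
  -- evaluate the remaining double sum
  have hT : ∑ b : Matrix.GeneralLinearGroup (Fin 2) F,
      Cfsg.extendByZero (Cfsg.upperTriangularGL 2 F)
        (fun b => α (((b : Matrix.GeneralLinearGroup (Fin 2) F) : Matrix (Fin 2) (Fin 2) F) 0 0) *
          β (((b : Matrix.GeneralLinearGroup (Fin 2) F) : Matrix (Fin 2) (Fin 2) F) 1 1)) b *
      ∑ z : Matrix.GeneralLinearGroup (Fin 2) F,
        (starRingEnd ℂ) (Cfsg.extendByZero (Cfsg.upperTriangularGL 2 F)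
          (fun b => α (((b : Matrix.GeneralLinearGroup (Fin 2) F) : Matrix (Fin 2) (Fin 2) F) 0 0) *
            β (((b : Matrix.GeneralLinearGroup (Fin 2) F) : Matrix (Fin 2) (Fin 2) F) 1 1))
          (z⁻¹ * b * z))
      = (Fintype.card F : ℂ) *
        ((((Fintype.card F - 1) * (Fintype.card F - 1) * Fintype.card F : ℕ) : ℂ)) *
        (((Fintype.card F : ℂ) - 1) * ((Fintype.card F : ℂ) - 1)) := by
    have h1 : ∀ b : Matrix.GeneralLinearGroup (Fin 2) F,
        Cfsg.extendByZero (Cfsg.upperTriangularGL 2 F)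
          (fun b => α (((b : Matrix.GeneralLinearGroup (Fin 2) F) : Matrix (Fin 2) (Fin 2) F) 0 0) *
            β (((b : Matrix.GeneralLinearGroup (Fin 2) F) : Matrix (Fin 2) (Fin 2) F) 1 1)) b *
        ∑ z : Matrix.GeneralLinearGroup (Fin 2) F,
          (starRingEnd ℂ) (Cfsg.extendByZero (Cfsg.upperTriangularGL 2 F)
            (fun b => α (((b : Matrix.GeneralLinearGroup (Fin 2) F) : Matrix (Fin 2) (Fin 2) F) 0 0) *
              β (((b : Matrix.GeneralLinearGroup (Fin 2) F) : Matrix (Fin 2) (Fin 2) F) 1 1))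
            (z⁻¹ * b * z))
        = if (b : Matrix (Fin 2) (Fin 2) F) 1 0 = 0 then
            (α ((b : Matrix (Fin 2) (Fin 2) F) 0 0) * β ((b : Matrix (Fin 2) (Fin 2) F) 1 1)) *
            ∑ z : Matrix.GeneralLinearGroup (Fin 2) F,
              (starRingEnd ℂ) (Cfsg.extendByZero (Cfsg.upperTriangularGL 2 F)
                (fun b => α (((b : Matrix.GeneralLinearGroup (Fin 2) F) : Matrix (Fin 2) (Fin 2) F) 0 0) *
                  β (((b : Matrix.GeneralLinearGroup (Fin 2) F) : Matrix (Fin 2) (Fin 2) F) 1 1))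
                (z⁻¹ * b * z))
          else 0 := by
      intro b
      rw [gp_ez_eval, ite_mul, zero_mul]
    rw [Finset.sum_congr rfl (fun b _ => h1 b), gp_sum_borel, Fintype.sum_prod_type]
    have h2 : ∀ u : Fˣ, ∑ x : Fˣ × F,
        (α (((gpB u x.1 x.2 : Matrix.GeneralLinearGroup (Fin 2) F) : Matrix (Fin 2) (Fin 2) F) 0 0) *
          β (((gpB u x.1 x.2 : Matrix.GeneralLinearGroup (Fin 2) F) : Matrix (Fin 2) (Fin 2) F) 1 1)) *
        ∑ z : Matrix.GeneralLinearGroup (Fin 2) F,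
          (starRingEnd ℂ) (Cfsg.extendByZero (Cfsg.upperTriangularGL 2 F)
            (fun b => α (((b : Matrix.GeneralLinearGroup (Fin 2) F) : Matrix (Fin 2) (Fin 2) F) 0 0) *
              β (((b : Matrix.GeneralLinearGroup (Fin 2) F) : Matrix (Fin 2) (Fin 2) F) 1 1))
            (z⁻¹ * gpB u x.1 x.2 * z))
        = ∑ v : Fˣ, (Fintype.card F : ℂ) *
          ((((Fintype.card F - 1) * (Fintype.card F - 1) * Fintype.card F : ℕ) : ℂ)) *
          ((α (u : F) * (starRingEnd ℂ) (α (u : F))) * (β (v : F) * (starRingEnd ℂ) (β (v : F)))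
            + (α (u : F) * (starRingEnd ℂ) (β (u : F))) *
              (β (v : F) * (starRingEnd ℂ) (α (v : F)))) := by
      intro u
      rw [Fintype.sum_prod_type]
      apply Finset.sum_congr rfl
      intro v _
      have h3 : ∀ c : F,
          ((gpB u v c : Matrix.GeneralLinearGroup (Fin 2) F) : Matrix (Fin 2) (Fin 2) F) 0 0 = (u : F) ∧
          ((gpB u v c : Matrix.GeneralLinearGroup (Fin 2) F) : Matrix (Fin 2) (Fin 2) F) 1 1 = (v : F) := by
        intro c
        rw [gpB_val]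
        simp
      simp_rw [(h3 _).1, (h3 _).2]
      rw [← Finset.mul_sum, gp_inner_c, map_mul, map_mul]
      ring
    rw [Finset.sum_congr rfl (fun u _ => h2 u)]
    have h4 : ∀ u : Fˣ, ∑ v : Fˣ, (Fintype.card F : ℂ) *
          ((((Fintype.card F - 1) * (Fintype.card F - 1) * Fintype.card F : ℕ) : ℂ)) *
          ((α (u : F) * (starRingEnd ℂ) (α (u : F))) * (β (v : F) * (starRingEnd ℂ) (β (v : F)))
            + (α (u : F) * (starRingEnd ℂ) (β (u : F))) *
              (β (v : F) * (starRingEnd ℂ) (α (v : F))))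
        = (Fintype.card F : ℂ) *
          ((((Fintype.card F - 1) * (Fintype.card F - 1) * Fintype.card F : ℕ) : ℂ)) *
          ((α (u : F) * (starRingEnd ℂ) (α (u : F))) * ((Fintype.card F : ℂ) - 1)
            + (α (u : F) * (starRingEnd ℂ) (β (u : F))) * 0) := by
      intro u
      rw [← Finset.mul_sum, Finset.sum_add_distrib, ← Finset.mul_sum, ← Finset.mul_sum,
        gp_hsum β β, gp_hsum β α, if_pos rfl, if_neg (fun h => hαβ h.symm)]
    rw [Finset.sum_congr rfl (fun u _ => h4 u), ← Finset.mul_sum]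
    simp only [mul_zero, add_zero]
    rw [← Finset.sum_mul, gp_hsum α α, if_pos rfl]
  rw [hT, Nat.card_eq_fintype_card]
  have hNc : ((((Fintype.card F - 1) * (Fintype.card F - 1) * Fintype.card F : ℕ)) : ℂ)
      = ((Fintype.card F : ℂ) - 1) * ((Fintype.card F : ℂ) - 1) * (Fintype.card F : ℂ) := by
    rw [Nat.cast_mul, Nat.cast_mul, Nat.cast_sub Fintype.card_pos, Nat.cast_one]
  rw [hNc] at hNpos ⊢
  have hq1 : ((Fintype.card F : ℂ) - 1) ≠ 0 := by
    intro h
    apply hNpos
    rw [h]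
    ring
  have hq0 : (Fintype.card F : ℂ) ≠ 0 := by
    intro h
    apply hNpos
    rw [h]
    ring
  field_simp

end

end Cfsg.Agent.Helper5
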