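import Mathlib
import Cfsg.Agent.Helper5.GL2Prin

namespace Cfsg.Agent.Helper5

universe uGQ

section
variable {F : Type uGQ} [Field F] [Fintype F] [DecidableEq F]

theorem gp_hsum' (χ ψ : MulChar F ℂ) [Decidable (χ = ψ)] :
    ∑ u : Fˣ, χ (u : F) * (starRingEnd ℂ) (ψ (u : F))
      = ((Fintype.card F : ℂ) - 1) * (if χ = ψ then 1 else 0) := by
  rw [gp_hsum]
  by_cases h : χ = ψ
  · rw [if_pos h, if_pos h, mul_one]
  · rw [if_neg h, if_neg h, mul_zero]

theorem gp_inner_gen (α β α' β' : MulChar F ℂ) [DecidableEq (MulChar F ℂ)] :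
    Cfsg.classInner
      (Cfsg.indFun (Cfsg.upperTriangularGL 2 F)
        (fun b => α (((b : Matrix.GeneralLinearGroup (Fin 2) F) : Matrix (Fin 2) (Fin 2) F) 0 0) *
          β (((b : Matrix.GeneralLinearGroup (Fin 2) F) : Matrix (Fin 2) (Fin 2) F) 1 1)))
      (Cfsg.indFun (Cfsg.upperTriangularGL 2 F)
        (fun b => α' (((b : Matrix.GeneralLinearGroup (Fin 2) F) : Matrix (Fin 2) (Fin 2) F) 0 0) *
          β' (((b : Matrix.GeneralLinearGroup (Fin 2) F) : Matrix (Fin 2) (Fin 2) F) 1 1)))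
      = (if α = α' then 1 else 0) * (if β = β' then 1 else 0)
        + (if α = β' then 1 else 0) * (if β = α' then 1 else 0) := by
  have hN : Nat.card (Cfsg.upperTriangularGL 2 F)
      = (Fintype.card F - 1) * (Fintype.card F - 1) * Fintype.card F := by
    rw [← gp_counts.1, ← Fintype.card_subtype, ← Nat.card_eq_fintype_card]
    exact Nat.card_congr (Equiv.subtypeEquivRight (fun x => gp_mem x))
  have hq2 : 2 ≤ Fintype.card F := Fintype.one_lt_card
  have hNpos : ((((Fintype.card F - 1) * (Fintype.card F - 1) * Fintype.card F : ℕ)) : ℂ) ≠ 0 := by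
    have h1 : 0 < Fintype.card F - 1 := by omega
    have : 0 < (Fintype.card F - 1) * (Fintype.card F - 1) * Fintype.card F :=
      Nat.mul_pos (Nat.mul_pos h1 h1) (by omega)
    exact_mod_cast this.ne'
  have hG : (Fintype.card (Matrix.GeneralLinearGroup (Fin 2) F) : ℂ) ≠ 0 := by
    have : 0 < Fintype.card (Matrix.GeneralLinearGroup (Fin 2) F) := Fintype.card_pos
    exact_mod_cast this.ne'
  unfold Cfsg.classInner Cfsg.indFun
  rw [hN]
  have hterm : ∀ g : Matrix.GeneralLinearGroup (Fin 2) F,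
      (((((Fintype.card F - 1) * (Fintype.card F - 1) * Fintype.card F : ℕ)) : ℂ)⁻¹ *
        ∑ x : Matrix.GeneralLinearGroup (Fin 2) F,
        Cfsg.extendByZero (Cfsg.upperTriangularGL 2 F)
          (fun b => α (((b : Matrix.GeneralLinearGroup (Fin 2) F) : Matrix (Fin 2) (Fin 2) F) 0 0) *
            β (((b : Matrix.GeneralLinearGroup (Fin 2) F) : Matrix (Fin 2) (Fin 2) F) 1 1))
          (x⁻¹ * g * x)) *
      (starRingEnd ℂ) ((((((Fintype.card F - 1) * (Fintype.card F - 1) * Fintype.card F : ℕ)) : ℂ)⁻¹ *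
        ∑ y : Matrix.GeneralLinearGroup (Fin 2) F,
        Cfsg.extendByZero (Cfsg.upperTriangularGL 2 F)
          (fun b => α' (((b : Matrix.GeneralLinearGroup (Fin 2) F) : Matrix (Fin 2) (Fin 2) F) 0 0) *
            β' (((b : Matrix.GeneralLinearGroup (Fin 2) F) : Matrix (Fin 2) (Fin 2) F) 1 1))
          (y⁻¹ * g * y)))
      = ((((Fintype.card F - 1) * (Fintype.card F - 1) * Fintype.card F : ℕ)) : ℂ)⁻¹ *
        ((((Fintype.card F - 1) * (Fintype.card F - 1) * Fintype.card F : ℕ)) : ℂ)⁻¹ *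
        ((∑ x : Matrix.GeneralLinearGroup (Fin 2) F,
          Cfsg.extendByZero (Cfsg.upperTriangularGL 2 F)
            (fun b => α (((b : Matrix.GeneralLinearGroup (Fin 2) F) : Matrix (Fin 2) (Fin 2) F) 0 0) *
              β (((b : Matrix.GeneralLinearGroup (Fin 2) F) : Matrix (Fin 2) (Fin 2) F) 1 1))
            (x⁻¹ * g * x)) *
        (∑ y : Matrix.GeneralLinearGroup (Fin 2) F,
          (starRingEnd ℂ) (Cfsg.extendByZero (Cfsg.upperTriangularGL 2 F)
            (fun b => α' (((b : Matrix.GeneralLinearGroup (Fin 2) F) : Matrix (Fin 2) (Fin 2) F) 0 0) *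
              β' (((b : Matrix.GeneralLinearGroup (Fin 2) F) : Matrix (Fin 2) (Fin 2) F) 1 1))
            (y⁻¹ * g * y)))) := by
    intro g
    rw [map_mul, map_inv₀, Complex.conj_natCast, map_sum]
    ring
  rw [Finset.sum_congr rfl (fun g _ => hterm g), ← Finset.mul_sum]
  have hts := ps_triple_sum (G := Matrix.GeneralLinearGroup (Fin 2) F)
    (Cfsg.extendByZero (Cfsg.upperTriangularGL 2 F)
      (fun b => α (((b : Matrix.GeneralLinearGroup (Fin 2) F) : Matrix (Fin 2) (Fin 2) F) 0 0) *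
        β (((b : Matrix.GeneralLinearGroup (Fin 2) F) : Matrix (Fin 2) (Fin 2) F) 1 1)))
    (fun h => (starRingEnd ℂ) (Cfsg.extendByZero (Cfsg.upperTriangularGL 2 F)
      (fun b => α' (((b : Matrix.GeneralLinearGroup (Fin 2) F) : Matrix (Fin 2) (Fin 2) F) 0 0) *
        β' (((b : Matrix.GeneralLinearGroup (Fin 2) F) : Matrix (Fin 2) (Fin 2) F) 1 1)) h))
  beta_reduce at hts
  rw [hts]
  have hT : ∑ b : Matrix.GeneralLinearGroup (Fin 2) F,
      Cfsg.extendByZero (Cfsg.upperTriangularGL 2 F)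
        (fun b => α (((b : Matrix.GeneralLinearGroup (Fin 2) F) : Matrix (Fin 2) (Fin 2) F) 0 0) *
          β (((b : Matrix.GeneralLinearGroup (Fin 2) F) : Matrix (Fin 2) (Fin 2) F) 1 1)) b *
      ∑ z : Matrix.GeneralLinearGroup (Fin 2) F,
        (starRingEnd ℂ) (Cfsg.extendByZero (Cfsg.upperTriangularGL 2 F)
          (fun b => α' (((b : Matrix.GeneralLinearGroup (Fin 2) F) : Matrix (Fin 2) (Fin 2) F) 0 0) *
            β' (((b : Matrix.GeneralLinearGroup (Fin 2) F) : Matrix (Fin 2) (Fin 2) F) 1 1))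
          (z⁻¹ * b * z))
      = (Fintype.card F : ℂ) *
        ((((Fintype.card F - 1) * (Fintype.card F - 1) * Fintype.card F : ℕ) : ℂ)) *
        ((((Fintype.card F : ℂ) - 1) * (if α = α' then 1 else 0)) *
            (((Fintype.card F : ℂ) - 1) * (if β = β' then 1 else 0))
          + (((Fintype.card F : ℂ) - 1) * (if α = β' then 1 else 0)) *
            (((Fintype.card F : ℂ) - 1) * (if β = α' then 1 else 0))) := by
    have h1 : ∀ b : Matrix.GeneralLinearGroup (Fin 2) F,
        Cfsg.extendByZero (Cfsg.upperTriangularGL 2 F)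
          (fun b => α (((b : Matrix.GeneralLinearGroup (Fin 2) F) : Matrix (Fin 2) (Fin 2) F) 0 0) *
            β (((b : Matrix.GeneralLinearGroup (Fin 2) F) : Matrix (Fin 2) (Fin 2) F) 1 1)) b *
        ∑ z : Matrix.GeneralLinearGroup (Fin 2) F,
          (starRingEnd ℂ) (Cfsg.extendByZero (Cfsg.upperTriangularGL 2 F)
            (fun b => α' (((b : Matrix.GeneralLinearGroup (Fin 2) F) : Matrix (Fin 2) (Fin 2) F) 0 0) *
              β' (((b : Matrix.GeneralLinearGroup (Fin 2) F) : Matrix (Fin 2) (Fin 2) F) 1 1))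
            (z⁻¹ * b * z))
        = if (b : Matrix (Fin 2) (Fin 2) F) 1 0 = 0 then
            (α ((b : Matrix (Fin 2) (Fin 2) F) 0 0) * β ((b : Matrix (Fin 2) (Fin 2) F) 1 1)) *
            ∑ z : Matrix.GeneralLinearGroup (Fin 2) F,
              (starRingEnd ℂ) (Cfsg.extendByZero (Cfsg.upperTriangularGL 2 F)
                (fun b => α' (((b : Matrix.GeneralLinearGroup (Fin 2) F) : Matrix (Fin 2) (Fin 2) F) 0 0) *
                  β' (((b : Matrix.GeneralLinearGroup (Fin 2) F) : Matrix (Fin 2) (Fin 2) F) 1 1))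
                (z⁻¹ * b * z))
          else 0 := by
      intro b
      rw [gp_ez_eval, ite_mul, zero_mul]
    rw [Finset.sum_congr rfl (fun b _ => h1 b), gp_sum_borel, Fintype.sum_prod_type]
    have h2 : ∀ u : Fˣ, ∑ x : Fˣ × F,
        (α (((gpB u x.1 x.2 : Matrix.GeneralLinearGroup (Fin 2) F) : Matrix (Fin 2) (Fin 2) F) 0 0) *
          β (((gpB u x.1 x.2 : Matrix.GeneralLinearGroup (Fin 2) F) : Matrix (Fin 2) (Fin 2) F) 1 1)) *
        ∑ z : Matrix.GeneralLinearGroup (Fin 2) F,
          (starRingEnd ℂ) (Cfsg.extendByZero (Cfsg.upperTriangularGL 2 F)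
            (fun b => α' (((b : Matrix.GeneralLinearGroup (Fin 2) F) : Matrix (Fin 2) (Fin 2) F) 0 0) *
              β' (((b : Matrix.GeneralLinearGroup (Fin 2) F) : Matrix (Fin 2) (Fin 2) F) 1 1))
            (z⁻¹ * gpB u x.1 x.2 * z))
        = ∑ v : Fˣ, (Fintype.card F : ℂ) *
          ((((Fintype.card F - 1) * (Fintype.card F - 1) * Fintype.card F : ℕ) : ℂ)) *
          ((α (u : F) * (starRingEnd ℂ) (α' (u : F))) * (β (v : F) * (starRingEnd ℂ) (β' (v : F)))
            + (α (u : F) * (starRingEnd ℂ) (β' (u : F))) *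
              (β (v : F) * (starRingEnd ℂ) (α' (v : F)))) := by
      intro u
      rw [Fintype.sum_prod_type]
      apply Finset.sum_congr rfl
      intro v _
      have h3 : ∀ c : F,
          ((gpB u v c : Matrix.GeneralLinearGroup (Fin 2) F) : Matrix (Fin 2) (Fin 2) F) 0 0 = (u : F) ∧
          ((gpB u v c : Matrix.GeneralLinearGroup (Fin 2) F) : Matrix (Fin 2) (Fin 2) F) 1 1 = (v : F) := by
        intro c
        rw [gpB_val]
        simp
      simp_rw [(h3 _).1, (h3 _).2]
      rw [← Finset.mul_sum, gp_inner_c, map_mul, map_mul]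
      ring
    rw [Finset.sum_congr rfl (fun u _ => h2 u)]
    have h4 : ∀ u : Fˣ, ∑ v : Fˣ, (Fintype.card F : ℂ) *
          ((((Fintype.card F - 1) * (Fintype.card F - 1) * Fintype.card F : ℕ) : ℂ)) *
          ((α (u : F) * (starRingEnd ℂ) (α' (u : F))) * (β (v : F) * (starRingEnd ℂ) (β' (v : F)))
            + (α (u : F) * (starRingEnd ℂ) (β' (u : F))) *
              (β (v : F) * (starRingEnd ℂ) (α' (v : F))))
        = (Fintype.card F : ℂ) *
          ((((Fintype.card F - 1) * (Fintype.card F - 1) * Fintype.card F : ℕ) : ℂ)) *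
          ((α (u : F) * (starRingEnd ℂ) (α' (u : F))) *
              (((Fintype.card F : ℂ) - 1) * (if β = β' then 1 else 0))
            + (α (u : F) * (starRingEnd ℂ) (β' (u : F))) *
              (((Fintype.card F : ℂ) - 1) * (if β = α' then 1 else 0))) := by
      intro u
      rw [← Finset.mul_sum, Finset.sum_add_distrib, ← Finset.mul_sum, ← Finset.mul_sum,
        gp_hsum' β β', gp_hsum' β α']
    rw [Finset.sum_congr rfl (fun u _ => h4 u), ← Finset.mul_sum, Finset.sum_add_distrib,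
      ← Finset.sum_mul, ← Finset.sum_mul, gp_hsum' α α', gp_hsum' α β']
  rw [hT, Nat.card_eq_fintype_card]
  have hNc : ((((Fintype.card F - 1) * (Fintype.card F - 1) * Fintype.card F : ℕ)) : ℂ)
      = ((Fintype.card F : ℂ) - 1) * ((Fintype.card F : ℂ) - 1) * (Fintype.card F : ℂ) := by
    rw [Nat.cast_mul, Nat.cast_mul, Nat.cast_sub Fintype.card_pos, Nat.cast_one]
  rw [hNc] at hNpos ⊢
  have hq1 : ((Fintype.card F : ℂ) - 1) ≠ 0 := by
    intro h
    apply hNpos
    rw [h]
    ring
  have hq0 : (Fintype.card F : ℂ) ≠ 0 := by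
    intro h
    apply hNpos
    rw [h]
    ring
  generalize (if α = α' then (1 : ℂ) else 0) = i1
  generalize (if β = β' then (1 : ℂ) else 0) = i2
  generalize (if α = β' then (1 : ℂ) else 0) = j1
  generalize (if β = α' then (1 : ℂ) else 0) = j2
  field_simp

theorem gp_eq_iff (α β α' β' : MulChar F ℂ) :
    Cfsg.indFun (Cfsg.upperTriangularGL 2 F)
        (fun b => α (((b : Matrix.GeneralLinearGroup (Fin 2) F) : Matrix (Fin 2) (Fin 2) F) 0 0) *
          β (((b : Matrix.GeneralLinearGroup (Fin 2) F) : Matrix (Fin 2) (Fin 2) F) 1 1))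
      = Cfsg.indFun (Cfsg.upperTriangularGL 2 F)
        (fun b => α' (((b : Matrix.GeneralLinearGroup (Fin 2) F) : Matrix (Fin 2) (Fin 2) F) 0 0) *
          β' (((b : Matrix.GeneralLinearGroup (Fin 2) F) : Matrix (Fin 2) (Fin 2) F) 1 1))
      ↔ (α = α' ∧ β = β') ∨ (α = β' ∧ β = α') := by
  classical
  constructor
  · intro h
    have hI := gp_inner_gen α β α' β'
    have hI0 := gp_inner_gen α β α β
    rw [← h, hI0, if_pos rfl, if_pos rfl] at hI
    by_contra hcon
    rw [not_or] at hcon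
    have e1 : (if α = α' then (1 : ℂ) else 0) * (if β = β' then 1 else 0) = 0 := by
      by_cases h1 : α = α'
      · by_cases h2 : β = β'
        · exact absurd ⟨h1, h2⟩ hcon.1
        · rw [if_neg h2, mul_zero]
      · rw [if_neg h1, zero_mul]
    have e2 : (if α = β' then (1 : ℂ) else 0) * (if β = α' then 1 else 0) = 0 := by
      by_cases h1 : α = β'
      · by_cases h2 : β = α'
        · exact absurd ⟨h1, h2⟩ hcon.2
        · rw [if_neg h2, mul_zero]
      · rw [if_neg h1, zero_mul]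
    rw [e1, e2] at hI
    by_cases hab : α = β
    · rw [if_pos hab, if_pos hab.symm] at hI
      norm_num at hI
    · rw [if_neg hab] at hI
      norm_num at hI
  · rintro (⟨rfl, rfl⟩ | ⟨rfl, rfl⟩)
    · rfl
    · by_cases hab : α = β
      · rw [hab]
      · have h1 := gp_irr α β hab
        have h2 := gp_irr β α (fun h => hab h.symm)
        by_contra hne
        have h0 := Cfsg.Agent.Lead.classInner_irr
          (⟨_, h1⟩ : Cfsg.IrrCharacter (Matrix.GeneralLinearGroup (Fin 2) F)) ⟨_, h2⟩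
        rw [if_neg (fun heq => hne (congrArg Subtype.val heq))] at h0
        have hI' := gp_inner_gen α β β α
        rw [h0, if_neg hab, if_neg (fun h => hab h.symm), if_pos rfl, if_pos rfl] at hI'
        norm_num at hI'

end

end Cfsg.Agent.Helper5
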