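import Mathlib
import Cfsg.Prelude.Def_LocalStructure
import Cfsg.Agent.Helper5.Basic
import Cfsg.Agent.Helper5.FixAvg
import Cfsg.Agent.Helper5.WeakCl
import Cfsg.Agent.Helper5.WeakCl2
import Cfsg.Agent.Helper5.PClosed
import Cfsg.Agent.Helper5.PIrr3
import Cfsg.Agent.Helper3.Layer2

set_option autoImplicit false

namespace Cfsg.Agent.Helper5

open scoped commutatorElement

theorem gen_fixed_decomp {G : Type*} [Group G] [Finite G] {p : ℕ} [Fact p.Prime] (V H : Subgroup G)
    (hV : Cfsg.IsElementaryAbelian p V) (hHV : H ≤ Subgroup.normalizer (V : Set G))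
    (R : Subgroup G) (hR : R = (Cfsg.pResidual p ↥H).map H.subtype) (S : Sylow p ↥R)
    (T : Subgroup G) (hT : T = ((S : Subgroup ↥R).map R.subtype))
    (hgen : ∀ W : Subgroup G, H ≤ Subgroup.normalizer (W : Set G) →
      (V ⊓ Subgroup.centralizer ((T : Subgroup G) : Set G)) ≤ W → V ≤ W) :
    ⁅V, R⁆ ⊔ (V ⊓ Subgroup.centralizer ((R : Subgroup G) : Set G)) = V := by
  have hRH : R ≤ H := by
    rw [hR]; rintro _ ⟨y, _, rfl⟩; exact y.2
  have hRV : R ≤ Subgroup.normalizer (V : Set G) := hRH.trans hHV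
  haveI := hV.1
  have hVc : ∀ a ∈ V, ∀ b ∈ V, a * b = b * a := fun a ha b hb =>
    congrArg Subtype.val (mul_comm' (⟨a, ha⟩ : V) ⟨b, hb⟩)
  have hCV : ⁅V, R⁆ ≤ V := commutator_le_left_of_le_normalizer V R hRV
  apply le_antisymm (sup_le hCV inf_le_left)
  have hHR : H ≤ Subgroup.normalizer (R : Set G) := by
    intro l hl
    apply mem_normalizer_of_conj_le
    rw [hR]
    rintro _ ⟨_, ⟨y, hy, rfl⟩, rfl⟩
    haveI := pResidual_normal' (H := ↥H) p
    exact ⟨⟨l, hl⟩ * y * ⟨l, hl⟩⁻¹, (inferInstance : (Cfsg.pResidual p ↥H).Normal).conj_mem y hy _,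
      rfl⟩
  apply hgen
  · apply le_normalizer_sup
    · intro h hh
      exact mem_normalizer_commutator V R h (hHV hh) (hHR hh)
    · intro h hh
      apply mem_normalizer_of_conj_le
      rintro _ ⟨x, hx, rfl⟩
      have hxV : x ∈ V := hx.1
      have hxC : x ∈ Subgroup.centralizer ((R : Subgroup G) : Set G) := hx.2
      refine ⟨(Subgroup.mem_normalizer_iff.1 (hHV hh) x).1 hxV, ?_⟩
      show h * x * h⁻¹ ∈ Subgroup.centralizer ((R : Subgroup G) : Set G)
      rw [Subgroup.mem_centralizer_iff]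
      intro r hr
      have hr' : h⁻¹ * r * h ∈ R := by
        have := (Subgroup.mem_normalizer_iff.1 (Subgroup.inv_mem _ (hHR hh)) r).1 hr
        rwa [inv_inv] at this
      have h1 := Subgroup.mem_centralizer_iff.1 hxC _ hr'
      show r * (h * x * h⁻¹) = h * x * h⁻¹ * r
      calc r * (h * x * h⁻¹) = h * ((h⁻¹ * r * h) * x) * h⁻¹ := by group
        _ = h * (x * (h⁻¹ * r * h)) * h⁻¹ := by rw [h1]
        _ = h * x * h⁻¹ * r := by group
  · rintro z ⟨hzV, hzT⟩
    obtain ⟨X, hX⟩ : ∃ X : Subgroup G, X = V ⊔ R := ⟨_, rfl⟩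
    have hRX : R ≤ X := hX ▸ le_sup_right
    have hVX : V ≤ X := hX ▸ le_sup_left
    have hXV : X ≤ Subgroup.normalizer (V : Set G) := hX ▸ sup_le Subgroup.le_normalizer hRV
    haveI hVn : (V.subgroupOf X).Normal :=
      (Subgroup.normal_subgroupOf_iff_le_normalizer hVX).2 hXV
    have hVe : Cfsg.IsElementaryAbelian p (V.subgroupOf X) := by
      refine ⟨⟨⟨?_⟩⟩, ?_⟩
      · rintro ⟨a, ha⟩ ⟨b, hb⟩
        apply Subtype.ext
        apply Subtype.ext
        exact hVc a (Subgroup.mem_subgroupOf.1 ha) b (Subgroup.mem_subgroupOf.1 hb)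
      · intro a ha
        apply Subtype.ext
        rw [SubmonoidClass.coe_pow]
        exact hV.2 a (Subgroup.mem_subgroupOf.1 ha)
    have hVp : IsPGroup p ↥(V.subgroupOf X) := by
      intro a
      refine ⟨1, ?_⟩
      rw [pow_one]
      apply Subtype.ext
      rw [SubmonoidClass.coe_pow]
      exact hVe.2 a a.2
    have hTR : T ≤ R := by
      rw [hT]; rintro _ ⟨y, _, rfl⟩; exact y.2
    have hTX : T ≤ X := hTR.trans hRX
    have hTp0 : IsPGroup p ↥T := by
      rw [hT]; exact S.2.map _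
    have hTp : IsPGroup p ↥(T.subgroupOf X) :=
      hTp0.comap_of_injective X.subtype X.subtype_injective
    obtain ⟨TX, hTX'⟩ := hTp.exists_le_sylow
    have hVTX : V.subgroupOf X ≤ (TX : Subgroup ↥X) :=
      (le_pCore _ hVn hVp).trans (pCore_le_sylow TX)
    have key : ∀ t ∈ (TX : Subgroup ↥X), t * (⟨z, hVX hzV⟩ : ↥X) = ⟨z, hVX hzV⟩ * t := by
      intro t ht
      apply Subtype.ext
      show (t : G) * z = z * t
      obtain ⟨v, hv, r, hr, hvr⟩ := Helper3.mem_sup_of_le_normalizer_right V R hRV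
        (z := (t : G)) (by rw [← hX]; exact t.2)
      have hrT : r ∈ T := by
        have hQp : IsPGroup p ↥(((TX : Subgroup ↥X).map X.subtype).subgroupOf R) :=
          (TX.2.map _).comap_of_injective R.subtype R.subtype_injective
        have hSQ : (S : Subgroup ↥R) ≤ ((TX : Subgroup ↥X).map X.subtype).subgroupOf R := by
          intro s hs
          rw [Subgroup.mem_subgroupOf]
          have hsT : (s : G) ∈ T := by rw [hT]; exact ⟨s, hs, rfl⟩
          exact ⟨⟨s, hTX hsT⟩, hTX' (Subgroup.mem_subgroupOf.2 hsT), rfl⟩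
        have hQS := S.3 hQp hSQ
        have hrQ : (⟨r, hr⟩ : ↥R) ∈ ((TX : Subgroup ↥X).map X.subtype).subgroupOf R := by
          rw [Subgroup.mem_subgroupOf]
          have e : r = v⁻¹ * (t : G) := by rw [← hvr]; group
          refine ⟨(⟨v, hVX hv⟩ : ↥X)⁻¹ * t, Subgroup.mul_mem _ (Subgroup.inv_mem _
            (hVTX (Subgroup.mem_subgroupOf.2 hv))) ht, ?_⟩
          show v⁻¹ * (t : G) = r
          exact e.symm
        rw [hQS] at hrQ
        rw [hT]; exact ⟨⟨r, hr⟩, hrQ, rfl⟩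
      have h1 : r * z = z * r := Subgroup.mem_centralizer_iff.1 hzT r hrT
      have h2 : v * z = z * v := hVc v hv z hzV
      rw [← hvr, mul_assoc, h1, ← mul_assoc, h2, mul_assoc]
    obtain ⟨c, hcV, hcc, hcz⟩ := fixed_eq_central_mul TX (V.subgroupOf X) hVe ⟨z, hVX hzV⟩
      (Subgroup.mem_subgroupOf.2 hzV) key
    have hc1 : (c : G) ∈ V ⊓ Subgroup.centralizer ((R : Subgroup G) : Set G) :=
      ⟨Subgroup.mem_subgroupOf.1 hcV, Subgroup.mem_centralizer_iff.2
        (fun r hr => congrArg Subtype.val (hcc ⟨r, hRX hr⟩))⟩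
    have hc2 : (c : G)⁻¹ * z ∈ ⁅V, R⁆ := by
      have h3 : ⁅V.subgroupOf X, Cfsg.pResidual p ↥X⁆ ≤ ⁅V.subgroupOf X, ⊤⁆ :=
        Subgroup.commutator_mono le_rfl le_top
      have h4 : (c : G)⁻¹ * z ∈ (⁅V.subgroupOf X, (⊤ : Subgroup ↥X)⁆).map X.subtype :=
        ⟨_, h3 hcz, rfl⟩
      rw [Subgroup.map_commutator, Subgroup.subgroupOf_map_subtype, inf_of_le_left hVX,
        ← MonoidHom.range_eq_map, Subgroup.range_subtype] at h4
      have h5 : ⁅V, X⁆ ≤ ⁅V, R⁆ := by
        rw [Subgroup.commutator_le]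
        intro v hv x hx
        obtain ⟨v', hv', r, hr, rfl⟩ := Helper3.mem_sup_of_le_normalizer_right V R hRV
          (z := x) (by rw [← hX]; exact hx)
        have hcr : ⁅v, r⁆ ∈ V := hCV (Subgroup.commutator_mem_commutator hv hr)
        have e : ⁅v, v' * r⁆ = ⁅v, r⁆ := by
          have e1 := hVc v' hv' ⁅v, r⁆ hcr
          have e2 := hVc v hv v' hv'
          calc ⁅v, v' * r⁆ = (v * v') * r * v⁻¹ * r⁻¹ * v'⁻¹ := by
                rw [commutatorElement_def]; group
            _ = (v' * v) * r * v⁻¹ * r⁻¹ * v'⁻¹ := by rw [e2]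
            _ = (v' * ⁅v, r⁆) * v'⁻¹ := by rw [commutatorElement_def]; group
            _ = (⁅v, r⁆ * v') * v'⁻¹ := by rw [e1]
            _ = ⁅v, r⁆ := by group
        rw [e]; exact Subgroup.commutator_mem_commutator hv hr
      exact h5 h4
    have e : z = (c : G) * ((c : G)⁻¹ * z) := by group
    rw [e]
    exact Subgroup.mul_mem _ (Subgroup.mem_sup_right hc1) (Subgroup.mem_sup_left hc2)

end Cfsg.Agent.Helper5
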