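import Mathlib
import Cfsg.Prelude.Def_PLocal
import Cfsg.Agent.Helper3.GlaubRepl
import Cfsg.Agent.Helper5.Basic
import Cfsg.Agent.Helper5.CD
import Cfsg.Agent.Helper5.CD4

set_option autoImplicit false

namespace Cfsg.Agent.Helper5

open scoped commutatorElement Pointwise
open Cfsg.Agent.Helper3.GR

theorem card_mul_le_of_coset_map {X Y : Type*} [Group X] [Group Y] [Finite X] [Finite Y]
    (K : Subgroup X) (L : Subgroup Y) (f : X → Y)
    (hf : ∀ a b : X, (f a)⁻¹ * f b ∈ L → a⁻¹ * b ∈ K) :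
    Nat.card X * Nat.card L ≤ Nat.card Y * Nat.card K := by
  have h1 := Subgroup.card_eq_card_quotient_mul_card_subgroup K
  have h2 := Subgroup.card_eq_card_quotient_mul_card_subgroup L
  have hinj : Function.Injective
      (fun q : X ⧸ K => (QuotientGroup.mk (f q.out) : Y ⧸ L)) := by
    intro q q' hq
    have h3 := hf _ _ (QuotientGroup.eq.1 hq)
    have h4 : (QuotientGroup.mk q.out : X ⧸ K) = QuotientGroup.mk q'.out :=
      QuotientGroup.eq.2 h3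
    rwa [QuotientGroup.out_eq', QuotientGroup.out_eq'] at h4
  have h3 := Nat.card_le_card_of_injective _ hinj
  rw [h1, h2]
  calc Nat.card (X ⧸ K) * Nat.card K * Nat.card L
      ≤ Nat.card (Y ⧸ L) * Nat.card K * Nat.card L :=
        Nat.mul_le_mul_right _ (Nat.mul_le_mul_right _ h3)
    _ = Nat.card (Y ⧸ L) * Nat.card L * Nat.card K := by ring

variable {S : Type*} [Group S]

/-- the part of the replacement hypotheses that does not involve `B`. -/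
structure NN (A : Subgroup S) (b : S) : Prop where
  comm : ∀ x ∈ A, ∀ y ∈ A, x * y = y * x
  nn : b ∈ Subgroup.normalizer ((Subgroup.normalizer (A : Set S) : Subgroup S) : Set S)

variable {A : Subgroup S} {b : S}

theorem NN.conjN (h : NN A b) {n : S} (hn : n ∈ Subgroup.normalizer (A : Set S)) :
    b * n * b⁻¹ ∈ Subgroup.normalizer (A : Set S) :=
  (Subgroup.mem_normalizer_iff.1 h.nn n).1 hn

theorem NN.conjN' (h : NN A b) {n : S} (hn : n ∈ Subgroup.normalizer (A : Set S)) :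
    b⁻¹ * n * b ∈ Subgroup.normalizer (A : Set S) := by
  have := (Subgroup.mem_normalizer_iff.1 (Subgroup.inv_mem _ h.nn) n).1 hn
  rwa [inv_inv] at this

theorem NN.cjA_le_N (h : NN A b) : cjA A b ≤ Subgroup.normalizer (A : Set S) := by
  intro y hy
  obtain ⟨a, ha, rfl⟩ := cjA_exists hy
  exact h.conjN' (Subgroup.le_normalizer ha)

theorem NN.cjA_conj_A (h : NN A b) {y a : S} (hy : y ∈ cjA A b) (ha : a ∈ A) :
    y * a * y⁻¹ ∈ A :=
  (Subgroup.mem_normalizer_iff.1 (h.cjA_le_N hy) a).1 ha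

theorem NN.A_conj_cjA (h : NN A b) {a y : S} (ha : a ∈ A) (hy : y ∈ cjA A b) :
    a * y * a⁻¹ ∈ cjA A b := by
  obtain ⟨a', ha', rfl⟩ := cjA_exists hy
  have h1 : b * a * b⁻¹ ∈ Subgroup.normalizer (A : Set S) := h.conjN (Subgroup.le_normalizer ha)
  have h2 : (b * a * b⁻¹) * a' * (b * a * b⁻¹)⁻¹ ∈ A :=
    (Subgroup.mem_normalizer_iff.1 h1 a').1 ha'
  have h3 : a * (b⁻¹ * a' * b) * a⁻¹ = b⁻¹ * ((b * a * b⁻¹) * a' * (b * a * b⁻¹)⁻¹) * b := by
    group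
  rw [h3]
  exact cjA_mem h2

theorem NN.cjA_comm (h : NN A b) : ∀ x ∈ cjA A b, ∀ y ∈ cjA A b, x * y = y * x := by
  intro x hx y hy
  obtain ⟨a, ha, rfl⟩ := cjA_exists hx
  obtain ⟨a', ha', rfl⟩ := cjA_exists hy
  have := h.comm a ha a' ha'
  calc b⁻¹ * a * b * (b⁻¹ * a' * b) = b⁻¹ * (a * a') * b := by group
    _ = b⁻¹ * (a' * a) * b := by rw [this]
    _ = b⁻¹ * a' * b * (b⁻¹ * a * b) := by group

theorem NN.H_mem (h : NN A b) {x : S} (hx : x ∈ A ⊔ cjA A b) :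
    ∃ a ∈ A, ∃ y ∈ cjA A b, a * y = x :=
  Helper3.mem_sup_of_le_normalizer_right A (cjA A b) h.cjA_le_N hx

theorem NN.D_central (h : NN A b) {d x : S} (hd : d ∈ A ⊓ cjA A b)
    (hx : x ∈ A ⊔ cjA A b) : d * x = x * d := by
  obtain ⟨a, ha, y, hy, rfl⟩ := h.H_mem hx
  have h1 := h.comm d hd.1 a ha
  have h2 := h.cjA_comm d hd.2 y hy
  rw [← mul_assoc, h1, mul_assoc, h2, mul_assoc]

theorem NN.comm_AC (h : NN A b) {a y : S} (ha : a ∈ A) (hy : y ∈ cjA A b) :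
    ⁅a, y⁆ ∈ A ⊓ cjA A b := by
  refine ⟨?_, ?_⟩
  · have h1 : ⁅a, y⁆ = a * (y * a⁻¹ * y⁻¹) := by rw [commutatorElement_def]; group
    rw [h1]
    exact A.mul_mem ha (h.cjA_conj_A hy (A.inv_mem ha))
  · have h1 : ⁅a, y⁆ = (a * y * a⁻¹) * y⁻¹ := by rw [commutatorElement_def]
    rw [h1]
    exact Subgroup.mul_mem _ (h.A_conj_cjA ha hy) (Subgroup.inv_mem _ hy)

theorem NN.psi_mem_H (h : NN A b) {a : S} (ha : a ∈ A) : psi b a ∈ A ⊔ cjA A b := by
  rw [psi_eq]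
  exact Subgroup.mul_mem _ ((le_sup_left : A ≤ A ⊔ cjA A b) ha)
    ((le_sup_right : cjA A b ≤ A ⊔ cjA A b) (cjA_mem (A.inv_mem ha)))

theorem NN.psi_mul (h : NN A b) {a a' : S} (ha : a ∈ A) (ha' : a' ∈ A) :
    ∃ c ∈ A ⊓ cjA A b, psi b a * psi b a' = c * psi b (a * a') := by
  have hc := h.comm_AC (A.inv_mem ha') (cjA_mem (b := b) (A.inv_mem ha))
  refine ⟨⁅a'⁻¹, b⁻¹ * a⁻¹ * b⁆, hc, ?_⟩
  have e1 : psi b a * psi b a' =
      (a * a') * ⁅a'⁻¹, b⁻¹ * a⁻¹ * b⁆ * (b⁻¹ * (a' * a)⁻¹ * b) := by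
    simp only [psi, commutatorElement_def]; group
  have e2 : a' * a = a * a' := h.comm a' ha' a ha
  have e3 : (a * a') * ⁅a'⁻¹, b⁻¹ * a⁻¹ * b⁆ = ⁅a'⁻¹, b⁻¹ * a⁻¹ * b⁆ * (a * a') :=
    (h.comm _ hc.1 _ (A.mul_mem ha ha')).symm
  rw [e1, e2, e3, psi_eq, mul_assoc]

/-- kernel of `ψ` modulo `D`. -/
theorem NN.ker_psi (h : NN A b) {a : S} (ha : a ∈ A) (hψ : psi b a ∈ A ⊓ cjA A b) :
    a ∈ A ⊓ cjA A b ∧ b⁻¹ * a * b ∈ A ⊓ cjA A b := by
  have h1 : b⁻¹ * a * b ∈ A := by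
    have e : b⁻¹ * a * b = (a⁻¹ * psi b a)⁻¹ := by unfold psi; group
    rw [e]; exact A.inv_mem (A.mul_mem (A.inv_mem ha) hψ.1)
  refine ⟨⟨ha, ?_⟩, ⟨h1, cjA_mem ha⟩⟩
  have e : a = psi b a * (b⁻¹ * a * b) := by unfold psi; group
  rw [e]
  exact Subgroup.mul_mem _ hψ.2 (cjA_mem ha)

/-- `ψ(a)⁻¹ ψ(a') ∈ D` forces `a⁻¹ a'` into the kernel. -/
theorem NN.psi_quot (h : NN A b) {a a' : S} (ha : a ∈ A) (ha' : a' ∈ A)
    (hL : (psi b a)⁻¹ * psi b a' ∈ A ⊓ cjA A b) :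
    a⁻¹ * a' ∈ A ⊓ cjA A b ∧ b⁻¹ * (a⁻¹ * a') * b ∈ A ⊓ cjA A b := by
  have hmA : a⁻¹ * a' ∈ A := A.mul_mem (A.inv_mem ha) ha'
  obtain ⟨c, hc, hcc⟩ := h.psi_mul ha hmA
  rw [mul_inv_cancel_left] at hcc
  have hcomm : c * (psi b a)⁻¹ = (psi b a)⁻¹ * c :=
    h.D_central hc (Subgroup.inv_mem _ (h.psi_mem_H ha))
  have e1 : psi b (a⁻¹ * a') = (psi b a)⁻¹ * (c * psi b a') := by rw [← hcc]; group
  have e : psi b (a⁻¹ * a') = c * ((psi b a)⁻¹ * psi b a') := by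
    rw [e1, ← mul_assoc, ← hcomm, mul_assoc]
  have hψD : psi b (a⁻¹ * a') ∈ A ⊓ cjA A b := by
    rw [e]; exact Subgroup.mul_mem _ hc hL
  exact h.ker_psi hmA hψD

theorem psi_mem_commutator (b a : S) : psi b a ∈ commutator S := by
  have e : psi b a = ⁅a, b⁻¹⁆ := by rw [commutatorElement_def, inv_inv]; rfl
  rw [e]
  exact Subgroup.commutator_mem_commutator (Subgroup.mem_top a) (Subgroup.mem_top _)

theorem NN.star_le_H (h : NN A b) : Helper3.GR.star A b ≤ A ⊔ cjA A b := by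
  refine sup_le (inf_le_left.trans le_sup_left) ((Subgroup.closure_le _).2 ?_)
  rintro g ⟨a, ha, rfl⟩
  exact h.psi_mem_H ha

theorem NN.star_comm (h : NN A b) (hmeta : ∀ x ∈ commutator S, ∀ y ∈ commutator S, x * y = y * x) :
    ∀ x ∈ Helper3.GR.star A b, ∀ y ∈ Helper3.GR.star A b, x * y = y * x := by
  have hgen : Helper3.GR.star A b = Subgroup.closure
      (((A ⊓ cjA A b : Subgroup S) : Set S) ∪ {g : S | ∃ a ∈ A, g = a * b⁻¹ * a⁻¹ * b}) := by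
    unfold Helper3.GR.star
    rw [Subgroup.closure_union, Subgroup.closure_eq]
  have hsub : (((A ⊓ cjA A b : Subgroup S) : Set S) ∪ {g : S | ∃ a ∈ A, g = a * b⁻¹ * a⁻¹ * b}) ⊆
      Subgroup.centralizer
        (((A ⊓ cjA A b : Subgroup S) : Set S) ∪ {g : S | ∃ a ∈ A, g = a * b⁻¹ * a⁻¹ * b}) := by
    intro u hu
    rw [SetLike.mem_coe, Subgroup.mem_centralizer_iff]
    intro v hv
    rcases hu with hu | ⟨a, ha, rfl⟩
    · rcases hv with hv | ⟨a', ha', rfl⟩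
      · exact h.comm v hv.1 u hu.1
      · exact (h.D_central hu (h.psi_mem_H ha')).symm
    · rcases hv with hv | ⟨a', ha', rfl⟩
      · exact h.D_central hv (h.psi_mem_H ha)
      · exact hmeta _ (psi_mem_commutator b a') _ (psi_mem_commutator b a)
  have hle : Helper3.GR.star A b ≤ Subgroup.centralizer ((Helper3.GR.star A b : Subgroup S) : Set S) := by
    rw [hgen, Subgroup.centralizer_closure, Subgroup.closure_le]
    exact hsub
  intro x hx y hy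
  exact (Subgroup.mem_centralizer_iff.1 (hle hy) x hx)

theorem card_subgroupOf_of_le {H K : Subgroup S} (h : H ≤ K) :
    Nat.card ↥(H.subgroupOf K) = Nat.card H :=
  Nat.card_congr (Subgroup.subgroupOfEquivOfLe h).toEquiv

/-- the key step of Gillam's theorem. -/
theorem gillam_step [Finite S]
    (hmeta : ∀ x ∈ commutator S, ∀ y ∈ commutator S, x * y = y * x)
    (N₀ : Subgroup S) [hN₀ : N₀.Normal] (A : Subgroup S) (hA : A ∈ Cfsg.maxAbelianSubgroups S)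
    (hAN : A ≤ N₀)
    (hmax : ∀ A' ∈ Cfsg.maxAbelianSubgroups S, A' ≤ N₀ →
      Nat.card ↥(A' ⊓ commutator S) ≤ Nat.card ↥(A ⊓ commutator S))
    (b : S) (hb : b ∈ Subgroup.normalizer ((Subgroup.normalizer (A : Set S) : Subgroup S) : Set S)) :
    b ∈ Subgroup.normalizer (A : Set S) := by
  classical
  haveI := hA.1
  have hAc : ∀ x ∈ A, ∀ y ∈ A, x * y = y * x := fun x hx y hy =>
    congrArg Subtype.val (mul_comm' (⟨x, hx⟩ : A) ⟨y, hy⟩)
  have h : NN A b := ⟨hAc, hb⟩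
  obtain ⟨D, hD⟩ : ∃ D : Subgroup S, D = A ⊓ cjA A b := ⟨_, rfl⟩
  obtain ⟨As, hAs⟩ : ∃ As : Subgroup S, As = Helper3.GR.star A b := ⟨_, rfl⟩
  obtain ⟨C, hC⟩ : ∃ C : Subgroup S, C = commutator S := ⟨_, rfl⟩
  rw [← hC] at hmax hmeta
  have hCn : C.Normal := by rw [hC]; infer_instance
  have hsc := h.star_comm (by rw [← hC]; exact hmeta)
  rw [← hAs] at hsc
  have hAsC : IsMulCommutative ↥As := ⟨⟨fun x y => Subtype.ext (hsc x x.2 y y.2)⟩⟩
  have hcard_le : Nat.card As ≤ Nat.card A := hA.2 As hAsC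
  have hDA : D ≤ A := hD ▸ inf_le_left
  have hDAs : D ≤ As := by rw [hD, hAs]; exact D_le_star
  obtain ⟨D', hD'⟩ : ∃ D' : Subgroup S, D' = D.map (MulAut.conj b).toMonoidHom := ⟨_, rfl⟩
  have hpsi_mem : ∀ a : ↥A, psi b (a : S) ∈ As := fun a => by
    rw [hAs]; exact psi_mem_star a.2
  have hquot : ∀ a ∈ A, ∀ a' ∈ A, (psi b a)⁻¹ * psi b a' ∈ D →
      a⁻¹ * a' ∈ D ∧ b⁻¹ * (a⁻¹ * a') * b ∈ D := by
    intro a ha a' ha' hL
    rw [hD] at hL ⊢
    exact h.psi_quot ha ha' hL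
  have ha := card_mul_le_of_coset_map ((D ⊓ D').subgroupOf A) (D.subgroupOf As)
    (fun a : ↥A => (⟨psi b (a : S), hpsi_mem a⟩ : ↥As)) (by
      rintro ⟨a, ha⟩ ⟨a', ha'⟩ hL
      rw [Subgroup.mem_subgroupOf] at hL ⊢
      have h1 := hquot a ha a' ha' hL
      refine ⟨h1.1, ?_⟩
      rw [hD']
      exact (mem_conj_iff D b _).2 h1.2)
  rw [card_subgroupOf_of_le hDAs, card_subgroupOf_of_le (inf_le_left.trans hDA)] at ha
  have hDD' : Nat.card ↥(D ⊓ D') ≤ Nat.card D := Subgroup.card_le_of_le inf_le_left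
  have hD_le : Nat.card D ≤ Nat.card ↥(D ⊓ D') := by
    have := ha.trans (Nat.mul_le_mul_right _ hcard_le)
    exact Nat.le_of_mul_le_mul_left this Nat.card_pos
  have hDeq : D ⊓ D' = D := Subgroup.eq_of_le_of_card_ge inf_le_left hD_le
  have hE1 : ∀ d ∈ D, b⁻¹ * d * b ∈ D := by
    intro d hd
    have h1 : d ∈ D' := by rw [← hDeq] at hd; exact hd.2
    rw [hD'] at h1
    exact (mem_conj_iff D b d).1 h1
  have hcard_eq : Nat.card As = Nat.card A := by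
    apply le_antisymm hcard_le
    have := ha.trans (Nat.mul_le_mul_left _ hDD')
    exact Nat.le_of_mul_le_mul_right this Nat.card_pos
  have hAsmax : As ∈ Cfsg.maxAbelianSubgroups S :=
    ⟨hAsC, fun B hB => (hA.2 B hB).trans hcard_eq.ge⟩
  have hAsN : As ≤ N₀ := by
    rw [hAs]
    refine h.star_le_H.trans (sup_le hAN ?_)
    intro y hy
    obtain ⟨a, ha, rfl⟩ := cjA_exists hy
    have := hN₀.conj_mem a (hAN ha) b⁻¹
    rwa [inv_inv] at this
  have hm := hmax As hAsmax hAsN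
  have hI := card_mul_le_of_coset_map (D.subgroupOf A) ((D ⊓ C).subgroupOf (As ⊓ C))
    (fun a : ↥A => (⟨psi b (a : S), ⟨hpsi_mem a, by rw [hC]; exact psi_mem_commutator b a⟩⟩ :
      ↥(As ⊓ C))) (by
      rintro ⟨a, ha⟩ ⟨a', ha'⟩ hL
      rw [Subgroup.mem_subgroupOf] at hL ⊢
      exact (hquot a ha a' ha' hL.1).1)
  rw [card_subgroupOf_of_le (inf_le_inf_right C hDAs), card_subgroupOf_of_le hDA] at hI
  have hII := card_mul_le_of_coset_map ((D ⊓ C).subgroupOf (A ⊓ C)) (D.subgroupOf A)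
    (fun a : ↥(A ⊓ C) => (⟨(a : S), a.2.1⟩ : ↥A)) (by
      rintro ⟨a, ha⟩ ⟨a', ha'⟩ hL
      rw [Subgroup.mem_subgroupOf] at hL ⊢
      exact ⟨hL, C.mul_mem (C.inv_mem ha.2) ha'.2⟩)
  rw [card_subgroupOf_of_le hDA, card_subgroupOf_of_le (inf_le_inf_right C hDA)] at hII
  have heq : Nat.card ↥(A ⊓ C) * Nat.card D = Nat.card A * Nat.card ↥(D ⊓ C) := by
    apply le_antisymm hII
    exact hI.trans (Nat.mul_le_mul_right _ hm)
  have hprod := card_mul_card_eq_card_setMul_mul_card_inf (A ⊓ C) D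
  have hinf : (A ⊓ C) ⊓ D = D ⊓ C := by
    rw [inf_comm (A ⊓ C) D, ← inf_assoc, inf_eq_left.2 hDA]
  rw [hinf, heq] at hprod
  have hset_card : Nat.card (((A ⊓ C : Subgroup S) : Set S) * (D : Set S) : Set S) = Nat.card A :=
    (Nat.eq_of_mul_eq_mul_right Nat.card_pos hprod).symm
  have hset : ((A ⊓ C : Subgroup S) : Set S) * (D : Set S) = (A : Set S) :=
    eq_of_subset_of_card_eq_finite _ _ (by
      rintro _ ⟨u, hu, d, hd, rfl⟩
      exact A.mul_mem hu.1 (hDA hd)) hset_card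
  have hE2 : ∀ a ∈ A, ∃ u ∈ A ⊓ C, ∃ d ∈ D, u * d = a := by
    intro a ha
    have h1 : a ∈ ((A ⊓ C : Subgroup S) : Set S) * (D : Set S) := by rw [hset]; exact ha
    exact h1
  have hE3 : ∀ y ∈ cjA A b, y ∈ C → y ∈ A := by
    intro y hy hyC
    apply maxAbelian_self_centralizing A hA
    rw [Subgroup.mem_centralizer_iff]
    intro a ha
    obtain ⟨u, hu, d, hd, rfl⟩ := hE2 a ha
    have h1 : u * y = y * u := hmeta u hu.2 y hyC
    have hd' : d ∈ cjA A b := by rw [hD] at hd; exact hd.2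
    have h2 : d * y = y * d := h.cjA_comm d hd' y hy
    rw [mul_assoc, h2, ← mul_assoc, h1, mul_assoc]
  have hfin : b⁻¹ ∈ Subgroup.normalizer (A : Set S) := by
    apply mem_normalizer_of_conj_le
    rintro _ ⟨a, ha, rfl⟩
    show b⁻¹ * a * b⁻¹⁻¹ ∈ A
    rw [inv_inv]
    obtain ⟨u, hu, d, hd, rfl⟩ := hE2 a ha
    have e : b⁻¹ * (u * d) * b = (b⁻¹ * u * b) * (b⁻¹ * d * b) := by group
    rw [e]
    refine A.mul_mem (hE3 _ (cjA_mem hu.1) ?_) (hDA (hE1 d hd))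
    have := hCn.conj_mem u hu.2 b⁻¹
    rwa [inv_inv] at this
  have := Subgroup.inv_mem _ hfin
  rwa [inv_inv] at this

theorem gillam [Finite S] {p : ℕ} [Fact p.Prime] (hS : IsPGroup p S)
    (hmeta : IsMulCommutative ↥(commutator S)) (A₀ : Subgroup S)
    (hA₀ : A₀ ∈ Cfsg.maxAbelianSubgroups S) :
    ∃ B ∈ Cfsg.maxAbelianSubgroups S, B.Normal ∧ B ≤ Subgroup.normalClosure (A₀ : Set S) := by
  classical
  have hmeta' : ∀ x ∈ commutator S, ∀ y ∈ commutator S, x * y = y * x := fun x hx y hy =>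
    congrArg Subtype.val (mul_comm' (⟨x, hx⟩ : commutator S) ⟨y, hy⟩)
  obtain ⟨A, ⟨hA, hAN⟩, hmax⟩ := Set.Finite.exists_maximalFor
    (fun A : Subgroup S => Nat.card ↥(A ⊓ commutator S))
    {A : Subgroup S | A ∈ Cfsg.maxAbelianSubgroups S ∧ A ≤ Subgroup.normalClosure (A₀ : Set S)}
    (Set.toFinite _) ⟨A₀, hA₀, Subgroup.le_normalClosure⟩
  refine ⟨A, hA, ?_, hAN⟩
  have hmax' : ∀ A' ∈ Cfsg.maxAbelianSubgroups S, A' ≤ Subgroup.normalClosure (A₀ : Set S) →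
      Nat.card ↥(A' ⊓ commutator S) ≤ Nat.card ↥(A ⊓ commutator S) := fun A' h1 h2 => by
    rcases le_total (Nat.card ↥(A' ⊓ commutator S)) (Nat.card ↥(A ⊓ commutator S)) with h | h
    · exact h
    · exact hmax ⟨h1, h2⟩ h
  by_contra hn
  have hne : Subgroup.normalizer (A : Set S) ≠ ⊤ := fun h =>
    hn (Subgroup.normalizer_eq_top_iff.1 h)
  obtain ⟨y, -, hyN, hyn⟩ := exists_mem_normalizer_not_mem (⊤ : Subgroup S)
    (Subgroup.normalizer (A : Set S)) (hS.to_subgroup ⊤) le_top hne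
  exact hyn (gillam_step hmeta' (Subgroup.normalClosure (A₀ : Set S)) A hA hAN hmax' y hyN)

end Cfsg.Agent.Helper5
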