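import Mathlib
import Cfsg.Prelude.Def_Classical
import Cfsg.Agent.Helper5.QFStd

namespace Cfsg.Agent.Helper5

open Matrix

theorem irr_isom_sub {F : Type*} [Field F] [Fintype F] {p : ℕ} [Fact p.Prime] [CharP F p] {n : ℕ}
    (Q : QuadraticForm F (Fin n → F)) (M : Matrix (Fin n) (Fin n) F)
    (Mi : Matrix (Fin n) (Fin n) F) (hMi : Mi * M = 1) (hMQ : ∀ v, Q (M *ᵥ v) = Q v)
    (U : Submodule F (Fin n → F)) (hU0 : U ≠ ⊥) (hUx : ∀ u ∈ U, M *ᵥ u ∈ U)
    (hirr : ∀ W : Submodule F (Fin n → F), W ≤ U → (∀ w ∈ W, M *ᵥ w ∈ W) → W = ⊥ ∨ W = U) :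
    U ⊓ LinearMap.BilinForm.orthogonal (QuadraticMap.polarBilin Q) U = ⊥ ∨
      (∀ u ∈ U, Q u = 0) ∨
      (p = 2 ∧ Module.finrank F U = 1 ∧ (∃ u ∈ U, Q u ≠ 0) ∧ ∀ u ∈ U, M *ᵥ u = u) := by
  classical
  have hpolM : ∀ u v, QuadraticMap.polar ⇑Q (M *ᵥ u) (M *ᵥ v) = QuadraticMap.polar ⇑Q u v := by
    intro u v
    simp only [QuadraticMap.polar, ← Matrix.mulVec_add, hMQ]
  have hMinj : ∀ a b, M *ᵥ a = M *ᵥ b → a = b := by
    intro a b hab
    have := congrArg (fun t => Mi *ᵥ t) hab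
    simpa [Matrix.mulVec_mulVec, hMi] using this
  have hsurj : ∀ u ∈ U, ∃ u' ∈ U, M *ᵥ u' = u := by
    obtain ⟨T, hT⟩ : ∃ T : U →ₗ[F] U, ∀ a : U, (T a : Fin n → F) = M *ᵥ (a : Fin n → F) :=
      ⟨(M.mulVecLin).restrict hUx, fun a => rfl⟩
    have hinj : Function.Injective T := by
      intro a b hab
      apply Subtype.ext
      apply hMinj
      rw [← hT, ← hT, hab]
    have hs := LinearMap.injective_iff_surjective.mp hinj
    intro u hu
    obtain ⟨u', h⟩ := hs ⟨u, hu⟩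
    exact ⟨u'.1, u'.2, by rw [← hT, h]⟩
  have hR := hirr (U ⊓ LinearMap.BilinForm.orthogonal (QuadraticMap.polarBilin Q) U)
    inf_le_left (by
      intro w hw
      refine ⟨hUx w hw.1, ?_⟩
      show M *ᵥ w ∈ LinearMap.BilinForm.orthogonal (QuadraticMap.polarBilin Q) U
      rw [LinearMap.BilinForm.mem_orthogonal_iff]
      intro u hu
      obtain ⟨u', hu', rfl⟩ := hsurj u hu
      show QuadraticMap.polarBilin Q (M *ᵥ u') (M *ᵥ w) = 0
      rw [QuadraticMap.polarBilin_apply_apply, hpolM]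
      have := (LinearMap.BilinForm.mem_orthogonal_iff.mp hw.2) u' hu'
      exact this)
  rcases hR with hR | hR
  · exact Or.inl hR
  right
  have hUU : ∀ u ∈ U, ∀ v ∈ U, QuadraticMap.polar ⇑Q u v = 0 := by
    intro u hu v hv
    have hv' : v ∈ U ⊓ LinearMap.BilinForm.orthogonal (QuadraticMap.polarBilin Q) U := by
      rw [hR]; exact hv
    have := (LinearMap.BilinForm.mem_orthogonal_iff.mp hv'.2) u hu
    exact this
  have hadd : ∀ u ∈ U, ∀ v ∈ U, Q (u + v) = Q u + Q v := by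
    intro u hu v hv
    rw [qf_add, hUU u hu v hv, add_zero]
  obtain ⟨W, hW⟩ : ∃ W : Submodule F (Fin n → F), ∀ v, v ∈ W ↔ v ∈ U ∧ Q v = 0 :=
    ⟨{ carrier := {v | v ∈ U ∧ Q v = 0}
       add_mem' := fun {a b} ha hb => ⟨U.add_mem ha.1 hb.1, by
         show Q (a + b) = 0
         rw [hadd a ha.1 b hb.1, ha.2, hb.2, add_zero]⟩
       zero_mem' := ⟨U.zero_mem, QuadraticMap.map_zero Q⟩
       smul_mem' := fun c a ha => ⟨U.smul_mem c ha.1, by
         show Q (c • a) = 0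
         rw [qf_smul, ha.2, mul_zero]⟩ }, fun v => Iff.rfl⟩
  have hWirr := hirr W (fun v hv => ((hW v).mp hv).1) (by
    intro w hw
    rw [hW] at hw ⊢
    exact ⟨hUx w hw.1, by rw [hMQ, hw.2]⟩)
  rcases hWirr with hWb | hWU
  swap
  · left
    intro u hu
    have : u ∈ W := by rw [hWU]; exact hu
    exact ((hW u).mp this).2
  right
  have hne : ∀ u ∈ U, Q u = 0 → u = 0 := by
    intro u hu hQu
    have : u ∈ W := (hW u).mpr ⟨hu, hQu⟩
    rw [hWb] at this
    exact (Submodule.mem_bot F).mp this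
  obtain ⟨u₀, hu₀U, hu₀⟩ := (Submodule.ne_bot_iff U).mp hU0
  have hQu₀ : Q u₀ ≠ 0 := fun h => hu₀ (hne u₀ hu₀U h)
  have hp2 : p = 2 := by
    by_contra hp
    have h2 : (2 : F) ≠ 0 := by
      intro h
      have h' : ((2 : ℕ) : F) = 0 := by exact_mod_cast h
      rw [CharP.cast_eq_zero_iff F p] at h'
      have := (Nat.prime_dvd_prime_iff_eq (Fact.out : p.Prime) Nat.prime_two).mp h'
      exact hp this
    have h1 := hUU u₀ hu₀U u₀ hu₀U
    rw [qf_polar_self] at h1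
    rcases mul_eq_zero.mp h1 with h | h
    · exact h2 h
    · exact hQu₀ h
  subst hp2
  haveI : Fact (Nat.Prime 2) := ⟨Nat.prime_two⟩
  have hdbl : ∀ x : F, x + x = 0 := fun x => CharTwo.add_self_eq_zero x
  refine ⟨rfl, ?_, ⟨u₀, hu₀U, hQu₀⟩, ?_⟩
  · have hspan : U = Submodule.span F {u₀} := by
      apply le_antisymm
      · intro u hu
        obtain ⟨c, hc⟩ := surjective_frobenius F 2 (Q u / Q u₀)
        rw [frobenius_def] at hc
        have h0 : Q (c • u₀ + u) = 0 := by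
          rw [hadd _ (U.smul_mem c hu₀U) _ hu, qf_smul, ← pow_two, hc,
            div_mul_cancel₀ _ hQu₀]
          exact hdbl _
        have h1 := hne _ (U.add_mem (U.smul_mem c hu₀U) hu) h0
        have : u = (-c) • u₀ := by
          rw [neg_smul]; exact eq_neg_of_add_eq_zero_right h1
        rw [this]
        exact Submodule.smul_mem _ _ (Submodule.mem_span_singleton_self u₀)
      · rw [Submodule.span_singleton_le_iff_mem]; exact hu₀U
    rw [hspan]
    exact finrank_span_singleton hu₀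
  · intro u hu
    have h0 : Q (M *ᵥ u + u) = 0 := by
      rw [hadd _ (hUx u hu) _ hu, hMQ]
      exact hdbl _
    have h1 := hne _ (U.add_mem (hUx u hu) hu) h0
    have h2 := eq_neg_of_add_eq_zero_left h1
    rw [h2]
    funext i
    simp [CharTwo.neg_eq]

end Cfsg.Agent.Helper5
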