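import Mathlib

set_option autoImplicit false

namespace Cfsg.Agent.Helper5

open Polynomial

/-- an injective `q`-semilinear endomorphism of a nonzero finite-dimensional space over an
algebraically closed field has a nonzero fixed vector. -/
theorem lang_cv {K : Type*} [Field K] [IsAlgClosed K] (q : ℕ) (hq : 2 ≤ q)
    (F : K →+* K) (hF : ∀ c, F c = c ^ q)
    {M : Type*} [AddCommGroup M] [Module K M] [FiniteDimensional K M] [Nontrivial M]
    (φ : M →ₛₗ[F] M) (hinj : Function.Injective φ) : ∃ m : M, m ≠ 0 ∧ φ m = m := by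
  classical
  obtain ⟨w, hw⟩ := exists_ne (0 : M)
  obtain ⟨seq, hseqdef⟩ : ∃ seq : ℕ → M, seq = fun i => φ^[i] w := ⟨_, rfl⟩
  have hseq : ∀ i, φ (seq i) = seq (i + 1) := by
    intro i; rw [hseqdef]; exact (Function.iterate_succ_apply' φ i w).symm
  have hseq0 : seq 0 = w := by rw [hseqdef]; rfl
  obtain ⟨N, hNdef⟩ : ∃ N : ℕ → Submodule K M,
      N = fun m => Submodule.span K (Set.range (fun i : Fin m => seq i)) := ⟨_, rfl⟩
  have hN : ∀ m, N m = Submodule.span K (Set.range (fun i : Fin m => seq i)) := by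
    intro m; rw [hNdef]
  have hmono : Monotone N := by
    intro a b hab
    rw [hN, hN]
    apply Submodule.span_mono
    rintro _ ⟨i, rfl⟩
    exact ⟨⟨i, lt_of_lt_of_le i.2 hab⟩, rfl⟩
  obtain ⟨n₀, hn₀⟩ := monotone_stabilizes_iff_noetherian.2 (inferInstance : IsNoetherian K M)
    ⟨N, hmono⟩
  have hex : ∃ m, seq m ∈ N m := by
    refine ⟨n₀, ?_⟩
    have h1 : N n₀ = N (n₀ + 1) := hn₀ (n₀ + 1) (Nat.le_succ _)
    rw [h1, hN]
    exact Submodule.subset_span ⟨⟨n₀, Nat.lt_succ_self _⟩, rfl⟩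
  obtain ⟨m, hm, hmin⟩ : ∃ m, seq m ∈ N m ∧ ∀ i < m, seq i ∉ N i :=
    ⟨Nat.find hex, Nat.find_spec hex, fun i hi => Nat.find_min hex hi⟩
  have hm0 : m ≠ 0 := by
    intro h0
    rw [h0, hN] at hm
    have : Set.range (fun i : Fin 0 => seq i) = ∅ := Set.range_eq_empty _
    rw [this, Submodule.span_empty, Submodule.mem_bot, hseq0] at hm
    exact hw hm
  obtain ⟨m', rfl⟩ := Nat.exists_eq_succ_of_ne_zero hm0
  -- coefficients
  rw [hN] at hm
  obtain ⟨a₀, ha₀⟩ := (Submodule.mem_span_range_iff_exists_fun K).1 hm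
  obtain ⟨a, hadef⟩ : ∃ a : ℕ → K, a = fun i => if h : i < m' + 1 then a₀ ⟨i, h⟩ else 0 :=
    ⟨_, rfl⟩
  have hsum : seq (m' + 1) = ∑ i ∈ Finset.range (m' + 1), a i • seq i := by
    rw [← ha₀, ← Fin.sum_univ_eq_sum_range (fun i => a i • seq i) (m' + 1)]
    apply Finset.sum_congr rfl
    intro i _
    rw [hadef]
    simp only [Fin.is_lt, dite_true, Fin.eta]
  -- some coefficient is nonzero
  have hne : ∃ j₀ ∈ Finset.range (m' + 1), a j₀ ≠ 0 := by
    by_contra hcon
    have hall : ∀ j ∈ Finset.range (m' + 1), a j • seq j = 0 := by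
      intro j hj
      have : a j = 0 := by
        by_contra h; exact hcon ⟨j, hj, h⟩
      rw [this, zero_smul]
    rw [Finset.sum_eq_zero hall] at hsum
    have h0 : φ^[m' + 1] w = φ^[m' + 1] 0 := by
      rw [Function.iterate_fixed (map_zero φ)]
      rw [hseqdef] at hsum; exact hsum
    exact hw (hinj.iterate (m' + 1) h0)
  obtain ⟨j₀, hj₀, haj₀⟩ := hne
  have hq0 : 0 < q := by omega
  -- the polynomial
  obtain ⟨e, hedef⟩ : ∃ e : ℕ → ℕ, e = fun j => q ^ (m' - j + 1) := ⟨_, rfl⟩
  have he1 : ∀ j, 2 ≤ e j := by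
    intro j; rw [hedef]
    calc 2 ≤ q := hq
      _ = q ^ 1 := (pow_one q).symm
      _ ≤ q ^ (m' - j + 1) := Nat.pow_le_pow_right hq0 (by omega)
  obtain ⟨R, hRdef⟩ : ∃ R : K[X],
      R = (∑ j ∈ Finset.range (m' + 1), C ((a j) ^ (e j)) * X ^ (e j - 1)) - 1 := ⟨_, rfl⟩
  have hcoeff : R.coeff (e j₀ - 1) = (a j₀) ^ (e j₀) := by
    rw [hRdef, coeff_sub, finset_sum_coeff]
    have h1 : ∑ j ∈ Finset.range (m' + 1), (C ((a j) ^ (e j)) * X ^ (e j - 1)).coeff (e j₀ - 1) =
        (a j₀) ^ (e j₀) := by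
      rw [Finset.sum_eq_single j₀]
      · rw [coeff_C_mul_X_pow]; simp
      · intro j hj hjne
        rw [coeff_C_mul_X_pow, if_neg]
        intro heq
        have h2 : e j₀ = e j := by
          have := he1 j₀; have := he1 j; omega
        rw [hedef] at h2
        have h3 := Nat.pow_right_injective hq h2
        have := Finset.mem_range.1 hj
        have := Finset.mem_range.1 hj₀
        apply hjne; omega
      · intro h; exact absurd hj₀ h
    rw [h1, coeff_one, if_neg, sub_zero]
    have := he1 j₀; omega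
  have hdeg : R.degree ≠ 0 := by
    intro hd
    have h1 : R.natDegree = 0 := natDegree_eq_of_degree_eq_some hd
    have h2 : e j₀ - 1 ≤ R.natDegree := le_natDegree_of_ne_zero (by
      rw [hcoeff]; exact pow_ne_zero _ haj₀)
    have := he1 j₀; omega
  obtain ⟨t, ht⟩ := IsAlgClosed.exists_root R hdeg
  have ht' : ∑ j ∈ Finset.range (m' + 1), (a j) ^ (e j) * t ^ (e j - 1) = 1 := by
    have h1 : R.eval t = 0 := ht
    rw [hRdef, eval_sub, eval_finset_sum, eval_one, sub_eq_zero] at h1
    rw [← h1]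
    apply Finset.sum_congr rfl
    intro j _
    rw [eval_mul, eval_C, eval_pow, eval_X]
  have ht0 : t ≠ 0 := by
    intro h0
    rw [h0] at ht'
    have hz : ∀ j ∈ Finset.range (m' + 1), (a j) ^ (e j) * (0 : K) ^ (e j - 1) = 0 := by
      intro j _
      have := he1 j
      rw [zero_pow (by omega), mul_zero]
    rw [Finset.sum_eq_zero hz] at ht'
    exact zero_ne_one ht'
  have htkey : ∑ j ∈ Finset.range (m' + 1), (a j) ^ (e j) * t ^ (e j) = t := by
    calc ∑ j ∈ Finset.range (m' + 1), (a j) ^ (e j) * t ^ (e j)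
        = ∑ j ∈ Finset.range (m' + 1), (a j) ^ (e j) * t ^ (e j - 1) * t := by
          apply Finset.sum_congr rfl
          intro j _
          have := he1 j
          rw [mul_assoc, ← pow_succ, Nat.sub_add_cancel (by omega)]
      _ = (∑ j ∈ Finset.range (m' + 1), (a j) ^ (e j) * t ^ (e j - 1)) * t :=
          (Finset.sum_mul _ _ _).symm
      _ = t := by rw [ht', one_mul]
  -- the coefficients of the fixed vector
  obtain ⟨c, hc0, hcs⟩ : ∃ c : ℕ → K, c 0 = t * a 0 ∧ ∀ i, c (i + 1) = (c i) ^ q + t * a (i + 1) :=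
    ⟨fun i => Nat.rec (t * a 0) (fun i ci => ci ^ q + t * a (i + 1)) i, rfl, fun _ => rfl⟩
  have hpowsum : ∀ (s : Finset ℕ) (x : ℕ → K), (∑ j ∈ s, x j) ^ q = ∑ j ∈ s, (x j) ^ q := by
    intro s x
    rw [← hF, map_sum]
    exact Finset.sum_congr rfl (fun j _ => hF _)
  have hclosed : ∀ i, c i = ∑ j ∈ Finset.range (i + 1), (t * a j) ^ (q ^ (i - j)) := by
    intro i
    induction i with
    | zero => rw [hc0]; simp
    | succ i ih =>
      rw [hcs, ih, hpowsum, Finset.sum_range_succ _ (i + 1)]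
      have e1 : (t * a (i + 1)) ^ q ^ (i + 1 - (i + 1)) = t * a (i + 1) := by simp
      rw [e1]
      congr 1
      apply Finset.sum_congr rfl
      intro j hj
      have hj' := Finset.mem_range.1 hj
      rw [← pow_mul, ← pow_succ]
      congr 2
      omega
  have hcm : (c m') ^ q = t := by
    rw [hclosed, hpowsum]
    calc ∑ j ∈ Finset.range (m' + 1), ((t * a j) ^ q ^ (m' - j)) ^ q
        = ∑ j ∈ Finset.range (m' + 1), (a j) ^ (e j) * t ^ (e j) := by
          apply Finset.sum_congr rfl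
          intro j hj
          have he : e j = q ^ (m' - j) * q := by rw [hedef]; exact pow_succ _ _
          rw [← pow_mul, ← he, mul_pow, mul_comm]
      _ = t := htkey
  have hcm0 : c m' ≠ 0 := by
    intro h0
    rw [h0, zero_pow (by omega)] at hcm
    exact ht0 hcm.symm
  refine ⟨∑ i ∈ Finset.range (m' + 1), c i • seq i, ?_, ?_⟩
  · intro hv0
    rw [Finset.sum_range_succ] at hv0
    have h1 : c m' • seq m' = - ∑ i ∈ Finset.range m', c i • seq i :=
      eq_neg_of_add_eq_zero_right hv0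
    have h2 : seq m' = (c m')⁻¹ • (c m' • seq m') := by
      rw [smul_smul, inv_mul_cancel₀ hcm0, one_smul]
    apply hmin m' (Nat.lt_succ_self _)
    rw [h2, h1, hN]
    apply Submodule.smul_mem
    apply Submodule.neg_mem
    apply Submodule.sum_mem
    intro i hi
    exact Submodule.smul_mem _ _ (Submodule.subset_span ⟨⟨i, Finset.mem_range.1 hi⟩, rfl⟩)
  · rw [map_sum]
    have h1 : ∀ i ∈ Finset.range (m' + 1), φ (c i • seq i) = (c i) ^ q • seq (i + 1) := by
      intro i _
      rw [map_smulₛₗ, hF, hseq]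
    rw [Finset.sum_congr rfl h1, Finset.sum_range_succ, hcm, hsum,
      Finset.sum_range_succ' (fun i => a i • seq i), Finset.sum_range_succ' (fun i => c i • seq i)]
    simp only [hcs, hc0, add_smul, mul_smul, Finset.sum_add_distrib, Finset.smul_sum, smul_add]
    abel

end Cfsg.Agent.Helper5
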