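import Mathlib
import Cfsg.Agent.Helper5.LangGL

set_option autoImplicit false

namespace Cfsg.Agent.Helper5

open Polynomial

/-- the fixed vectors of an injective `q`-semilinear endomorphism span the space. -/
theorem lang_span {K : Type*} [Field K] [IsAlgClosed K] (q : ℕ) (hq : 2 ≤ q)
    (F : K →+* K) (hF : ∀ c, F c = c ^ q)
    {V : Type*} [AddCommGroup V] [Module K V] [FiniteDimensional K V]
    (φ : V →ₛₗ[F] V) (hinj : Function.Injective φ) :
    Submodule.span K {v : V | φ v = v} = ⊤ := by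
  classical
  obtain ⟨W, hW⟩ : ∃ W : Submodule K V, W = Submodule.span K {v : V | φ v = v} := ⟨_, rfl⟩
  rw [← hW]
  by_contra hne
  have hstab : W ≤ W.comap φ := by
    rw [hW, Submodule.span_le]
    intro v hv
    have hv' : φ v = v := hv
    show φ v ∈ Submodule.span K {v : V | φ v = v}
    rw [hv']
    exact Submodule.subset_span hv
  have hq0 : 0 < q := by omega
  have hback : ∀ x, φ x ∈ W → x ∈ W := by
    intro x hx
    rw [hW] at hx ⊢
    obtain ⟨k, cs, ss, hsum⟩ := Submodule.mem_span_set'.1 hx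
    choose d hd using fun i => IsAlgClosed.exists_pow_nat_eq (cs i) hq0
    have h1 : φ (∑ i, d i • (ss i : V)) = φ x := by
      rw [map_sum, ← hsum]
      apply Finset.sum_congr rfl
      intro i _
      rw [map_smulₛₗ, hF, hd, show φ (ss i : V) = (ss i : V) from (ss i).2]
    rw [← hinj h1]
    exact Submodule.sum_mem _ (fun i _ => Submodule.smul_mem _ _ (Submodule.subset_span (ss i).2))
  haveI : Nontrivial (V ⧸ W) := Submodule.Quotient.nontrivial_iff.2 hne
  have hinj' : Function.Injective (W.mapQ W φ hstab) := by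
    rw [injective_iff_map_eq_zero]
    intro z hz
    obtain ⟨x, rfl⟩ := Submodule.Quotient.mk_surjective W z
    rw [Submodule.mapQ_apply, Submodule.Quotient.mk_eq_zero] at hz
    rw [Submodule.Quotient.mk_eq_zero]
    exact hback x hz
  obtain ⟨z, hz0, hzfix⟩ := lang_cv q hq F hF (W.mapQ W φ hstab) hinj'
  obtain ⟨x, rfl⟩ := Submodule.Quotient.mk_surjective W z
  apply hz0
  rw [Submodule.Quotient.mk_eq_zero]
  rw [Submodule.mapQ_apply, Submodule.Quotient.eq] at hzfix
  rw [hW] at hzfix
  obtain ⟨k, bs, ss, hsum⟩ := Submodule.mem_span_set'.1 hzfix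
  have hroot : ∀ b : K, ∃ c : K, c ^ q + b = c := by
    intro b
    have hdeg : (X ^ q - (X - C b) : K[X]).degree ≠ 0 := by
      rw [degree_sub_eq_left_of_degree_lt (by
        rw [degree_X_sub_C, degree_X_pow]; exact_mod_cast (by omega : 1 < q))]
      rw [degree_X_pow]; exact_mod_cast (by omega : q ≠ 0)
    obtain ⟨c, hc⟩ := IsAlgClosed.exists_root _ hdeg
    refine ⟨c, ?_⟩
    have h1 : (X ^ q - (X - C b) : K[X]).eval c = 0 := hc
    rw [eval_sub, eval_pow, eval_X, eval_sub, eval_X, eval_C] at h1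
    linear_combination h1
  choose cfun hcfun using fun i => hroot (bs i)
  have hfix : φ (x + ∑ i, cfun i • (ss i : V)) = x + ∑ i, cfun i • (ss i : V) := by
    rw [map_add, map_sum]
    have h1 : φ x = x + ∑ i, bs i • (ss i : V) := by rw [hsum]; abel
    rw [h1, add_assoc, ← Finset.sum_add_distrib]
    congr 1
    apply Finset.sum_congr rfl
    intro i _
    rw [map_smulₛₗ, hF, show φ (ss i : V) = (ss i : V) from (ss i).2, ← add_smul,
      add_comm (bs i), hcfun]
  have h2 : x + ∑ i, cfun i • (ss i : V) ∈ W := by rw [hW]; exact Submodule.subset_span hfix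
  have h3 : ∑ i, cfun i • (ss i : V) ∈ W := by
    rw [hW]
    exact Submodule.sum_mem _ (fun i _ => Submodule.smul_mem _ _ (Submodule.subset_span (ss i).2))
  have := W.sub_mem h2 h3
  simpa using this

theorem lang_gl {K : Type*} [Field K] [IsAlgClosed K] (p : ℕ) [Fact p.Prime] [CharP K p]
    (f : ℕ) (hf : 1 ≤ f) (n : ℕ) (g : GL (Fin n) K) :
    ∃ x : GL (Fin n) K, g = x * (Matrix.GeneralLinearGroup.map (iterateFrobenius K p f) x)⁻¹ := by
  classical
  have hp : p.Prime := Fact.out
  obtain ⟨F, hFdef⟩ : ∃ F : K →+* K, F = iterateFrobenius K p f := ⟨_, rfl⟩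
  rw [← hFdef]
  have hF : ∀ c, F c = c ^ (p ^ f) := by intro c; rw [hFdef, iterateFrobenius_def]
  have hq : 2 ≤ p ^ f := by
    calc 2 ≤ p := hp.two_le
      _ = p ^ 1 := (pow_one p).symm
      _ ≤ p ^ f := Nat.pow_le_pow_right hp.pos hf
  let φ : (Fin n → K) →ₛₗ[F] (Fin n → K) :=
    { toFun := fun v => (g : Matrix (Fin n) (Fin n) K).mulVec (fun i => F (v i))
      map_add' := by
        intro u v
        rw [← Matrix.mulVec_add]
        congr 1
        ext i
        simp
      map_smul' := by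
        intro c v
        rw [← Matrix.mulVec_smul]
        congr 1
        ext i
        simp }
  have hφ : ∀ v, φ v = (g : Matrix (Fin n) (Fin n) K).mulVec (fun i => F (v i)) := fun _ => rfl
  have hinj : Function.Injective φ := by
    rw [injective_iff_map_eq_zero]
    intro v hv
    rw [hφ] at hv
    have h1 := congrArg (fun u => ((g⁻¹ : GL (Fin n) K) : Matrix (Fin n) (Fin n) K).mulVec u) hv
    simp only [Matrix.mulVec_mulVec, Matrix.mulVec_zero] at h1
    rw [← Units.val_mul, inv_mul_cancel, Units.val_one, Matrix.one_mulVec] at h1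
    ext i
    have h2 := congrFun h1 i
    exact (map_eq_zero F).1 h2
  have hspan := lang_span (p ^ f) hq F hF φ hinj
  obtain ⟨b, hbS, hbspan, hbli⟩ := exists_linearIndependent K {v : Fin n → K | φ v = v}
  have hsp : ⊤ ≤ Submodule.span K (Set.range ((↑) : b → (Fin n → K))) := by
    rw [Subtype.range_coe, hbspan, hspan]
  obtain ⟨B₀, hB₀⟩ : ∃ B₀ : Module.Basis b K (Fin n → K), B₀ = Module.Basis.mk hbli hsp := ⟨_, rfl⟩
  obtain ⟨B, hB⟩ : ∃ B : Module.Basis (Fin n) K (Fin n → K),
      B = B₀.reindex (B₀.indexEquiv (Pi.basisFun K (Fin n))) := ⟨_, rfl⟩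
  have hBfix : ∀ j, φ (B j) = B j := by
    intro j
    rw [hB, Module.Basis.reindex_apply, hB₀, Module.Basis.mk_apply]
    exact hbS (Subtype.property _)
  obtain ⟨Xm, hXm⟩ : ∃ Xm : Matrix (Fin n) (Fin n) K, Xm = (Pi.basisFun K (Fin n)).toMatrix B :=
    ⟨_, rfl⟩
  have hXapp : ∀ i j, Xm i j = B j i := by
    intro i j
    rw [hXm, Module.Basis.toMatrix_apply, Pi.basisFun_repr]
  have h1 : Xm * B.toMatrix (Pi.basisFun K (Fin n)) = 1 := by
    rw [hXm]; exact Module.Basis.toMatrix_mul_toMatrix_flip _ _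
  have h2 : B.toMatrix (Pi.basisFun K (Fin n)) * Xm = 1 := by
    rw [hXm]; exact Module.Basis.toMatrix_mul_toMatrix_flip _ _
  refine ⟨⟨Xm, B.toMatrix (Pi.basisFun K (Fin n)), h1, h2⟩, ?_⟩
  rw [eq_mul_inv_iff_mul_eq]
  apply Units.ext
  show (g : Matrix (Fin n) (Fin n) K) * Xm.map F = Xm
  ext i j
  rw [Matrix.mul_apply, hXapp, ← hBfix j, hφ]
  simp only [Matrix.mulVec, dotProduct, Matrix.map_apply, hXapp]

end Cfsg.Agent.Helper5
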