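import Mathlib
import Cfsg.Prelude.Def_Classical
import Cfsg.Agent.Helper5.MinusPlus

namespace Cfsg.Agent.Helper5

open Matrix

section
variable {K : Type*} [Field K] (k : ℕ)

/-- Standard vectors. -/
def mpE (i : Fin k) : (Fin k ⊕ Fin k) ⊕ Fin 2 → K := Pi.single (Sum.inl (Sum.inl i)) 1

def mpF (i : Fin k) : (Fin k ⊕ Fin k) ⊕ Fin 2 → K := Pi.single (Sum.inl (Sum.inr i)) 1

def mpV (r : K) : (Fin k ⊕ Fin k) ⊕ Fin 2 → K := Sum.elim (fun _ => 0) ![r, 1]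

theorem mp_QE (a c : K) (i : Fin k) : qfMinusQ k K a c (mpE k i) = 0 := by
  rw [qfMinusQ_apply]
  unfold Cfsg.quadFormMinus
  simp [mpE, Pi.single_apply]

theorem mp_QF (a c : K) (i : Fin k) : qfMinusQ k K a c (mpF k i) = 0 := by
  rw [qfMinusQ_apply]
  unfold Cfsg.quadFormMinus
  simp [mpF, Pi.single_apply]

theorem mp_QV (a c r : K) (hr : r ^ 2 + a * r + c = 0) : qfMinusQ k K a c (mpV k r) = 0 := by
  rw [qfMinusQ_apply]
  unfold Cfsg.quadFormMinus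
  simp only [mpV, Sum.elim_inl, Sum.elim_inr, mul_zero, Finset.sum_const_zero, zero_add]
  simp only [Matrix.cons_val_zero, Matrix.cons_val_one]
  linear_combination hr

theorem mp_EF (a c : K) (i j : Fin k) :
    QuadraticMap.polar ⇑(qfMinusQ k K a c) (mpE k i) (mpF k j) = if i = j then 1 else 0 := by
  rw [qfMinusQ_polar]
  simp only [mpE, mpF, Pi.single_apply, Sum.inl.injEq, reduceCtorEq, if_false, mul_zero,
    add_zero, Sum.inr.injEq]
  by_cases h : i = j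
  · subst h
    simp
  · rw [if_neg h]
    apply Finset.sum_eq_zero
    intro x _
    by_cases hx : x = i
    · subst hx
      simp [h]
    · simp [hx]

theorem mp_EE (a c : K) (i j : Fin k) :
    QuadraticMap.polar ⇑(qfMinusQ k K a c) (mpE k i) (mpE k j) = 0 := by
  rw [qfMinusQ_polar]
  simp [mpE, Pi.single_apply]

theorem mp_FF (a c : K) (i j : Fin k) :
    QuadraticMap.polar ⇑(qfMinusQ k K a c) (mpF k i) (mpF k j) = 0 := by
  rw [qfMinusQ_polar]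
  simp [mpF, Pi.single_apply]

theorem mp_EV (a c r : K) (i : Fin k) :
    QuadraticMap.polar ⇑(qfMinusQ k K a c) (mpE k i) (mpV k r) = 0 := by
  rw [qfMinusQ_polar]
  simp [mpE, mpV, Pi.single_apply]

theorem mp_FV (a c r : K) (i : Fin k) :
    QuadraticMap.polar ⇑(qfMinusQ k K a c) (mpF k i) (mpV k r) = 0 := by
  rw [qfMinusQ_polar]
  simp [mpF, mpV, Pi.single_apply]

theorem mp_VV (a c r r' : K) :
    QuadraticMap.polar ⇑(qfMinusQ k K a c) (mpV k r) (mpV k r')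
      = 2 * r * r' + a * (r + r') + 2 * c := by
  rw [qfMinusQ_polar]
  simp only [mpV, Sum.elim_inl, Sum.elim_inr, mul_zero, add_zero, Finset.sum_const_zero,
    zero_add]
  simp only [Matrix.cons_val_zero, Matrix.cons_val_one]
  ring

theorem qfMinusQ_hyp (a c r : K) (hr : r ^ 2 + a * r + c = 0) (hd : 2 * r + a ≠ 0) :
    ∃ g : ((Fin k ⊕ Fin k) ⊕ Fin 2 → K) ≃ₗ[K] (Fin (k + 1) ⊕ Fin (k + 1) → K),
      ∀ v, Cfsg.quadFormMinus k K a c v = Cfsg.quadFormPlus (k + 1) K (g v) := by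
  classical
  obtain ⟨Q, hQ⟩ : ∃ Q, Q = qfMinusQ k K a c := ⟨_, rfl⟩
  obtain ⟨e, he⟩ : ∃ e : ℕ → ((Fin k ⊕ Fin k) ⊕ Fin 2 → K),
      e = fun n => if h : n < k then mpE k ⟨n, h⟩ else 0 := ⟨_, rfl⟩
  obtain ⟨f, hf⟩ : ∃ f : ℕ → ((Fin k ⊕ Fin k) ⊕ Fin 2 → K),
      f = fun n => if h : n < k then mpF k ⟨n, h⟩ else 0 := ⟨_, rfl⟩
  have hH : qfHyp Q k e f := by
    intro i hi
    rw [he, hf, hQ]
    simp only [dif_pos hi]
    refine ⟨mp_QE k a c _, mp_QF k a c _, ?_⟩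
    intro j hj
    simp only [dif_pos hj]
    refine ⟨?_, mp_EE k a c _ _, mp_FF k a c _ _⟩
    rw [mp_EF]
    simp only [Fin.mk.injEq]
  obtain ⟨r', hr'⟩ : ∃ r' : K, r' = -a - r := ⟨_, rfl⟩
  have hr'root : r' ^ 2 + a * r' + c = 0 := by
    rw [hr']; linear_combination hr
  obtain ⟨ε, hε⟩ : ∃ ε : K, ε = 2 * r * r' + a * (r + r') + 2 * c := ⟨_, rfl⟩
  have hε0 : ε ≠ 0 := by
    have : ε = -(2 * r + a) ^ 2 := by
      rw [hε, hr']; linear_combination (2 : K) * hr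
    rw [this]
    exact neg_ne_zero.mpr (pow_ne_zero 2 hd)
  have hH' := qf_ext_pair Q k e f hH (mpV k r) (ε⁻¹ • mpV k r')
    (by rw [hQ]; exact mp_QV k a c r hr)
    (by rw [qf_smul, hQ, mp_QV k a c r' hr'root, mul_zero])
    (by rw [QuadraticMap.polar_smul_right, hQ, mp_VV, ← hε, smul_eq_mul, inv_mul_cancel₀ hε0])
    (by
      intro i hi
      rw [he, hf, hQ]
      simp only [dif_pos hi]
      exact ⟨mp_EV k a c r _, mp_FV k a c r _⟩)
    (by
      intro i hi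
      rw [he, hf, hQ]
      simp only [dif_pos hi]
      rw [QuadraticMap.polar_smul_right, QuadraticMap.polar_smul_right, mp_EV, mp_FV, smul_zero]
      exact ⟨rfl, rfl⟩)
  have hV : Module.finrank K ((Fin k ⊕ Fin k) ⊕ Fin 2 → K) = 2 * (k + 1) := by
    rw [Module.finrank_fintype_fun_eq_card]
    simp only [Fintype.card_sum, Fintype.card_fin]
    ring
  obtain ⟨b, P1, P2, P3⟩ := qf_basis_of_hyp (Nat.succ_le_succ (Nat.zero_le k)) hV Q _ _ hH'
  refine ⟨b.equivFun, ?_⟩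
  intro v
  rw [← qfMinusQ_apply, ← hQ]
  exact qf_cl_plus Q b P1 P2 P3 v

end

theorem minus_embed_plus {F K : Type*} [Field F] [Fintype F] [Field K] [Fintype K] {q : ℕ}
    (hF : Fintype.card F = q) (hK : Fintype.card K = q ^ 2) (k : ℕ) (a c : F)
    (hac : ∀ z₁ z₂ : F, z₁ ^ 2 + a * z₁ * z₂ + c * z₂ ^ 2 = 0 → z₁ = 0 ∧ z₂ = 0) :
    ∃ φ : ↥(Cfsg.isometryGroup F (Cfsg.quadFormMinus k F a c)) →*
        ↥(Cfsg.isometryGroup K (Cfsg.quadFormPlus (k + 1) K)), Function.Injective φ := by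
  classical
  have hroot : ∀ t : F, t ^ 2 + a * t + c ≠ 0 := by
    intro t ht
    have := (hac t 1 (by linear_combination ht)).2
    exact one_ne_zero this
  obtain ⟨ι, r, hr⟩ := ff_quad_root hF hK a c hroot
  have hιinj : Function.Injective ι := ι.injective
  have hd : 2 * r + ι a ≠ 0 := by
    intro h0
    by_cases h2 : (2 : F) = 0
    · have h2K : (2 : K) = 0 := by
        have := congrArg ι h2
        rwa [map_ofNat, map_zero] at this
      have ha : a = 0 := by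
        apply hιinj
        rw [map_zero]
        rw [h2K, zero_mul, zero_add] at h0
        exact h0
      haveI : CharP F 2 := CharTwo.of_one_ne_zero_of_two_eq_zero one_ne_zero h2
      haveI : Fact (Nat.Prime 2) := ⟨Nat.prime_two⟩
      obtain ⟨d, hd⟩ := surjective_frobenius F 2 c
      rw [frobenius_def] at hd
      have := (hac d 1 (by
        rw [ha, hd]
        have := CharTwo.add_self_eq_zero c
        linear_combination this)).2
      exact one_ne_zero this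
    · have h2K : (2 : K) ≠ 0 := by
        intro h
        apply h2
        apply hιinj
        rw [map_zero, map_ofNat]
        exact h
      apply hroot (-a / 2)
      apply hιinj
      rw [map_zero]
      have hr2 : r = ι (-a / 2) := by
        rw [map_div₀, map_neg]
        have : ι 2 = 2 := map_ofNat ι 2
        rw [this]
        field_simp
        linear_combination h0
      rw [map_add, map_add, map_pow, map_mul, ← hr2]
      exact hr
  obtain ⟨g, hg⟩ := qfMinusQ_hyp k (ι a) (ι c) r hr hd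
  -- base change
  have hbc : ∀ v : (Fin k ⊕ Fin k) ⊕ Fin 2 → F,
      qfMinusQ k K (ι a) (ι c) (fun i => ι (v i)) = ι (qfMinusQ k F a c v) := by
    intro v
    rw [qfMinusQ_apply, qfMinusQ_apply]
    unfold Cfsg.quadFormMinus
    simp only [map_add, map_sum, map_mul, map_pow]
  have hiso : ∀ (M : Matrix ((Fin k ⊕ Fin k) ⊕ Fin 2) ((Fin k ⊕ Fin k) ⊕ Fin 2) F),
      (∀ v, Cfsg.quadFormMinus k F a c (M *ᵥ v) = Cfsg.quadFormMinus k F a c v) →
      ∀ w, Cfsg.quadFormMinus k K (ι a) (ι c) ((M.map ι) *ᵥ w)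
        = Cfsg.quadFormMinus k K (ι a) (ι c) w := by
    intro M hM w
    have := qf_bc ι (qfMinusQ k F a c) (qfMinusQ k K (ι a) (ι c)) hbc M (by
      intro v
      rw [qfMinusQ_apply, qfMinusQ_apply]
      exact hM v) w
    rwa [qfMinusQ_apply, qfMinusQ_apply] at this
  obtain ⟨Pm, hPm⟩ : ∃ Pm : Matrix (Fin (k + 1) ⊕ Fin (k + 1)) ((Fin k ⊕ Fin k) ⊕ Fin 2) K,
      Pm = LinearMap.toMatrix' g.toLinearMap := ⟨_, rfl⟩
  obtain ⟨Pi', hPi⟩ : ∃ Pi' : Matrix ((Fin k ⊕ Fin k) ⊕ Fin 2) (Fin (k + 1) ⊕ Fin (k + 1)) K,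
      Pi' = LinearMap.toMatrix' g.symm.toLinearMap := ⟨_, rfl⟩
  have h1 : Pm * Pi' = 1 := by
    rw [hPm, hPi, ← LinearMap.toMatrix'_comp]
    have : g.toLinearMap ∘ₗ g.symm.toLinearMap = LinearMap.id := by
      ext x; simp
    rw [this, LinearMap.toMatrix'_id]
  have h2 : Pi' * Pm = 1 := by
    rw [hPm, hPi, ← LinearMap.toMatrix'_comp]
    have : g.symm.toLinearMap ∘ₗ g.toLinearMap = LinearMap.id := by
      ext x; simp
    rw [this, LinearMap.toMatrix'_id]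
  have hPmv : ∀ w, Pm *ᵥ w = g w := by
    intro w
    rw [hPm, LinearMap.toMatrix'_mulVec]
    rfl
  have hPiv : ∀ w, Pi' *ᵥ w = g.symm w := by
    intro w
    rw [hPi, LinearMap.toMatrix'_mulVec]
    rfl
  obtain ⟨cj, hcj⟩ : ∃ cj : Matrix ((Fin k ⊕ Fin k) ⊕ Fin 2) ((Fin k ⊕ Fin k) ⊕ Fin 2) K →*
      Matrix (Fin (k + 1) ⊕ Fin (k + 1)) (Fin (k + 1) ⊕ Fin (k + 1)) K,
      ∀ X, cj X = Pm * X * Pi' :=
    ⟨{ toFun := fun X => Pm * X * Pi'
       map_one' := by rw [Matrix.mul_one, h1]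
       map_mul' := fun X Y => by
        have h3 : Pm * X * Pi' * (Pm * Y * Pi') = Pm * X * (Pi' * Pm) * Y * Pi' := by
          simp only [Matrix.mul_assoc]
        show Pm * (X * Y) * Pi' = Pm * X * Pi' * (Pm * Y * Pi')
        rw [h3, h2, Matrix.mul_one]
        simp only [Matrix.mul_assoc] }, fun X => rfl⟩
  obtain ⟨φ₀, hφ₀⟩ : ∃ φ₀ : GL ((Fin k ⊕ Fin k) ⊕ Fin 2) F →*
      GL (Fin (k + 1) ⊕ Fin (k + 1)) K,
      ∀ x, ((φ₀ x : GL (Fin (k + 1) ⊕ Fin (k + 1)) K) :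
        Matrix (Fin (k + 1) ⊕ Fin (k + 1)) (Fin (k + 1) ⊕ Fin (k + 1)) K)
        = Pm * (x : Matrix ((Fin k ⊕ Fin k) ⊕ Fin 2) ((Fin k ⊕ Fin k) ⊕ Fin 2) F).map ι * Pi' :=
    ⟨(Units.map cj).comp (Matrix.GeneralLinearGroup.map ι), fun x => by
      rw [← hcj]; rfl⟩
  have hmem : ∀ x : ↥(Cfsg.isometryGroup F (Cfsg.quadFormMinus k F a c)),
      φ₀ (x : GL ((Fin k ⊕ Fin k) ⊕ Fin 2) F)
        ∈ Cfsg.isometryGroup K (Cfsg.quadFormPlus (k + 1) K) := by
    intro x u v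
    show Cfsg.quadFormPlus (k + 1) K
        (((φ₀ (x : GL ((Fin k ⊕ Fin k) ⊕ Fin 2) F) : GL (Fin (k + 1) ⊕ Fin (k + 1)) K) :
          Matrix (Fin (k + 1) ⊕ Fin (k + 1)) (Fin (k + 1) ⊕ Fin (k + 1)) K) *ᵥ u)
      = Cfsg.quadFormPlus (k + 1) K u
    have hx := hiso ((x : GL ((Fin k ⊕ Fin k) ⊕ Fin 2) F) :
      Matrix ((Fin k ⊕ Fin k) ⊕ Fin 2) ((Fin k ⊕ Fin k) ⊕ Fin 2) F) (fun w => x.2 w w)
    rw [hφ₀, ← Matrix.mulVec_mulVec, ← Matrix.mulVec_mulVec, hPmv, hPiv, ← hg,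
      hx, hg, LinearEquiv.apply_symm_apply]
  refine ⟨(φ₀.comp (Subgroup.subtype _)).codRestrict _ hmem, ?_⟩
  intro x y hxy
  have h3 : φ₀ (x : GL ((Fin k ⊕ Fin k) ⊕ Fin 2) F) = φ₀ (y : GL ((Fin k ⊕ Fin k) ⊕ Fin 2) F) :=
    congrArg Subtype.val hxy
  have h4 := congrArg (fun z : GL (Fin (k + 1) ⊕ Fin (k + 1)) K =>
    (z : Matrix (Fin (k + 1) ⊕ Fin (k + 1)) (Fin (k + 1) ⊕ Fin (k + 1)) K)) h3
  simp only [hφ₀] at h4
  have h5 : ((x : GL ((Fin k ⊕ Fin k) ⊕ Fin 2) F) :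
      Matrix ((Fin k ⊕ Fin k) ⊕ Fin 2) ((Fin k ⊕ Fin k) ⊕ Fin 2) F).map ι
      = ((y : GL ((Fin k ⊕ Fin k) ⊕ Fin 2) F) :
      Matrix ((Fin k ⊕ Fin k) ⊕ Fin 2) ((Fin k ⊕ Fin k) ⊕ Fin 2) F).map ι := by
    have h6 := congrArg (fun Z => Pi' * Z * Pm) h4
    simp only [Matrix.mul_assoc] at h6
    rw [h2, Matrix.mul_one, Matrix.mul_one, ← Matrix.mul_assoc, ← Matrix.mul_assoc, h2,
      Matrix.one_mul, Matrix.one_mul] at h6
    exact h6
  apply Subtype.ext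
  apply Units.ext
  exact Matrix.map_injective hιinj h5

end Cfsg.Agent.Helper5
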