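import Mathlib

namespace Cfsg.Agent.Helper5

open Polynomial

universe uN

/-- the truncated polynomial ring `F[X]/(X^e)` -/
abbrev TQ (F : Type uN) [Field F] (e : ℕ) : Type uN :=
  F[X] ⧸ (Ideal.span {(X : F[X]) ^ e} : Ideal F[X])

section
variable {F : Type uN} [Field F]

theorem tq_finite [Finite F] (e : ℕ) : Finite (TQ F e) := by
  have hf0 : (X : F[X]) ^ e ≠ 0 := pow_ne_zero _ X_ne_zero
  haveI : Module.Finite F (AdjoinRoot ((X : F[X]) ^ e)) := (AdjoinRoot.powerBasis hf0).finite
  exact (Module.finite_of_finite F : Finite (AdjoinRoot ((X : F[X]) ^ e)))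

theorem tq_card [Fintype F] (e : ℕ) : Nat.card (TQ F e) = Fintype.card F ^ e := by
  have hf0 : (X : F[X]) ^ e ≠ 0 := pow_ne_zero _ X_ne_zero
  haveI : Module.Finite F (AdjoinRoot ((X : F[X]) ^ e)) := (AdjoinRoot.powerBasis hf0).finite
  haveI : Finite (AdjoinRoot ((X : F[X]) ^ e)) := Module.finite_of_finite F
  haveI : Fintype (AdjoinRoot ((X : F[X]) ^ e)) := Fintype.ofFinite _
  have h1 : Module.finrank F (AdjoinRoot ((X : F[X]) ^ e)) = e := by
    rw [(AdjoinRoot.powerBasis hf0).finrank, AdjoinRoot.powerBasis_dim, natDegree_X_pow]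
  show Nat.card (AdjoinRoot ((X : F[X]) ^ e)) = _
  rw [Nat.card_eq_fintype_card,
    Module.card_eq_pow_finrank (K := F) (V := AdjoinRoot ((X : F[X]) ^ e)), h1]

theorem tq_ker_card [Fintype F] (e k : ℕ) :
    Nat.card {a : TQ F e // Ideal.Quotient.mk _ ((X : F[X]) ^ k) * a = 0}
      = Fintype.card F ^ min e k := by
  classical
  by_cases hke : e ≤ k
  · rw [min_eq_left hke, ← tq_card e]
    apply Nat.card_congr
    refine Equiv.subtypeUnivEquiv ?_
    intro a
    have h0 : Ideal.Quotient.mk (Ideal.span {(X : F[X]) ^ e}) ((X : F[X]) ^ k) = 0 := by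
      rw [Ideal.Quotient.eq_zero_iff_mem, Ideal.mem_span_singleton]
      exact pow_dvd_pow X hke
    rw [h0, zero_mul]
  · push Not at hke
    rw [min_eq_right hke.le, ← tq_card k]
    have hXe : (X : F[X]) ^ e = X ^ (e - k) * X ^ k := by
      rw [← pow_add, Nat.sub_add_cancel hke.le]
    have hX0 : (X : F[X]) ^ (e - k) ≠ 0 := pow_ne_zero _ X_ne_zero
    have hXk0 : (X : F[X]) ^ k ≠ 0 := pow_ne_zero _ X_ne_zero
    obtain ⟨s, hs⟩ : ∃ s : TQ F k → F[X],
        ∀ a, Ideal.Quotient.mk (Ideal.span {(X : F[X]) ^ k}) (s a) = a :=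
      ⟨Function.surjInv Ideal.Quotient.mk_surjective,
        Function.surjInv_eq Ideal.Quotient.mk_surjective⟩
    obtain ⟨g, hg⟩ : ∃ g : TQ F k → TQ F e, ∀ a, g a
        = Ideal.Quotient.mk (Ideal.span {(X : F[X]) ^ e}) (X ^ (e - k) * s a) :=
      ⟨_, fun a => rfl⟩
    have hgmk : ∀ r : F[X], g (Ideal.Quotient.mk _ r)
        = Ideal.Quotient.mk (Ideal.span {(X : F[X]) ^ e}) (X ^ (e - k) * r) := by
      intro r
      rw [hg, Ideal.Quotient.eq, Ideal.mem_span_singleton, ← mul_sub, hXe]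
      apply mul_dvd_mul_left
      have h1 := hs (Ideal.Quotient.mk _ r)
      rw [Ideal.Quotient.eq, Ideal.mem_span_singleton] at h1
      exact h1
    have hginj : Function.Injective g := by
      intro a a' h
      obtain ⟨r, rfl⟩ := Ideal.Quotient.mk_surjective a
      obtain ⟨r', rfl⟩ := Ideal.Quotient.mk_surjective a'
      rw [hgmk, hgmk, Ideal.Quotient.eq, Ideal.mem_span_singleton, ← mul_sub, hXe] at h
      rw [Ideal.Quotient.eq, Ideal.mem_span_singleton]
      exact (mul_dvd_mul_iff_left hX0).mp h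
    have hrange : ∀ a : TQ F e, a ∈ Set.range g ↔
        Ideal.Quotient.mk _ ((X : F[X]) ^ k) * a = 0 := by
      intro a
      constructor
      · rintro ⟨b, rfl⟩
        obtain ⟨r, rfl⟩ := Ideal.Quotient.mk_surjective b
        rw [hgmk, ← map_mul, Ideal.Quotient.eq_zero_iff_mem, Ideal.mem_span_singleton, hXe]
        exact ⟨r, by ring⟩
      · intro h
        obtain ⟨r, rfl⟩ := Ideal.Quotient.mk_surjective a
        rw [← map_mul, Ideal.Quotient.eq_zero_iff_mem, Ideal.mem_span_singleton, hXe,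
          mul_comm (X ^ (e - k)) (X ^ k)] at h
        obtain ⟨t, ht⟩ := (mul_dvd_mul_iff_left hXk0).mp h
        exact ⟨Ideal.Quotient.mk _ t, by rw [hgmk, ht]⟩
    rw [← Nat.card_range_of_injective hginj]
    exact Nat.card_congr (Equiv.subtypeEquivRight (fun a => (hrange a).symm))

end

theorem ms_min_succ (s : Multiset ℕ) (k : ℕ) :
    (s.map (fun a => min a (k + 1))).sum
      = (s.map (fun a => min a k)).sum + s.countP (fun a => k + 1 ≤ a) := by
  induction s using Multiset.induction_on with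
  | empty => simp
  | cons a s ih =>
    rw [Multiset.map_cons, Multiset.sum_cons, Multiset.map_cons, Multiset.sum_cons,
      Multiset.countP_cons, ih]
    by_cases h : k + 1 ≤ a
    · rw [if_pos h]
      omega
    · rw [if_neg h]
      omega

theorem ms_countP_split (s : Multiset ℕ) (a : ℕ) :
    s.countP (fun b => a ≤ b) = s.count a + s.countP (fun b => a + 1 ≤ b) := by
  induction s using Multiset.induction_on with
  | empty => simp
  | cons b s ih =>
    rw [Multiset.countP_cons, Multiset.countP_cons, Multiset.count_cons, ih]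
    by_cases h1 : a ≤ b <;> by_cases h2 : a = b <;> by_cases h3 : a + 1 ≤ b <;>
      simp [h1, h2, h3] <;> omega

theorem ms_eq_of_min_sums (s s' : Multiset ℕ) (hs : ∀ a ∈ s, a ≠ 0) (hs' : ∀ a ∈ s', a ≠ 0)
    (h : ∀ k, (s.map (fun a => min a k)).sum = (s'.map (fun a => min a k)).sum) : s = s' := by
  have hG : ∀ k, s.countP (fun a => k + 1 ≤ a) = s'.countP (fun a => k + 1 ≤ a) := by
    intro k
    have h1 := ms_min_succ s k
    have h2 := ms_min_succ s' k
    have h3 := h k
    have h4 := h (k + 1)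
    omega
  ext a
  rcases Nat.eq_zero_or_pos a with rfl | ha
  · rw [Multiset.count_eq_zero_of_notMem (fun hm => hs 0 hm rfl),
      Multiset.count_eq_zero_of_notMem (fun hm => hs' 0 hm rfl)]
  · obtain ⟨b, rfl⟩ : ∃ b, a = b + 1 := ⟨a - 1, by omega⟩
    have h1 := ms_countP_split s (b + 1)
    have h2 := ms_countP_split s' (b + 1)
    have h3 := hG b
    have h4 := hG (b + 1)
    omega

theorem equiv_of_map_eq {ι ι' : Type uN} [Fintype ι] [Fintype ι'] (e : ι → ℕ) (e' : ι' → ℕ)
    (h : Multiset.map e Finset.univ.val = Multiset.map e' Finset.univ.val) :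
    ∃ σ : ι ≃ ι', ∀ i, e' (σ i) = e i := by
  classical
  have e1 : ∀ (a : ℕ) (κ : Type _) [Fintype κ] (f : κ → ℕ),
      Fintype.card {i // f i = a} = Multiset.count a (Multiset.map f Finset.univ.val) := by
    intro a κ _ f
    rw [Multiset.count_map, Fintype.card_subtype, Finset.card_def, Finset.filter_val]
    congr 1
    apply Multiset.filter_congr
    intro x _
    exact eq_comm
  have hc : ∀ a : ℕ, Fintype.card {i // e i = a} = Fintype.card {j // e' j = a} := by
    intro a
    rw [e1, e1, h]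
  obtain ⟨τ⟩ : Nonempty (∀ a, {i // e i = a} ≃ {j // e' j = a}) :=
    ⟨fun a => Fintype.equivOfCardEq (hc a)⟩
  refine ⟨(Equiv.sigmaFiberEquiv e).symm.trans
    ((Equiv.sigmaCongrRight τ).trans (Equiv.sigmaFiberEquiv e')), ?_⟩
  intro i
  exact (τ (e i) ⟨i, rfl⟩).2

end Cfsg.Agent.Helper5
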