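import Mathlib
import Cfsg.Agent.Helper5.NilType1

namespace Cfsg.Agent.Helper5

open Polynomial

universe uN wN

section
variable {F : Type uN} [Field F] {V : Type uN} [AddCommGroup V] [Module F V]

/-- `N` has nilpotent type `(ι, e)`: `V` is identified with `∏ F[X]/(X^(e i))` compatibly
with the action of `N` (as multiplication by `X`). -/
def NilType (N : V →ₗ[F] V) (ι : Type wN) (e : ι → ℕ) : Prop :=
  ∃ φ : V ≃ (∀ i : ι, TQ F (e i)), (∀ v w, φ (v + w) = φ v + φ w) ∧
    (∀ (c : F) v i, φ (c • v) i = Ideal.Quotient.mk _ (C c) * φ v i) ∧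
    (∀ v i, φ (N v) i = Ideal.Quotient.mk _ X * φ v i)

theorem niltype_conj (N N' : V →ₗ[F] V) (ι : Type uN) (e : ι → ℕ) (h : NilType N ι e)
    (h' : NilType N' ι e) : ∃ P : V ≃ₗ[F] V, ∀ v, P (N v) = N' (P v) := by
  obtain ⟨φ, ha, hc, hn⟩ := h
  obtain ⟨φ', ha', hc', hn'⟩ := h'
  have hP : ∀ v, φ' (φ'.symm (φ v)) = φ v := fun v => φ'.apply_symm_apply _
  refine ⟨{ toFun := fun v => φ'.symm (φ v)
            map_add' := fun v w => by
              apply φ'.injective
              rw [hP, ha, ha', hP, hP]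
            map_smul' := fun c v => by
              apply φ'.injective
              funext i
              rw [hP, RingHom.id_apply, hc, hc', hP]
            invFun := fun v => φ.symm (φ' v)
            left_inv := fun v => by simp
            right_inv := fun v => by simp }, ?_⟩
  intro v
  apply φ'.injective
  funext i
  show φ' (φ'.symm (φ (N v))) i = φ' (N' (φ'.symm (φ v))) i
  rw [hP, hn, hn', hP]

theorem niltype_reindex (N : V →ₗ[F] V) (ι ι' : Type uN) (e : ι → ℕ) (σ : ι ≃ ι')
    (h : NilType N ι e) : NilType N ι' (e ∘ σ.symm) := by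
  obtain ⟨φ, ha, hc, hn⟩ := h
  refine ⟨φ.trans (Equiv.piCongrLeft' (fun i => TQ F (e i)) σ), ?_, ?_, ?_⟩
  · intro v w
    funext j
    show φ (v + w) (σ.symm j) = φ v (σ.symm j) + φ w (σ.symm j)
    rw [ha]
    rfl
  · intro c v j
    exact hc c v (σ.symm j)
  · intro v j
    exact hn v (σ.symm j)

theorem niltype_pos (N : V →ₗ[F] V) (ι : Type uN) (e : ι → ℕ) (h : NilType N ι e) :
    NilType N {i : ι // e i ≠ 0} (fun i => e i.1) := by
  classical
  obtain ⟨φ, ha, hc, hn⟩ := h
  have hsub0 : Subsingleton (TQ F 0) := by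
    show Subsingleton (F[X] ⧸ (Ideal.span {(X : F[X]) ^ 0} : Ideal F[X]))
    rw [pow_zero, Ideal.span_singleton_one]
    exact Ideal.Quotient.subsingleton_iff.mpr rfl
  have hsub : ∀ i, e i = 0 → Subsingleton (TQ F (e i)) := by
    intro i hi
    rw [hi]
    exact hsub0
  refine ⟨{ toFun := fun v i => φ v i.1
            invFun := fun m => φ.symm (fun i => if h : e i ≠ 0 then m ⟨i, h⟩ else 0)
            left_inv := fun v => by
              apply φ.injective
              rw [φ.apply_symm_apply]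
              funext i
              by_cases h : e i ≠ 0
              · rw [dif_pos h]
              · rw [dif_neg h]
                haveI := hsub i (not_not.mp h)
                exact Subsingleton.elim _ _
            right_inv := fun m => by
              funext i
              show φ (φ.symm _) i.1 = m i
              rw [φ.apply_symm_apply, dif_pos i.2] }, ?_, ?_, ?_⟩
  · intro v w
    funext i
    show φ (v + w) i.1 = φ v i.1 + φ w i.1
    rw [ha]
    rfl
  · intro c v i
    exact hc c v i.1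
  · intro v i
    exact hn v i.1

set_option maxHeartbeats 1600000 in
theorem niltype_ker_card [Fintype F] (N : V →ₗ[F] V) (ι : Type wN) [Fintype ι] (e : ι → ℕ)
    (h : NilType N ι e) (k : ℕ) :
    Nat.card {v : V // (N ^ k) v = 0} = Fintype.card F ^ (∑ i, min (e i) k) := by
  classical
  obtain ⟨φ, ha, hc, hn⟩ := h
  have h0 : φ 0 = 0 := by
    have h1 := ha 0 0
    rw [add_zero] at h1
    exact left_eq_add.mp h1
  have hpow : ∀ (k : ℕ) v i, φ ((N ^ k) v) i
      = Ideal.Quotient.mk _ ((X : F[X]) ^ k) * φ v i := by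
    intro k
    induction k with
    | zero =>
      intro v i
      simp
    | succ k ih =>
      intro v i
      rw [pow_succ', Module.End.mul_apply, hn, ih, pow_succ', map_mul, mul_assoc]
  have hiff : ∀ v, (N ^ k) v = 0 ↔
      ∀ i, Ideal.Quotient.mk _ ((X : F[X]) ^ k) * φ v i = 0 := by
    intro v
    constructor
    · intro hv i
      rw [← hpow, hv, h0]
      rfl
    · intro hv
      apply φ.injective
      rw [h0]
      funext i
      rw [hpow, hv]
      rfl
  have e1 : Nat.card {v : V // (N ^ k) v = 0}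
      = Nat.card {m : (∀ i : ι, TQ F (e i)) //
          ∀ i, Ideal.Quotient.mk _ ((X : F[X]) ^ k) * m i = 0} :=
    Nat.card_congr (Equiv.subtypeEquiv (q := fun m : (∀ i : ι, TQ F (e i)) =>
      ∀ i, Ideal.Quotient.mk _ ((X : F[X]) ^ k) * m i = 0) φ hiff)
  have e2 : Nat.card {m : (∀ i : ι, TQ F (e i)) //
          ∀ i, Ideal.Quotient.mk _ ((X : F[X]) ^ k) * m i = 0}
      = Nat.card (∀ i : ι, {a : TQ F (e i) //
          Ideal.Quotient.mk _ ((X : F[X]) ^ k) * a = 0}) :=
    Nat.card_congr (Equiv.subtypePiEquivPi (β := fun i : ι => TQ F (e i))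
      (p := fun i a => Ideal.Quotient.mk _ ((X : F[X]) ^ k) * a = 0))
  have e3 : ∀ i : ι, Nat.card {a : TQ F (e i) //
      Ideal.Quotient.mk _ ((X : F[X]) ^ k) * a = 0} = Fintype.card F ^ min (e i) k :=
    fun i => tq_ker_card (e i) k
  rw [e1, e2, Nat.card_pi, ← Finset.prod_pow_eq_pow_sum]
  exact Finset.prod_congr rfl (fun i _ => e3 i)

theorem niltype_exists [Module.Finite F V] (N : V →ₗ[F] V) (m : ℕ) (hN : N ^ m = 0) :
    ∃ (ι : Type uN) (_ : Fintype ι) (e : ι → ℕ), NilType N ι e := by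
  classical
  obtain ⟨ι, _, p, hp, e, ⟨φ₀⟩⟩ := Module.equiv_directSum_of_isTorsion
    (Module.AEval.isTorsion_of_finiteDimensional F V N)
  have hkill : ∀ x : Module.AEval' N, (X : F[X]) ^ m • x = 0 := by
    intro x
    obtain ⟨v, rfl⟩ := (Module.AEval'.of N).surjective x
    rw [Module.AEval'.X_pow_smul_of, hN]
    simp
  have hspan : ∀ i, (Ideal.span {p i ^ e i} : Ideal F[X]) = Ideal.span {(X : F[X]) ^ e i} := by
    intro i
    by_cases hi : e i = 0
    · rw [hi, pow_zero, pow_zero]
    · have h3 := hkill (φ₀.symm (DirectSum.of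
        (fun i => F[X] ⧸ (Ideal.span {p i ^ e i} : Ideal F[X])) i (Ideal.Quotient.mk _ 1)))
      have h4 := congrArg φ₀ h3
      rw [map_smul, LinearEquiv.apply_symm_apply, map_zero] at h4
      have h5 := congrArg (fun y => y i) h4
      simp only [DirectSum.smul_apply, DirectSum.of_eq_same, DirectSum.zero_apply] at h5
      have h5' : Ideal.Quotient.mk (Ideal.span {p i ^ e i}) ((X : F[X]) ^ m * 1) = 0 := h5
      rw [mul_one, Ideal.Quotient.eq_zero_iff_mem, Ideal.mem_span_singleton] at h5'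
      have h7 : p i ∣ (X : F[X]) ^ m := dvd_trans (dvd_pow_self _ hi) h5'
      have h8 : p i ∣ X := (hp i).prime.dvd_of_dvd_pow h7
      have h9 : Associated (p i) X := (hp i).associated_of_dvd irreducible_X h8
      exact Ideal.span_singleton_eq_span_singleton.mpr (h9.pow_pow)
  have hsm : ∀ i (r : F[X]) (a : F[X] ⧸ (Ideal.span {p i ^ e i} : Ideal F[X])),
      r • a = Ideal.Quotient.mk _ r * a := by
    intro i r a
    obtain ⟨s, rfl⟩ := Ideal.Quotient.mk_surjective a
    rfl
  obtain ⟨φ₁, hφ₁⟩ : ∃ φ₁ : V ≃ (∀ i : ι, F[X] ⧸ (Ideal.span {p i ^ e i} : Ideal F[X])),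
      ∀ v i, φ₁ v i = (φ₀ (Module.AEval'.of N v)) i :=
    ⟨(Module.AEval'.of N).toEquiv.trans (φ₀.toEquiv.trans DFinsupp.equivFunOnFintype),
      fun v i => rfl⟩
  refine ⟨ι, inferInstance, e,
    φ₁.trans (Equiv.piCongrRight (fun i => (Ideal.quotEquivOfEq (hspan i)).toEquiv)), ?_, ?_, ?_⟩
  · intro v w
    funext i
    show Ideal.quotEquivOfEq (hspan i) (φ₁ (v + w) i)
      = Ideal.quotEquivOfEq (hspan i) (φ₁ v i) + Ideal.quotEquivOfEq (hspan i) (φ₁ w i)
    rw [hφ₁, hφ₁, hφ₁, map_add, map_add, DirectSum.add_apply, map_add]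
  · intro c v i
    show Ideal.quotEquivOfEq (hspan i) (φ₁ (c • v) i)
      = _ * Ideal.quotEquivOfEq (hspan i) (φ₁ v i)
    rw [hφ₁, hφ₁, ← Ideal.quotEquivOfEq_mk (hspan i), ← map_mul, ← hsm, ← DirectSum.smul_apply,
      ← map_smul, Module.AEval.C_smul, map_smul]
  · intro v i
    show Ideal.quotEquivOfEq (hspan i) (φ₁ (N v) i)
      = _ * Ideal.quotEquivOfEq (hspan i) (φ₁ v i)
    rw [hφ₁, hφ₁, ← Ideal.quotEquivOfEq_mk (hspan i), ← map_mul, ← hsm, ← DirectSum.smul_apply,
      ← map_smul, Module.AEval'.X_smul_of]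

theorem nil_conj_of_ker_card [Fintype F] [Module.Finite F V] (N N' : V →ₗ[F] V) (m m' : ℕ)
    (hN : N ^ m = 0) (hN' : N' ^ m' = 0)
    (h : ∀ k, Nat.card {v : V // (N ^ k) v = 0} = Nat.card {v : V // (N' ^ k) v = 0}) :
    ∃ P : V ≃ₗ[F] V, ∀ v, P (N v) = N' (P v) := by
  classical
  obtain ⟨ι, _, e, ht⟩ := niltype_exists N m hN
  obtain ⟨ι', _, e', ht'⟩ := niltype_exists N' m' hN'
  have hp := niltype_pos N ι e ht
  have hp' := niltype_pos N' ι' e' ht'
  have hq : 1 < Fintype.card F := Fintype.one_lt_card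
  have hsum : ∀ k, ∑ i : {i // e i ≠ 0}, min (e i.1) k
      = ∑ j : {j // e' j ≠ 0}, min (e' j.1) k := by
    intro k
    have h1 := niltype_ker_card N _ _ hp k
    have h2 := niltype_ker_card N' _ _ hp' k
    rw [h k, h2] at h1
    exact (Nat.pow_right_injective hq h1).symm
  have hms : Multiset.map (fun i : {i // e i ≠ 0} => e i.1) Finset.univ.val
      = Multiset.map (fun j : {j // e' j ≠ 0} => e' j.1) Finset.univ.val := by
    apply ms_eq_of_min_sums
    · intro a ha
      rw [Multiset.mem_map] at ha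
      obtain ⟨i, -, rfl⟩ := ha
      exact i.2
    · intro a ha
      rw [Multiset.mem_map] at ha
      obtain ⟨i, -, rfl⟩ := ha
      exact i.2
    · intro k
      rw [Multiset.map_map, Multiset.map_map]
      exact hsum k
  obtain ⟨σ, hσ⟩ := equiv_of_map_eq _ _ hms
  have hr := niltype_reindex N _ _ _ σ hp
  have hfun : (fun i : {i // e i ≠ 0} => e i.1) ∘ σ.symm = fun j : {j // e' j ≠ 0} => e' j.1 := by
    funext j
    rw [Function.comp_apply, ← hσ (σ.symm j), Equiv.apply_symm_apply]
  rw [hfun] at hr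
  exact niltype_conj N N' _ _ hr hp'

end

end Cfsg.Agent.Helper5
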