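import Mathlib
import Cfsg.Agent.Helper5.NilType2

namespace Cfsg.Agent.Helper5

open Polynomial Matrix

universe uN

section
variable {F : Type uN} [Field F] [Fintype F]

/-- bridge between powers of a matrix and of its linear map -/
theorem toLin_pow_apply {n : ℕ} (B : Matrix (Fin n) (Fin n) F) (k : ℕ) (v : Fin n → F) :
    ((Matrix.toLinAlgEquiv' B) ^ k) v = (B ^ k) *ᵥ v := by
  rw [← map_pow, Matrix.toLinAlgEquiv'_apply]

/-- realisation of a nilpotent type -/
theorem niltype_realize (n t : ℕ) (e : Fin t → ℕ) (hsum : ∑ i, e i = n) :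
    ∃ N : (Fin n → F) →ₗ[F] (Fin n → F), NilType N (Fin t) e := by
  classical
  haveI : ∀ i : Fin t, Finite (TQ F (e i)) := fun i => tq_finite (e i)
  haveI : Finite (∀ i : Fin t, TQ F (e i)) := Pi.finite
  haveI : Fintype (∀ i : Fin t, TQ F (e i)) := Fintype.ofFinite _
  haveI : Module.Finite F (∀ i : Fin t, TQ F (e i)) := Module.Finite.of_finite
  have hq : 1 < Fintype.card F := Fintype.one_lt_card
  have hcard : Nat.card (∀ i : Fin t, TQ F (e i)) = Fintype.card F ^ n := by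
    rw [Nat.card_pi, ← hsum, ← Finset.prod_pow_eq_pow_sum]
    exact Finset.prod_congr rfl (fun i _ => tq_card (e i))
  have hfr : Module.finrank F (∀ i : Fin t, TQ F (e i)) = n := by
    have h1 : Fintype.card (∀ i : Fin t, TQ F (e i))
        = Fintype.card F ^ Module.finrank F (∀ i : Fin t, TQ F (e i)) :=
      Module.card_eq_pow_finrank
    rw [← Nat.card_eq_fintype_card, hcard] at h1
    exact (Nat.pow_right_injective hq h1).symm
  obtain ⟨ψ⟩ : Nonempty ((Fin n → F) ≃ₗ[F] (∀ i : Fin t, TQ F (e i))) :=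
    FiniteDimensional.nonempty_linearEquiv_of_finrank_eq (by rw [hfr, Module.finrank_fin_fun])
  obtain ⟨Xm, hXm⟩ : ∃ Xm : (∀ i : Fin t, TQ F (e i)) →ₗ[F] (∀ i : Fin t, TQ F (e i)),
      ∀ m i, Xm m i = Ideal.Quotient.mk _ X * m i :=
    ⟨LinearMap.pi (fun i => (LinearMap.mulLeft F (Ideal.Quotient.mk _ X : TQ F (e i))).comp
      (LinearMap.proj i)), fun m i => rfl⟩
  refine ⟨(ψ.symm : (∀ i : Fin t, TQ F (e i)) →ₗ[F] (Fin n → F)) ∘ₗ Xm ∘ₗ
    (ψ : (Fin n → F) →ₗ[F] (∀ i : Fin t, TQ F (e i))), ψ.toEquiv, ?_, ?_, ?_⟩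
  · intro v w
    exact map_add ψ v w
  · intro c v i
    show ψ (c • v) i = Ideal.Quotient.mk _ (C c) * ψ v i
    rw [map_smul, Pi.smul_apply]
    obtain ⟨s, hs⟩ := Ideal.Quotient.mk_surjective (ψ v i)
    rw [← hs, ← map_mul, ← Polynomial.smul_eq_C_mul]
    rfl
  · intro v i
    show ψ (ψ.symm (Xm (ψ v))) i = _
    rw [LinearEquiv.apply_symm_apply, hXm]
    rfl

/-- the kernel-count invariant of an invertible matrix -/
noncomputable def glKappa {n : ℕ} (g : GL (Fin n) F) (k : ℕ) : ℕ :=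
  Nat.card {v : Fin n → F // (((g : Matrix (Fin n) (Fin n) F) - 1) ^ k) *ᵥ v = 0}

theorem glKappa_conj {n : ℕ} (g g' : GL (Fin n) F) (h : IsConj g g') (k : ℕ) :
    glKappa g k = glKappa g' k := by
  classical
  rw [isConj_iff] at h
  obtain ⟨c, hc⟩ := h
  have hc' : c * g = g' * c := by rw [← hc]; group
  have h1 : (c : Matrix (Fin n) (Fin n) F) * ((g : Matrix (Fin n) (Fin n) F) - 1)
      = ((g' : Matrix (Fin n) (Fin n) F) - 1) * (c : Matrix (Fin n) (Fin n) F) := by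
    have h2 := congrArg (fun z : GL (Fin n) F => (z : Matrix (Fin n) (Fin n) F)) hc'
    simp only [Units.val_mul] at h2
    rw [mul_sub, sub_mul, h2, mul_one, one_mul]
  have hk : (c : Matrix (Fin n) (Fin n) F) * ((g : Matrix (Fin n) (Fin n) F) - 1) ^ k
      = ((g' : Matrix (Fin n) (Fin n) F) - 1) ^ k * (c : Matrix (Fin n) (Fin n) F) := by
    induction k with
    | zero => simp
    | succ k ih => rw [pow_succ, ← mul_assoc, ih, mul_assoc, h1, ← mul_assoc, ← pow_succ]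
  obtain ⟨E, hE⟩ : ∃ E : (Fin n → F) ≃ (Fin n → F), ∀ v, E v = (c : Matrix (Fin n) (Fin n) F) *ᵥ v :=
    ⟨{ toFun := fun v => (c : Matrix (Fin n) (Fin n) F) *ᵥ v
       invFun := fun v => ((c⁻¹ : GL (Fin n) F) : Matrix (Fin n) (Fin n) F) *ᵥ v
       left_inv := fun v => by
         show ((c⁻¹ : GL (Fin n) F) : Matrix (Fin n) (Fin n) F) *ᵥ
           ((c : Matrix (Fin n) (Fin n) F) *ᵥ v) = v
         rw [Matrix.mulVec_mulVec, ← Units.val_mul, inv_mul_cancel, Units.val_one,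
           Matrix.one_mulVec]
       right_inv := fun v => by
         show (c : Matrix (Fin n) (Fin n) F) *ᵥ
           (((c⁻¹ : GL (Fin n) F) : Matrix (Fin n) (Fin n) F) *ᵥ v) = v
         rw [Matrix.mulVec_mulVec, ← Units.val_mul, mul_inv_cancel, Units.val_one,
           Matrix.one_mulVec] }, fun v => rfl⟩
  unfold glKappa
  apply Nat.card_congr
  refine Equiv.subtypeEquiv E ?_
  intro v
  rw [hE, Matrix.mulVec_mulVec, ← hk, ← Matrix.mulVec_mulVec]
  constructor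
  · intro h0
    rw [h0, Matrix.mulVec_zero]
  · intro h0
    have h3 := congrArg (fun w => ((c⁻¹ : GL (Fin n) F) : Matrix (Fin n) (Fin n) F) *ᵥ w) h0
    simp only [Matrix.mulVec_mulVec, Matrix.mulVec_zero] at h3
    rw [← mul_assoc, ← Units.val_mul, inv_mul_cancel, Units.val_one, one_mul] at h3
    exact h3

theorem gl_conj_of_kappa {n : ℕ} (g g' : GL (Fin n) F) (m m' : ℕ)
    (hg : ((g : Matrix (Fin n) (Fin n) F) - 1) ^ m = 0)
    (hg' : ((g' : Matrix (Fin n) (Fin n) F) - 1) ^ m' = 0)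
    (h : ∀ k, glKappa g k = glKappa g' k) : IsConj g g' := by
  classical
  obtain ⟨N, hN⟩ : ∃ N : (Fin n → F) →ₗ[F] (Fin n → F),
      N = Matrix.toLinAlgEquiv' ((g : Matrix (Fin n) (Fin n) F) - 1) := ⟨_, rfl⟩
  obtain ⟨N', hN'⟩ : ∃ N' : (Fin n → F) →ₗ[F] (Fin n → F),
      N' = Matrix.toLinAlgEquiv' ((g' : Matrix (Fin n) (Fin n) F) - 1) := ⟨_, rfl⟩
  have hNm : N ^ m = 0 := by rw [hN, ← map_pow, hg, map_zero]
  have hNm' : N' ^ m' = 0 := by rw [hN', ← map_pow, hg', map_zero]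
  have hcard : ∀ k, Nat.card {v : Fin n → F // (N ^ k) v = 0}
      = Nat.card {v : Fin n → F // (N' ^ k) v = 0} := by
    intro k
    have h1 := h k
    unfold glKappa at h1
    rw [hN, hN']
    simp only [toLin_pow_apply]
    exact h1
  obtain ⟨P, hP⟩ := nil_conj_of_ker_card N N' m m' hNm hNm' hcard
  have hPM : ∀ v, P ((g : Matrix (Fin n) (Fin n) F) *ᵥ v)
      = (g' : Matrix (Fin n) (Fin n) F) *ᵥ (P v) := by
    intro v
    have h1 := hP v
    rw [hN, hN', Matrix.toLinAlgEquiv'_apply, Matrix.toLinAlgEquiv'_apply, Matrix.sub_mulVec,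
      Matrix.sub_mulVec, Matrix.one_mulVec, Matrix.one_mulVec, map_sub] at h1
    exact sub_left_injective h1
  have e1 : (P : (Fin n → F) →ₗ[F] (Fin n → F)) ∘ₗ (P.symm : (Fin n → F) →ₗ[F] (Fin n → F))
      = LinearMap.id := by
    ext v
    simp
  have e2 : (P.symm : (Fin n → F) →ₗ[F] (Fin n → F)) ∘ₗ (P : (Fin n → F) →ₗ[F] (Fin n → F))
      = LinearMap.id := by
    ext v
    simp
  obtain ⟨c, hc⟩ : ∃ c : GL (Fin n) F, (c : Matrix (Fin n) (Fin n) F)
      = LinearMap.toMatrix' (P : (Fin n → F) →ₗ[F] (Fin n → F)) :=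
    ⟨⟨LinearMap.toMatrix' (P : (Fin n → F) →ₗ[F] (Fin n → F)),
      LinearMap.toMatrix' (P.symm : (Fin n → F) →ₗ[F] (Fin n → F)),
      by rw [← LinearMap.toMatrix'_comp, e1, LinearMap.toMatrix'_id],
      by rw [← LinearMap.toMatrix'_comp, e2, LinearMap.toMatrix'_id]⟩, rfl⟩
  rw [isConj_iff]
  refine ⟨c, ?_⟩
  rw [mul_inv_eq_iff_eq_mul]
  apply Units.ext
  rw [Units.val_mul, Units.val_mul, hc]
  apply Matrix.toLin'.injective
  rw [Matrix.toLin'_mul, Matrix.toLin'_mul, Matrix.toLin'_toMatrix']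
  apply LinearMap.ext
  intro v
  rw [LinearMap.comp_apply, LinearMap.comp_apply, Matrix.toLin'_apply, Matrix.toLin'_apply]
  exact hPM v

end

end Cfsg.Agent.Helper5
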