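import Mathlib
import Cfsg.Agent.Helper5.NilType3

namespace Cfsg.Agent.Helper5

open Polynomial Matrix

universe uN

theorem ms_min_sum_le (s : Multiset ℕ) (m : ℕ) : (s.map (fun a => min a m)).sum ≤ s.sum := by
  induction s using Multiset.induction_on with
  | empty => simp
  | cons a s ih =>
    rw [Multiset.map_cons, Multiset.sum_cons, Multiset.sum_cons]
    have : min a m ≤ a := min_le_left a m
    omega

theorem ms_min_sum_eq_iff (s : Multiset ℕ) (m : ℕ) :
    (s.map (fun a => min a m)).sum = s.sum ↔ ∀ a ∈ s, a ≤ m := by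
  induction s using Multiset.induction_on with
  | empty => simp
  | cons a s ih =>
    rw [Multiset.map_cons, Multiset.sum_cons, Multiset.sum_cons]
    have h1 : min a m ≤ a := min_le_left a m
    have h2 := ms_min_sum_le s m
    constructor
    · intro h
      have h3 : min a m = a := by omega
      have h4 : (s.map (fun a => min a m)).sum = s.sum := by omega
      intro b hb
      rw [Multiset.mem_cons] at hb
      rcases hb with rfl | hb
      · exact min_eq_left_iff.mp h3
      · exact ih.mp h4 b hb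
    · intro h
      have h3 : min a m = a := min_eq_left (h a (Multiset.mem_cons_self a s))
      have h4 := ih.mpr (fun b hb => h b (Multiset.mem_cons_of_mem hb))
      omega

section
variable {F : Type uN} [Field F] [Fintype F]

theorem mat_zero_of_mulVec {n : ℕ} (M : Matrix (Fin n) (Fin n) F)
    (hall : ∀ v : Fin n → F, M *ᵥ v = 0) : M = 0 := by
  classical
  have h0 : Matrix.toLin' M = Matrix.toLin' 0 := by
    apply LinearMap.ext
    intro v
    rw [Matrix.toLin'_apply, hall v, map_zero, LinearMap.zero_apply]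
  exact Matrix.toLin'.injective h0

theorem mat_zero_iff_ker_card {n : ℕ} (M : Matrix (Fin n) (Fin n) F) :
    M = 0 ↔ Nat.card {v : Fin n → F // M *ᵥ v = 0} = Fintype.card F ^ n := by
  classical
  constructor
  · intro h
    rw [h]
    have h1 : Nat.card {v : Fin n → F // (0 : Matrix (Fin n) (Fin n) F) *ᵥ v = 0}
        = Nat.card (Fin n → F) := by
      apply Nat.card_congr
      exact Equiv.subtypeUnivEquiv (fun v => Matrix.zero_mulVec v)
    rw [h1, Nat.card_eq_fintype_card, Fintype.card_fun, Fintype.card_fin]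
  · intro h
    by_contra hne
    have hex : ∃ v : Fin n → F, ¬ (M *ᵥ v = 0) := by
      by_contra hall
      push Not at hall
      exact hne (mat_zero_of_mulVec M hall)
    obtain ⟨v, hv⟩ := hex
    have hlt := Finite.card_subtype_lt (p := fun v : Fin n → F => M *ᵥ v = 0) hv
    rw [h, Nat.card_eq_fintype_card, Fintype.card_fun, Fintype.card_fin] at hlt
    exact lt_irrefl _ hlt

/-- vanishing of a power of `g - 1` in terms of the kernel count -/
theorem gl_pow_zero_iff {n : ℕ} (g : GL (Fin n) F) (m : ℕ) :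
    ((g : Matrix (Fin n) (Fin n) F) - 1) ^ m = 0 ↔ glKappa g m = Fintype.card F ^ n := by
  unfold glKappa
  exact mat_zero_iff_ker_card _

theorem gl_unip_of_order (p : ℕ) [Fact p.Prime] [CharP F p] {n : ℕ} (g : GL (Fin n) F) (k : ℕ)
    (h : g ^ (p ^ k) = 1) : ((g : Matrix (Fin n) (Fin n) F) - 1) ^ (p ^ k) = 0 := by
  classical
  rcases Nat.eq_zero_or_pos n with hn | hn
  · subst hn
    exact Subsingleton.elim _ _
  · haveI : Nonempty (Fin n) := ⟨⟨0, hn⟩⟩
    rw [sub_pow_char_pow_of_commute p k (Commute.one_right _), one_pow,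
      ← Units.val_pow_eq_pow_val, h, Units.val_one, sub_self]

theorem gl_pow_one_of_unip (p : ℕ) [Fact p.Prime] [CharP F p] {n : ℕ} (g : GL (Fin n) F) (k : ℕ)
    (h : ((g : Matrix (Fin n) (Fin n) F) - 1) ^ (p ^ k) = 0) : g ^ (p ^ k) = 1 := by
  classical
  rcases Nat.eq_zero_or_pos n with hn | hn
  · subst hn
    exact Units.ext (Subsingleton.elim _ _)
  · haveI : Nonempty (Fin n) := ⟨⟨0, hn⟩⟩
    apply Units.ext
    rw [sub_pow_char_pow_of_commute p k (Commute.one_right _), one_pow, sub_eq_zero] at h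
    rw [Units.val_pow_eq_pow_val, h, Units.val_one]

theorem gl_kappa_partition {n : ℕ} (g : GL (Fin n) F) (m : ℕ)
    (hg : ((g : Matrix (Fin n) (Fin n) F) - 1) ^ m = 0) :
    ∃ lam : Nat.Partition n, ∀ k, glKappa g k
      = Fintype.card F ^ (lam.parts.map (fun a => min a k)).sum := by
  classical
  have hq : 1 < Fintype.card F := Fintype.one_lt_card
  obtain ⟨N, hN⟩ : ∃ N : (Fin n → F) →ₗ[F] (Fin n → F),
      N = Matrix.toLinAlgEquiv' ((g : Matrix (Fin n) (Fin n) F) - 1) := ⟨_, rfl⟩
  have hNm : N ^ m = 0 := by rw [hN, ← map_pow, hg, map_zero]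
  obtain ⟨ι, _, e, hT⟩ := niltype_exists N m hNm
  have hT' := niltype_pos N ι e hT
  have hκ : ∀ k, glKappa g k
      = Fintype.card F ^ (∑ i : {i : ι // e i ≠ 0}, min (e i.1) k) := by
    intro k
    rw [← niltype_ker_card N {i : ι // e i ≠ 0} (fun i => e i.1) hT' k]
    unfold glKappa
    rw [hN]
    simp only [toLin_pow_apply]
  have hsum : ∑ i : {i : ι // e i ≠ 0}, e i.1 = n := by
    have h1 := hκ (m + ∑ i : {i : ι // e i ≠ 0}, e i.1)
    have h2 : glKappa g (m + ∑ i : {i : ι // e i ≠ 0}, e i.1) = Fintype.card F ^ n := by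
      rw [← gl_pow_zero_iff, pow_add, hg, zero_mul]
    rw [h2] at h1
    have h3 := Nat.pow_right_injective hq h1
    rw [h3]
    apply Finset.sum_congr rfl
    intro i _
    symm
    apply min_eq_left
    exact le_trans (Finset.single_le_sum (f := fun i : {i : ι // e i ≠ 0} => e i.1)
      (fun _ _ => Nat.zero_le _) (Finset.mem_univ i)) (Nat.le_add_left _ _)
  refine ⟨⟨Multiset.map (fun i : {i : ι // e i ≠ 0} => e i.1) Finset.univ.val, ?_, ?_⟩, ?_⟩
  · intro a ha
    rw [Multiset.mem_map] at ha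
    obtain ⟨i, _, rfl⟩ := ha
    exact Nat.pos_of_ne_zero i.2
  · exact hsum
  · intro k
    rw [hκ k, Multiset.map_map]
    rfl

theorem gl_realize {n : ℕ} (lam : Nat.Partition n) :
    ∃ g : GL (Fin n) F, ∀ k, glKappa g k
      = Fintype.card F ^ (lam.parts.map (fun a => min a k)).sum := by
  classical
  obtain ⟨l, hl⟩ : ∃ l : List ℕ, (l : Multiset ℕ) = lam.parts :=
    ⟨lam.parts.toList, Multiset.coe_toList _⟩
  have hmap : ∀ f : ℕ → ℕ, (lam.parts.map f).sum = ∑ i : Fin l.length, f l[i.1] := by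
    intro f
    rw [← hl, Multiset.map_coe, Multiset.sum_coe, Fin.sum_univ_fun_getElem]
  have hsum : ∑ i : Fin l.length, l[i.1] = n := by
    have h1 := hmap (fun a => a)
    rw [Multiset.map_id', lam.parts_sum] at h1
    exact h1.symm
  obtain ⟨N, hT⟩ := niltype_realize (F := F) n l.length (fun i => l[i.1]) hsum
  have hker := niltype_ker_card N (Fin l.length) (fun i => l[i.1]) hT
  obtain ⟨B, hB⟩ : ∃ B : Matrix (Fin n) (Fin n) F, Matrix.toLinAlgEquiv' B = N :=
    ⟨LinearMap.toMatrixAlgEquiv' N, Matrix.toLinAlgEquiv'_toMatrixAlgEquiv' N⟩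
  have hBk : ∀ k, Nat.card {v : Fin n → F // (B ^ k) *ᵥ v = 0}
      = Fintype.card F ^ (lam.parts.map (fun a => min a k)).sum := by
    intro k
    rw [hmap (fun a => min a k), ← hker k, ← hB]
    simp only [toLin_pow_apply]
  have hBn : B ^ n = 0 := by
    rw [mat_zero_iff_ker_card, hBk n]
    congr 1
    have h5 := (ms_min_sum_eq_iff lam.parts n).mpr
      (fun a ha => Nat.Partition.le_of_mem_parts ha)
    rw [h5, lam.parts_sum]
  obtain ⟨g, hg⟩ := (IsNilpotent.isUnit_one_add ⟨n, hBn⟩ : IsUnit (1 + B))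
  refine ⟨g, ?_⟩
  intro k
  unfold glKappa
  have h1 : (g : Matrix (Fin n) (Fin n) F) - 1 = B := by rw [hg, add_sub_cancel_left]
  rw [h1]
  exact hBk k

theorem gl_pow_zero_iff_parts {n : ℕ} (g : GL (Fin n) F) (lam : Nat.Partition n)
    (hκ : ∀ k, glKappa g k = Fintype.card F ^ (lam.parts.map (fun a => min a k)).sum) (m : ℕ) :
    ((g : Matrix (Fin n) (Fin n) F) - 1) ^ m = 0 ↔ ∀ a ∈ lam.parts, a ≤ m := by
  have hq : 1 < Fintype.card F := Fintype.one_lt_card
  rw [gl_pow_zero_iff, hκ, ← ms_min_sum_eq_iff, lam.parts_sum]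
  constructor
  · intro h
    exact Nat.pow_right_injective hq h
  · intro h
    rw [h]

theorem classes_card_of_kappa {n : ℕ} (P : GL (Fin n) F → Prop) (Q : Nat.Partition n → Prop)
    (hP : ∀ g : GL (Fin n) F, P g → ∃ m, ((g : Matrix (Fin n) (Fin n) F) - 1) ^ m = 0)
    (hPQ : ∀ (g : GL (Fin n) F) (lam : Nat.Partition n),
      (∀ k, glKappa g k = Fintype.card F ^ (lam.parts.map (fun a => min a k)).sum) →
      (P g ↔ Q lam)) :
    Nat.card {C : ConjClasses (GL (Fin n) F) // ∃ g, P g ∧ ConjClasses.mk g = C}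
      = Nat.card {lam : Nat.Partition n // Q lam} := by
  classical
  obtain ⟨Φ, hΦ⟩ : ∃ Φ : Nat.Partition n → ℕ → ℕ, ∀ lam k,
      Φ lam k = Fintype.card F ^ (lam.parts.map (fun a => min a k)).sum := ⟨_, fun _ _ => rfl⟩
  have hΦinj : Function.Injective Φ := by
    intro lam lam' h
    have hq : 1 < Fintype.card F := Fintype.one_lt_card
    apply Nat.Partition.ext
    apply ms_eq_of_min_sums
    · intro a ha
      exact (lam.parts_pos ha).ne'
    · intro a ha
      exact (lam'.parts_pos ha).ne'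
    · intro k
      have h1 := congrFun h k
      rw [hΦ, hΦ] at h1
      exact Nat.pow_right_injective hq h1
  have hΦ'inj : Function.Injective (fun lam : {lam : Nat.Partition n // Q lam} => Φ lam.1) :=
    fun a b h => Subtype.ext (hΦinj h)
  obtain ⟨Ψ, hΨ⟩ : ∃ Ψ : {C : ConjClasses (GL (Fin n) F) // ∃ g, P g ∧ ConjClasses.mk g = C}
      → ℕ → ℕ, ∀ C, Ψ C = glKappa (Classical.choose C.2) := ⟨_, fun _ => rfl⟩
  have hΨinj : Function.Injective Ψ := by
    intro C C' h
    rw [hΨ, hΨ] at h
    obtain ⟨hPg, hg⟩ := Classical.choose_spec C.2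
    obtain ⟨hPg', hg'⟩ := Classical.choose_spec C'.2
    obtain ⟨m, hm⟩ := hP _ hPg
    obtain ⟨m', hm'⟩ := hP _ hPg'
    have hconj := gl_conj_of_kappa _ _ m m' hm hm' (fun k => congrFun h k)
    apply Subtype.ext
    rw [← hg, ← hg']
    exact ConjClasses.mk_eq_mk_iff_isConj.mpr hconj
  have hrange : Set.range Ψ
      = Set.range (fun lam : {lam : Nat.Partition n // Q lam} => Φ lam.1) := by
    ext f
    constructor
    · rintro ⟨C, rfl⟩
      obtain ⟨hPg, hg⟩ := Classical.choose_spec C.2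
      obtain ⟨m, hm⟩ := hP _ hPg
      obtain ⟨lam, hlam⟩ := gl_kappa_partition _ m hm
      refine ⟨⟨lam, (hPQ _ lam hlam).mp hPg⟩, ?_⟩
      funext k
      show Φ lam k = Ψ C k
      rw [hΨ, hΦ, hlam]
    · rintro ⟨⟨lam, hQ⟩, rfl⟩
      obtain ⟨g, hgk⟩ := gl_realize (F := F) lam
      have hPg : P g := (hPQ g lam hgk).mpr hQ
      obtain ⟨C, hC⟩ : ∃ C : {C : ConjClasses (GL (Fin n) F) // ∃ g, P g ∧ ConjClasses.mk g = C},
          C.1 = ConjClasses.mk g := ⟨⟨ConjClasses.mk g, g, hPg, rfl⟩, rfl⟩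
      refine ⟨C, ?_⟩
      funext k
      show Ψ C k = Φ lam k
      rw [hΨ, hΦ, ← hgk]
      apply glKappa_conj
      have h1 := (Classical.choose_spec C.2).2
      exact ConjClasses.mk_eq_mk_iff_isConj.mp (h1.trans hC)
  rw [← Nat.card_range_of_injective hΨinj, hrange, Nat.card_range_of_injective hΦ'inj]

theorem unip_classes_card (p : ℕ) [Fact p.Prime] [CharP F p] (n : ℕ) :
    Nat.card {C : ConjClasses (GL (Fin n) F) //
      ∃ g : GL (Fin n) F, (∃ k : ℕ, orderOf g = p ^ k) ∧ ConjClasses.mk g = C}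
      = Fintype.card (Nat.Partition n) := by
  classical
  have hp : p.Prime := Fact.out
  rw [classes_card_of_kappa (fun g : GL (Fin n) F => ∃ k : ℕ, orderOf g = p ^ k) (fun _ => True)]
  · rw [← Nat.card_eq_fintype_card]
    exact Nat.card_congr (Equiv.subtypeUnivEquiv (fun _ => trivial))
  · rintro g ⟨k, hk⟩
    exact ⟨p ^ k, gl_unip_of_order p g k (by rw [← hk]; exact pow_orderOf_eq_one g)⟩
  · intro g lam hκ
    refine ⟨fun _ => trivial, fun _ => ?_⟩
    have h1 : ((g : Matrix (Fin n) (Fin n) F) - 1) ^ n = 0 := by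
      rw [gl_pow_zero_iff_parts g lam hκ]
      intro a ha
      exact Nat.Partition.le_of_mem_parts ha
    have h2 : ((g : Matrix (Fin n) (Fin n) F) - 1) ^ (p ^ n) = 0 :=
      pow_eq_zero_of_le (Nat.lt_pow_self hp.one_lt).le h1
    have h3 := gl_pow_one_of_unip p g n h2
    obtain ⟨k, _, hk⟩ := (Nat.dvd_prime_pow hp).mp (orderOf_dvd_of_pow_eq_one h3)
    exact ⟨k, hk⟩

theorem order_p_classes_card (p : ℕ) [Fact p.Prime] [CharP F p] (n : ℕ) :
    Nat.card {C : ConjClasses (GL (Fin n) F) //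
      ∃ g : GL (Fin n) F, ConjClasses.mk g = C ∧ orderOf g = p}
      = Nat.card {μ : Nat.Partition n // ∀ a ∈ μ.parts, a ≤ p} - 1 := by
  classical
  have hp : p.Prime := Fact.out
  have e1 : Nat.card {C : ConjClasses (GL (Fin n) F) //
        ∃ g : GL (Fin n) F, ConjClasses.mk g = C ∧ orderOf g = p}
      = Nat.card {C : ConjClasses (GL (Fin n) F) //
        ∃ g : GL (Fin n) F, orderOf g = p ∧ ConjClasses.mk g = C} := by
    apply Nat.card_congr
    exact Equiv.subtypeEquivRight (fun C => ⟨fun ⟨g, h1, h2⟩ => ⟨g, h2, h1⟩,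
      fun ⟨g, h1, h2⟩ => ⟨g, h2, h1⟩⟩)
  rw [e1, classes_card_of_kappa (fun g : GL (Fin n) F => orderOf g = p)
    (fun lam => (∀ a ∈ lam.parts, a ≤ p) ∧ ¬ (∀ a ∈ lam.parts, a ≤ 1))]
  · obtain ⟨ones, hones⟩ : ∃ ones : Nat.Partition n, ones.parts = Multiset.replicate n 1 :=
      ⟨⟨Multiset.replicate n 1, fun {i} hi => by
        rw [Multiset.eq_of_mem_replicate hi]; exact one_pos, by simp⟩, rfl⟩
    have honesB : ∀ a ∈ ones.parts, a ≤ 1 := by
      intro a ha
      rw [hones] at ha
      exact (Multiset.eq_of_mem_replicate ha).le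
    have huniq : ∀ lam : Nat.Partition n, (∀ a ∈ lam.parts, a ≤ 1) → lam = ones := by
      intro lam hB
      have h1 : ∀ b ∈ lam.parts, b = 1 := fun b hb => le_antisymm (hB b hb) (lam.parts_pos hb)
      have h2 : lam.parts = Multiset.replicate (Multiset.card lam.parts) 1 :=
        Multiset.eq_replicate_card.mpr h1
      have h3 : Multiset.card lam.parts = n := by
        have h4 := lam.parts_sum
        rw [h2, Multiset.sum_replicate, smul_eq_mul, mul_one] at h4
        exact h4
      apply Nat.Partition.ext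
      rw [hones, h2, h3]
    rw [Nat.card_eq_fintype_card, Nat.card_eq_fintype_card, Fintype.card_subtype,
      Fintype.card_subtype]
    have hset : Finset.univ.filter (fun lam : Nat.Partition n =>
          (∀ a ∈ lam.parts, a ≤ p) ∧ ¬ (∀ a ∈ lam.parts, a ≤ 1))
        = (Finset.univ.filter (fun lam : Nat.Partition n => ∀ a ∈ lam.parts, a ≤ p)).erase
          ones := by
      ext lam
      simp only [Finset.mem_filter, Finset.mem_univ, true_and, Finset.mem_erase]
      constructor
      · rintro ⟨hA, hnB⟩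
        exact ⟨fun h => hnB (by rw [h]; exact honesB), hA⟩
      · rintro ⟨hne, hA⟩
        exact ⟨hA, fun hB => hne (huniq lam hB)⟩
    rw [hset, Finset.card_erase_of_mem]
    simp only [Finset.mem_filter, Finset.mem_univ, true_and]
    intro a ha
    exact le_trans (honesB a ha) hp.one_lt.le
  · intro g hg
    refine ⟨p ^ 1, gl_unip_of_order p g 1 ?_⟩
    rw [pow_one, ← hg]
    exact pow_orderOf_eq_one g
  · intro g lam hκ
    rw [orderOf_eq_prime_iff]
    have hA := gl_pow_zero_iff_parts g lam hκ p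
    have hB := gl_pow_zero_iff_parts g lam hκ 1
    constructor
    · rintro ⟨h1, h2⟩
      refine ⟨hA.mp ?_, fun hb => h2 ?_⟩
      · have h5 := gl_unip_of_order p g 1 (by rw [pow_one]; exact h1)
        rw [pow_one] at h5
        exact h5
      · have h5 := hB.mpr hb
        rw [pow_one, sub_eq_zero] at h5
        exact Units.ext h5
    · rintro ⟨h1, h2⟩
      refine ⟨?_, fun hg1 => h2 (hB.mp ?_)⟩
      · have h5 := gl_pow_one_of_unip p g 1 (by rw [pow_one]; exact hA.mpr h1)
        rw [pow_one] at h5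
        exact h5
      · rw [hg1, Units.val_one, sub_self, pow_one]

end

end Cfsg.Agent.Helper5
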