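import Mathlib
import Cfsg.Prelude.Def_Classical
import Cfsg.Agent.Helper5.OrthOrd5
import Cfsg.Agent.S0290

namespace Cfsg.Agent.Helper5

open Matrix

section
variable {F V : Type*} [Field F] [AddCommGroup V] [Module F V]

theorem minus_count_step [Fintype F] [FiniteDimensional F V] {Q : QuadraticForm F V} {e f : V}
    (h : IsHP Q e f) {n : ℕ} (hV : Module.finrank F V = 2 * (n + 1 + 1))
    (hZ : Nat.card {v : V // Q v = 0} * Fintype.card F + Fintype.card F ^ (n + 1 + 1 + 1)
      = Fintype.card F ^ (2 * (n + 1 + 1)) + Fintype.card F ^ (n + 1 + 1)) :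
    Nat.card {w : hpPerp Q e f // (Q.comp (hpPerp Q e f).subtype) w = 0} * Fintype.card F
        + Fintype.card F ^ (n + 1 + 1)
      = Fintype.card F ^ (2 * (n + 1)) + Fintype.card F ^ (n + 1) := by
  have hc := hp_count h
  have hW : Nat.card (hpPerp Q e f) = Fintype.card F ^ (2 * (n + 1)) := by
    rw [Module.natCard_eq_pow_finrank (K := F), Nat.card_eq_fintype_card]
    congr 1
    have := hp_finrank h
    omega
  rw [hW] at hc
  have hcongr : Nat.card {w : hpPerp Q e f // (Q.comp (hpPerp Q e f).subtype) w = 0}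
      = Nat.card {w : hpPerp Q e f // Q (w : V) = 0} := rfl
  rw [hcongr]
  generalize Nat.card {w : hpPerp Q e f // Q (w : V) = 0} = Z' at hc ⊢
  generalize Nat.card {v : V // Q v = 0} = Z at hc hZ
  have hq0 : 0 < Fintype.card F := Fintype.card_pos
  generalize Fintype.card F = q at hc hZ hq0 ⊢
  obtain ⟨A, hA⟩ : ∃ A, A = q ^ (n + 1) := ⟨_, rfl⟩
  have e1 : q ^ (n + 1 + 1) = q * A := by rw [hA]; ring
  have e2 : q ^ (2 * (n + 1 + 1)) = q * q * (A * A) := by rw [hA]; ring
  have e3 : q ^ (n + 1 + 1 + 1) = q * q * A := by rw [hA]; ring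
  have e4 : q ^ (2 * (n + 1)) = A * A := by rw [hA]; ring
  rw [e1, e2, e3] at hZ
  rw [e4] at hc
  rw [e4, e1, ← hA]
  apply Nat.eq_of_mul_eq_mul_left hq0
  have hc' : q * (Z + A * A) = q * (q * Z' + q * (A * A)) := by rw [hc]
  linarith

theorem minus_sing_count [Fintype F] [FiniteDimensional F V] (Q : QuadraticForm F V) {n : ℕ}
    (hZ : Nat.card {v : V // Q v = 0} * Fintype.card F + Fintype.card F ^ (n + 1 + 1 + 1)
      = Fintype.card F ^ (2 * (n + 1 + 1)) + Fintype.card F ^ (n + 1 + 1)) :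
    Nat.card {e : V // Q e = 0 ∧ e ≠ 0}
      = (Fintype.card F ^ (n + 1 + 1) + 1) * (Fintype.card F ^ (n + 1) - 1) := by
  classical
  haveI : Finite V := Module.finite_of_finite F
  have h1 : Nat.card {v : V // Q v = 0} = Nat.card {e : V // Q e = 0 ∧ e ≠ 0} + 1 := by
    rw [Nat.card_congr (Equiv.sumCompl (fun x : {v : V // Q v = 0} => x.1 = 0)).symm,
      Nat.card_sum, add_comm]
    congr 1
    · exact Nat.card_congr
        (Equiv.subtypeSubtypeEquivSubtypeInter (fun v : V => Q v = 0) (fun v : V => ¬ v = 0))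
    · rw [Nat.card_eq_one_iff_unique]
      exact ⟨⟨fun a b => Subtype.ext (Subtype.ext (a.2.trans b.2.symm))⟩,
        ⟨⟨⟨0, map_zero Q⟩, rfl⟩⟩⟩
  rw [h1] at hZ
  generalize Nat.card {e : V // Q e = 0 ∧ e ≠ 0} = S at hZ ⊢
  have hq0 : 0 < Fintype.card F := Fintype.card_pos
  generalize Fintype.card F = q at hZ hq0 ⊢
  obtain ⟨A, hA⟩ : ∃ A, A = q ^ (n + 1) := ⟨_, rfl⟩
  have e1 : q ^ (n + 1 + 1) = q * A := by rw [hA]; ring
  have e2 : q ^ (2 * (n + 1 + 1)) = q * q * (A * A) := by rw [hA]; ring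
  have e3 : q ^ (n + 1 + 1 + 1) = q * q * A := by rw [hA]; ring
  rw [e1, e2, e3] at hZ
  rw [e1, ← hA]
  have hA1 : 1 ≤ A := by rw [hA]; exact Nat.one_le_pow _ _ hq0
  obtain ⟨B, hB⟩ : ∃ B, A = B + 1 := ⟨A - 1, by omega⟩
  rw [hB, Nat.add_sub_cancel]
  rw [hB] at hZ
  apply Nat.eq_of_mul_eq_mul_left hq0
  linarith

end

/-- The recursion for the order of the minus-type group. -/
def minusN (q : ℕ) : ℕ → ℕ
  | 0 => 2 * (q + 1)
  | n + 1 => (q ^ (n + 1 + 1) + 1) * (q ^ (n + 1) - 1) * q ^ (2 * (n + 1)) * minusN q n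

theorem minusN_succ (q n : ℕ) :
    minusN q (n + 1)
      = (q ^ (n + 1 + 1) + 1) * (q ^ (n + 1) - 1) * q ^ (2 * (n + 1)) * minusN q n := rfl

theorem minusN_closed (q : ℕ) (hq : 1 ≤ q) (k : ℕ) :
    minusN q k = 2 * q ^ ((k + 1) * k) * (q ^ (k + 1) + 1)
      * ∏ i ∈ Finset.range k, (q ^ (2 * (i + 1)) - 1) := by
  induction k with
  | zero =>
    simp [minusN]
  | succ k ih =>
    rw [minusN_succ, ih, Finset.prod_range_succ]
    have h1 : (q ^ (k + 1) - 1) * (q ^ (k + 1) + 1) = q ^ (2 * (k + 1)) - 1 := by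
      obtain ⟨y, hy⟩ : ∃ y, q ^ (k + 1) = y + 1 := ⟨q ^ (k + 1) - 1, by
        have := Nat.one_le_pow (k + 1) q hq
        omega⟩
      have h2 : q ^ (2 * (k + 1)) = y * (y + 1 + 1) + 1 := by
        rw [show 2 * (k + 1) = (k + 1) + (k + 1) by ring, pow_add, hy]; ring
      rw [h2, hy, Nat.add_sub_cancel, Nat.add_sub_cancel]
    have h2 : q ^ (2 * (k + 1)) * q ^ ((k + 1) * k) = q ^ ((k + 1 + 1) * (k + 1)) := by
      rw [← pow_add]
      congr 1
      ring
    rw [← h1, ← h2]
    ring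

universe u

theorem isoLL_card_minus {F : Type*} [Field F] [Fintype F] :
    ∀ (n : ℕ) (V V' : Type u) [AddCommGroup V] [Module F V] [FiniteDimensional F V]
      [AddCommGroup V'] [Module F V'] [FiniteDimensional F V']
      (Q : QuadraticForm F V) (Q' : QuadraticForm F V'),
      (QuadraticMap.polarBilin Q).Nondegenerate → (QuadraticMap.polarBilin Q').Nondegenerate →
      Module.finrank F V = 2 * (n + 1) → Module.finrank F V' = 2 * (n + 1) →
      Nat.card {v : V // Q v = 0} * Fintype.card F + Fintype.card F ^ (n + 1 + 1)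
        = Fintype.card F ^ (2 * (n + 1)) + Fintype.card F ^ (n + 1) →
      Nat.card {v : V' // Q' v = 0} * Fintype.card F + Fintype.card F ^ (n + 1 + 1)
        = Fintype.card F ^ (2 * (n + 1)) + Fintype.card F ^ (n + 1) →
      Nat.card (IsoLL Q Q') = minusN (Fintype.card F) n := by
  intro n
  induction n with
  | zero =>
    intro V V' _ _ _ _ _ _ Q Q' hQ hQ' hV hV' hZ hZ'
    haveI : Finite V := Module.finite_of_finite F
    haveI : Finite V' := Module.finite_of_finite F
    have hq0 : 0 < Fintype.card F := Fintype.card_pos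
    have key : ∀ (W : Type u) [AddCommGroup W] [Module F W] [Finite W] (R : QuadraticForm F W),
        Nat.card {v : W // R v = 0} * Fintype.card F + Fintype.card F ^ (0 + 1 + 1)
          = Fintype.card F ^ (2 * (0 + 1)) + Fintype.card F ^ (0 + 1) →
        ∀ v, R v = 0 → v = 0 := by
      intro W _ _ _ R hR v hv
      have h1 : Nat.card {v : W // R v = 0} = 1 := by
        have h2 : Nat.card {v : W // R v = 0} * Fintype.card F = 1 * Fintype.card F := by
          have e1 : Fintype.card F ^ (0 + 1 + 1) = Fintype.card F ^ (2 * (0 + 1)) := by norm_num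
          rw [e1, add_comm] at hR
          have h3 := Nat.add_left_cancel hR
          rw [h3]
          simp
        exact Nat.eq_of_mul_eq_mul_right hq0 h2
      rw [Nat.card_eq_one_iff_unique] at h1
      obtain ⟨hs, -⟩ := h1
      have := hs.elim ⟨v, hv⟩ ⟨0, map_zero R⟩
      exact congrArg Subtype.val this
    show Nat.card (IsoLL Q Q') = 2 * (Fintype.card F + 1)
    exact aniso_iso_card' Q Q' hQ hQ' (by rw [hV]) (by rw [hV']) (key V Q hZ) (key V' Q' hZ')
  | succ n ih =>
    intro V V' _ _ _ _ _ _ Q Q' hQ hQ' hV hV' hZ hZ'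
    classical
    haveI : Finite V := Module.finite_of_finite F
    haveI : Finite V' := Module.finite_of_finite F
    have hq2 : 2 ≤ Fintype.card F := Fintype.one_lt_card
    obtain ⟨e₀, he₀, hQe₀⟩ : ∃ e₀ : V, e₀ ≠ 0 ∧ Q e₀ = 0 := by
      by_contra hcon
      push_neg at hcon
      have hsub : Nat.card {v : V // Q v = 0} ≤ 1 := by
        haveI : Subsingleton {v : V // Q v = 0} := ⟨fun a b => Subtype.ext (by
          have ha : a.1 = 0 := by
            by_contra h
            exact hcon a.1 h a.2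
          have hb : b.1 = 0 := by
            by_contra h
            exact hcon b.1 h b.2
          rw [ha, hb])⟩
        exact Finite.card_le_one_iff_subsingleton.mpr inferInstance
      generalize Nat.card {v : V // Q v = 0} = Z at hZ hsub
      generalize Fintype.card F = q at hZ hq2
      obtain ⟨A, hA⟩ : ∃ A, A = q ^ (n + 1) := ⟨_, rfl⟩
      have e1 : q ^ (n + 1 + 1) = q * A := by rw [hA]; ring
      have e2 : q ^ (2 * (n + 1 + 1)) = q * q * (A * A) := by rw [hA]; ring
      have e3 : q ^ (n + 1 + 1 + 1) = q * q * A := by rw [hA]; ring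
      rw [e1, e2, e3] at hZ
      have hA2 : 2 ≤ A := by
        rw [hA]
        calc 2 ≤ q := hq2
          _ = q ^ 1 := (pow_one q).symm
          _ ≤ q ^ (n + 1) := Nat.pow_le_pow_right (by omega) (by omega)
      have h1 : q * q * A * 2 ≤ q * q * A * A := Nat.mul_le_mul_left _ hA2
      have h2 : q * 1 ≤ q * A := Nat.mul_le_mul_left _ (by omega)
      have h3 : Z * q ≤ 1 * q := Nat.mul_le_mul_right q hsub
      have h4 : 0 < q * q * A := by positivity
      nlinarith
    obtain ⟨f₀, h₀⟩ := hp_exists Q hQ e₀ he₀ hQe₀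
    rw [isoLL_card_sigma Q Q' e₀ f₀ h₀]
    haveI : Fintype {p : V' × V' // IsHP Q' p.1 p.2} := Fintype.ofFinite _
    have hW₀fr : Module.finrank F (hpPerp Q e₀ f₀) = 2 * (n + 1) := by
      have := hp_finrank h₀
      omega
    have hfib : ∀ p : {p : V' × V' // IsHP Q' p.1 p.2},
        Nat.card (IsoLL (Q.comp (hpPerp Q e₀ f₀).subtype)
          (Q'.comp (hpPerp Q' p.1.1 p.1.2).subtype)) = minusN (Fintype.card F) n := by
      intro p
      exact ih _ _ _ _ (hp_nondeg h₀ hQ) (hp_nondeg p.2 hQ') hW₀fr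
        (by have := hp_finrank p.2; omega) (minus_count_step h₀ hV hZ)
        (minus_count_step p.2 hV' hZ')
    rw [Nat.card_sigma]
    simp only [hfib]
    rw [Finset.sum_const, Finset.card_univ, smul_eq_mul, ← Nat.card_eq_fintype_card,
      hp_card Q' hQ' (2 * (n + 1)) (by omega), minus_sing_count Q' hZ', minusN_succ]

theorem qfMinusQ_nondeg {F : Type*} [Field F] [Fintype F] (k : ℕ) (a b : F)
    (hab : ∀ z₁ z₂ : F, z₁ ^ 2 + a * z₁ * z₂ + b * z₂ ^ 2 = 0 → z₁ = 0 ∧ z₂ = 0) :
    (QuadraticMap.polarBilin (qfMinusQ k F a b)).Nondegenerate := by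
  classical
  have hL : ∀ u : (Fin k ⊕ Fin k) ⊕ Fin 2 → F,
      (∀ v, QuadraticMap.polar ⇑(qfMinusQ k F a b) u v = 0) → u = 0 := by
    intro u hu
    have h0 := hu (Pi.single (Sum.inr 0) 1)
    have h1 := hu (Pi.single (Sum.inr 1) 1)
    rw [qfMinusQ_polar] at h0 h1
    simp [Pi.single_apply] at h0 h1
    have hz : u (Sum.inr 0) = 0 ∧ u (Sum.inr 1) = 0 := by
      by_cases h2 : (2 : F) = 0
      · rw [h2] at h0 h1
        simp at h0 h1
        by_cases ha : a = 0
        · exfalso
          have hch : ringChar F = 2 :=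
            CharP.ringChar_of_prime_eq_zero Nat.prime_two (by exact_mod_cast h2)
          obtain ⟨c, hc⟩ := FiniteField.isSquare_of_char_two hch b
          have := (hab c 1 (by rw [ha, hc]; linear_combination (c * c) * h2)).2
          exact one_ne_zero this
        · exact ⟨by tauto, by tauto⟩
      · apply hab
        have : (2 : F) * (u (Sum.inr 0) ^ 2 + a * u (Sum.inr 0) * u (Sum.inr 1)
            + b * u (Sum.inr 1) ^ 2) = 0 := by
          linear_combination u (Sum.inr 0) * h0 + u (Sum.inr 1) * h1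
        rcases mul_eq_zero.mp this with h | h
        · exact absurd h h2
        · exact h
    funext x
    rcases x with (i | i) | i
    · have := hu (Pi.single (Sum.inl (Sum.inr i)) 1)
      rw [qfMinusQ_polar] at this
      simpa [Pi.single_apply] using this
    · have := hu (Pi.single (Sum.inl (Sum.inl i)) 1)
      rw [qfMinusQ_polar] at this
      simpa [Pi.single_apply] using this
    · fin_cases i
      · exact hz.1
      · exact hz.2
  refine ⟨fun u hu => hL u (fun v => by
    rw [← QuadraticMap.polarBilin_apply_apply]; exact hu v), ?_⟩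
  intro v hv
  exact hL v (fun u => by
    rw [QuadraticMap.polar_comm, ← QuadraticMap.polarBilin_apply_apply]; exact hv u)

theorem go_minus_order {F : Type*} [Field F] [Fintype F] {q : ℕ} (hF : Fintype.card F = q)
    (k : ℕ) (a b : F)
    (hab : ∀ z₁ z₂ : F, z₁ ^ 2 + a * z₁ * z₂ + b * z₂ ^ 2 = 0 → z₁ = 0 ∧ z₂ = 0) :
    Nat.card (Cfsg.isometryGroup F (Cfsg.quadFormMinus k F a b))
      = 2 * q ^ ((k + 1) * k) * (q ^ (k + 1) + 1)
        * ∏ i ∈ Finset.range k, (q ^ (2 * (i + 1)) - 1) := by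
  classical
  have hnd := qfMinusQ_nondeg k a b hab
  rw [isoLL_card_group _ (qfMinusQ k F a b) (qfMinusQ_apply k a b) hnd]
  have hq0 : 0 < Fintype.card F := Fintype.card_pos
  have hZ : Nat.card {v : (Fin k ⊕ Fin k) ⊕ Fin 2 → F // qfMinusQ k F a b v = 0}
        * Fintype.card F + Fintype.card F ^ (k + 1 + 1)
      = Fintype.card F ^ (2 * (k + 1)) + Fintype.card F ^ (k + 1) := by
    have h1 := Cfsg.Agent.S0290.result (F := F) rfl (k + 1) (by omega) a b hab
    have h2 : Nat.card {v : (Fin k ⊕ Fin k) ⊕ Fin 2 → F // qfMinusQ k F a b v = 0}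
        = Nat.card {v : (Fin (k + 1 - 1) ⊕ Fin (k + 1 - 1)) ⊕ Fin 2 → F //
            Cfsg.quadFormMinus (k + 1 - 1) F a b v = 0} :=
      Nat.card_congr (Equiv.subtypeEquivRight (fun v => by rw [qfMinusQ_apply]; rfl))
    rw [h2, h1]
    generalize Fintype.card F = q' at hq0 ⊢
    obtain ⟨A, hA⟩ : ∃ A, A = q' ^ k := ⟨_, rfl⟩
    have e1 : q' ^ (k + 1) = q' * A := by rw [hA]; ring
    have e2 : q' ^ (2 * (k + 1) - 1) = q' * (A * A) := by
      rw [show 2 * (k + 1) - 1 = 2 * k + 1 by omega, hA]; ring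
    have e3 : q' ^ (2 * (k + 1)) = q' * q' * (A * A) := by rw [hA]; ring
    have e4 : q' ^ (k + 1 + 1) = q' * q' * A := by rw [hA]; ring
    have e5 : q' ^ (k + 1 - 1) = A := by rw [hA, Nat.add_sub_cancel]
    rw [e1, e2, e3, e4, e5]
    have hA1 : 1 ≤ A := by rw [hA]; exact Nat.one_le_pow _ _ hq0
    have hle : q' * A ≤ q' * (A * A) + A := by
      have : q' * A * 1 ≤ q' * A * A := Nat.mul_le_mul_left _ hA1
      nlinarith
    obtain ⟨Z, hZ⟩ : ∃ Z, Z = q' * (A * A) + A - q' * A := ⟨_, rfl⟩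
    have hZ' : Z + q' * A = q' * (A * A) + A := by rw [hZ]; exact Nat.sub_add_cancel hle
    rw [← hZ]
    have h6 : q' * (Z + q' * A) = q' * (q' * (A * A) + A) := by rw [hZ']
    linarith
  have hfr : Module.finrank F ((Fin k ⊕ Fin k) ⊕ Fin 2 → F) = 2 * (k + 1) := by
    simp
    ring
  rw [isoLL_card_minus k _ _ _ _ hnd hnd hfr hfr hZ hZ, hF,
    minusN_closed q (by rw [← hF]; exact Fintype.card_pos) k]

end Cfsg.Agent.Helper5
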