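import Mathlib
import Cfsg.Prelude.Def_Classical
import Cfsg.Agent.Helper5.OrthOrd6
import Cfsg.Agent.Helper5.HermQ
import Cfsg.Agent.Helper1.Dihedral

namespace Cfsg.Agent.Helper5

/-- The norm-preserving units. -/
def normUnits (F K : Type*) [Field F] [Field K] [Algebra F K] (q : ℕ) :
    Subgroup (K →ₗ[F] K)ˣ where
  carrier := {u | ∀ x, ((u : K →ₗ[F] K) x) ^ (q + 1) = x ^ (q + 1)}
  mul_mem' := by
    intro a b ha hb x
    have h1 := ha ((b : K →ₗ[F] K) x)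
    rw [hb x] at h1
    exact h1
  one_mem' := by
    intro x
    rfl
  inv_mem' := by
    intro a ha x
    have h1 := ha (((a⁻¹ : (K →ₗ[F] K)ˣ) : K →ₗ[F] K) x)
    have h2 : (a : K →ₗ[F] K) (((a⁻¹ : (K →ₗ[F] K)ˣ) : K →ₗ[F] K) x) = x := by
      have := congrArg (fun f : K →ₗ[F] K => f x) (Units.mul_inv a)
      exact this
    rw [h2] at h1
    exact h1.symm

section
variable {F K : Type*} [Field F] [Fintype F] [Field K] [Fintype K] [Algebra F K]

theorem dih_norm_embed {q : ℕ} (hF : Fintype.card F = q) (hK : Fintype.card K = q ^ 2) :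
    ∃ ρ : DihedralGroup (q + 1) →* (K →ₗ[F] K), Function.Injective ρ ∧
      ∀ g x, (ρ g x) ^ (q + 1) = x ^ (q + 1) := by
  classical
  have hq2 : 2 ≤ q := by rw [← hF]; exact Fintype.one_lt_card
  obtain ⟨σ, hσ⟩ : ∃ σ : K →ₗ[F] K, ∀ x, σ x = x ^ q :=
    ⟨(FiniteField.frobeniusAlgHom F K).toLinearMap, fun x => by rw [← hF]; rfl⟩
  have hKq : ∀ x : K, x ^ (q ^ 2) = x := fun x => by rw [← hK]; exact FiniteField.pow_card x
  have hfix : ∀ x : K, (x ^ (q + 1)) ^ q = x ^ (q + 1) := by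
    intro x
    rw [← pow_mul, show (q + 1) * q = q ^ 2 + q by ring, pow_add, hKq, pow_succ, mul_comm]
  have hσσ : σ * σ = 1 := by
    apply LinearMap.ext
    intro x
    show σ (σ x) = x
    rw [hσ, hσ, ← pow_mul, ← sq, hKq]
  obtain ⟨x₀, hx₀⟩ : ∃ x₀ : K, x₀ ^ q ≠ x₀ := by
    by_contra hcon
    push Not at hcon
    have hsurj : Function.Surjective (algebraMap F K) :=
      fun y => ff_fix_range hF (algebraMap F K) y (hcon y)
    have := Fintype.card_le_of_surjective _ hsurj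
    rw [hF, hK] at this
    nlinarith
  obtain ⟨g, hg⟩ := IsCyclic.exists_generator (α := Kˣ)
  have hordg : orderOf g = q ^ 2 - 1 := by
    rw [orderOf_eq_card_of_forall_mem_zpowers hg, Nat.card_eq_fintype_card, Fintype.card_units,
      hK]
  obtain ⟨ζ, hζ⟩ : ∃ ζ : Kˣ, orderOf ζ = q + 1 := by
    refine ⟨g ^ (q - 1), ?_⟩
    rw [orderOf_pow' _ (by omega), hordg]
    have h1 : q ^ 2 - 1 = (q + 1) * (q - 1) := by
      obtain ⟨r, rfl⟩ : ∃ r, q = r + 1 := ⟨q - 1, by omega⟩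
      have : (r + 1) ^ 2 = (r + 1 + 1) * r + 1 := by ring
      rw [this, Nat.add_sub_cancel, Nat.add_sub_cancel]
    rw [h1, Nat.gcd_eq_right (Dvd.intro_left _ rfl), Nat.mul_div_cancel _ (by omega)]
  obtain ⟨μ, hμ⟩ : ∃ μ : Kˣ →* (K →ₗ[F] K)ˣ,
      ∀ (u : Kˣ) (x : K), ((μ u : (K →ₗ[F] K)ˣ) : K →ₗ[F] K) x = (u : K) * x :=
    ⟨Units.map ((Algebra.lmul F K : K →ₐ[F] Module.End F K) : K →* Module.End F K),
      fun u x => rfl⟩
  have hμinj : Function.Injective μ := by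
    intro u v huv
    apply Units.ext
    have := hμ u 1
    rw [huv, hμ] at this
    simpa using this.symm
  obtain ⟨d, hd⟩ : ∃ d : (K →ₗ[F] K)ˣ, (d : K →ₗ[F] K) = σ := ⟨⟨σ, σ, hσσ, hσσ⟩, rfl⟩
  have hζ1 : (ζ : K) ^ (q + 1) = 1 := by
    have h1 := pow_orderOf_eq_one ζ
    rw [hζ] at h1
    have h2 := congrArg (fun u : Kˣ => (u : K)) h1
    simpa using h2
  have hρmem : μ ζ ∈ normUnits F K q := by
    intro x
    rw [hμ, mul_pow, hζ1, one_mul]
  have hdmem : d ∈ normUnits F K q := by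
    intro x
    rw [hd, hσ, ← pow_mul, mul_comm, pow_mul, hfix]
  obtain ⟨ρ', hρ'⟩ : ∃ ρ' : normUnits F K q, (ρ' : (K →ₗ[F] K)ˣ) = μ ζ := ⟨⟨μ ζ, hρmem⟩, rfl⟩
  obtain ⟨d', hd'⟩ : ∃ d' : normUnits F K q, (d' : (K →ₗ[F] K)ˣ) = d := ⟨⟨d, hdmem⟩, rfl⟩
  have h1 : ρ' ^ (q + 1) = 1 := by
    apply Subtype.ext
    rw [Subgroup.coe_pow, hρ', ← map_pow, ← hζ, pow_orderOf_eq_one, map_one]
    rfl
  have h2 : d' * d' = 1 := by
    apply Subtype.ext
    apply Units.ext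
    rw [Subgroup.coe_mul, hd']
    show (d : K →ₗ[F] K) * (d : K →ₗ[F] K) = 1
    rw [hd, hσσ]
  have h3 : d' * ρ' * d' = ρ'⁻¹ := by
    apply eq_inv_of_mul_eq_one_left
    apply Subtype.ext
    apply Units.ext
    apply LinearMap.ext
    intro x
    rw [Subgroup.coe_mul, Subgroup.coe_mul, Subgroup.coe_mul, hd', hρ']
    show (d : K →ₗ[F] K) (((μ ζ : (K →ₗ[F] K)ˣ) : K →ₗ[F] K) ((d : K →ₗ[F] K)
      (((μ ζ : (K →ₗ[F] K)ˣ) : K →ₗ[F] K) x))) = x
    rw [hd, hμ, hμ, hσ, hσ, mul_pow, ← pow_mul, ← sq, hKq, ← mul_assoc, ← pow_succ, hζ1,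
      one_mul]
  have hord : orderOf ρ' = q + 1 := by
    rw [← hζ, ← orderOf_injective μ hμinj ζ, ← hρ']
    exact (Subgroup.orderOf_coe ρ').symm
  have hdz : d' ∉ Subgroup.zpowers ρ' := by
    rintro ⟨k, hk⟩
    have hk' : ((μ (ζ ^ k) : (K →ₗ[F] K)ˣ) : K →ₗ[F] K) = σ := by
      rw [← hd, map_zpow, ← hd', ← hρ']
      have := congrArg (fun h : normUnits F K q => ((h : (K →ₗ[F] K)ˣ) : K →ₗ[F] K)) hk
      simpa using this
    have e1 := congrArg (fun f : K →ₗ[F] K => f 1) hk'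
    simp only [hμ, mul_one, hσ, one_pow] at e1
    have e2 := congrArg (fun f : K →ₗ[F] K => f x₀) hk'
    simp only [hμ, hσ] at e2
    rw [e1, one_mul] at e2
    exact hx₀ e2.symm
  refine ⟨(Units.coeHom (K →ₗ[F] K)).comp ((normUnits F K q).subtype.comp
    (Cfsg.Agent.Helper1.dihedralLift (q + 1) ρ' d' h1 h2 h3)), ?_, ?_⟩
  · intro a b hab
    apply Cfsg.Agent.Helper1.dihedralLift_injective (q + 1) ρ' d' h1 h2 h3 hord hdz
    apply Subtype.ext
    apply Units.ext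
    exact hab
  · intro g x
    exact (Cfsg.Agent.Helper1.dihedralLift (q + 1) ρ' d' h1 h2 h3 g).2 x

theorem go_minus2_dih_aux {q : ℕ} (hF : Fintype.card F = q) (hK : Fintype.card K = q ^ 2)
    (a b : F)
    (hab : ∀ z₁ z₂ : F, z₁ ^ 2 + a * z₁ * z₂ + b * z₂ ^ 2 = 0 → z₁ = 0 ∧ z₂ = 0) :
    Nonempty (Cfsg.isometryGroup F (Cfsg.quadFormMinus 0 F a b) ≃* DihedralGroup (q + 1)) := by
  classical
  obtain ⟨ρ, hρinj, hρN⟩ := dih_norm_embed (F := F) (K := K) hF hK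
  obtain ⟨g₂, hg₂⟩ := norm_coords (K := K) hF hK a b (fun t ht => by
    have := (hab (-t) 1 (by linear_combination ht)).2
    exact one_ne_zero this)
  obtain ⟨res, hres⟩ : ∃ res : ((Fin 0 ⊕ Fin 0) ⊕ Fin 2 → F) ≃ₗ[F] (Fin 2 → F),
      ∀ w i, res w i = w (Sum.inr i) :=
    ⟨LinearEquiv.funCongrLeft F F (Equiv.emptySum (Fin 0 ⊕ Fin 0) (Fin 2)).symm,
      fun w i => rfl⟩
  have hE : ∀ w, ((res.trans g₂) w) ^ (q + 1)
      = algebraMap F K (Cfsg.quadFormMinus 0 F a b w) := by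
    intro w
    rw [LinearEquiv.trans_apply, hg₂, hres, hres]
    unfold Cfsg.quadFormMinus
    simp
  obtain ⟨φ, hφ⟩ := orth_embed
    (fun x : K => Cfsg.quadFormMinus 0 F a b ((res.trans g₂).symm x))
    (Cfsg.quadFormMinus 0 F a b) (res.trans g₂).symm (fun v => rfl) ρ hρinj (by
      intro g x
      apply (algebraMap F K).injective
      rw [← hE, ← hE, LinearEquiv.apply_symm_apply, LinearEquiv.apply_symm_apply, hρN])
  have hcardG : Nat.card ↥(Cfsg.isometryGroup F (Cfsg.quadFormMinus 0 F a b))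
      = 2 * (q + 1) := by
    rw [go_minus_order hF 0 a b hab]
    simp
  haveI : Finite ↥(Cfsg.isometryGroup F (Cfsg.quadFormMinus 0 F a b)) :=
    Nat.finite_of_card_ne_zero (by rw [hcardG]; omega)
  obtain ⟨e⟩ := mulEquiv_of_inj_card φ hφ (by rw [hcardG, DihedralGroup.nat_card])
  exact ⟨e.symm⟩

end

theorem go_minus2_dih {F : Type*} [Field F] [Fintype F] {q : ℕ} (hF : Fintype.card F = q)
    (a b : F)
    (hab : ∀ z₁ z₂ : F, z₁ ^ 2 + a * z₁ * z₂ + b * z₂ ^ 2 = 0 → z₁ = 0 ∧ z₂ = 0) :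
    Nonempty (Cfsg.isometryGroup F (Cfsg.quadFormMinus 0 F a b) ≃* DihedralGroup (q + 1)) := by
  classical
  obtain ⟨p, hp⟩ := CharP.exists F
  haveI := hp
  haveI : Fact p.Prime := ⟨CharP.char_is_prime F p⟩
  haveI := Fintype.ofFinite (FiniteField.Extension F p 2)
  have hcard : Fintype.card (FiniteField.Extension F p 2) = q ^ 2 := by
    rw [← Nat.card_eq_fintype_card, FiniteField.natCard_extension, Nat.card_eq_fintype_card, hF]
  exact go_minus2_dih_aux (K := FiniteField.Extension F p 2) hF hcard a b hab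

end Cfsg.Agent.Helper5
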