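import Mathlib
import Cfsg.Prelude.Def_Classical
import Cfsg.Agent.Helper5.OrthDih

namespace Cfsg.Agent.Helper5

/-- The units of the endomorphism ring preserving a function. -/
def presUnits {F V X : Type*} [Field F] [AddCommGroup V] [Module F V] (N : V → X) :
    Subgroup (V →ₗ[F] V)ˣ where
  carrier := {u | ∀ x, N ((u : V →ₗ[F] V) x) = N x}
  mul_mem' := by
    intro a b ha hb x
    have h1 := ha ((b : V →ₗ[F] V) x)
    rw [hb x] at h1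
    exact h1
  one_mem' := by
    intro x
    rfl
  inv_mem' := by
    intro a ha x
    have h1 := ha (((a⁻¹ : (V →ₗ[F] V)ˣ) : V →ₗ[F] V) x)
    have h2 : (a : V →ₗ[F] V) (((a⁻¹ : (V →ₗ[F] V)ˣ) : V →ₗ[F] V) x) = x := by
      have := congrArg (fun f : V →ₗ[F] V => f x) (Units.mul_inv a)
      exact this
    rw [h2] at h1
    exact h1.symm

/-- The diagonal torus of the hyperbolic plane. -/
def hypDiag (F : Type*) [Field F] :
    Fˣ →* ((Fin 1 ⊕ Fin 1 → F) →ₗ[F] (Fin 1 ⊕ Fin 1 → F)) where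
  toFun a :=
    { toFun := fun v => Sum.elim (fun i => (a : F) * v (Sum.inl i))
        (fun i => ((a⁻¹ : Fˣ) : F) * v (Sum.inr i))
      map_add' := fun u v => by
        funext x
        rcases x with i | i <;> simp [mul_add]
      map_smul' := fun c v => by
        funext x
        rcases x with i | i <;> simp [mul_left_comm] }
  map_one' := by
    apply LinearMap.ext
    intro v
    funext x
    rcases x with i | i <;> simp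
  map_mul' := fun a b => by
    apply LinearMap.ext
    intro v
    funext x
    rcases x with i | i <;> simp [mul_assoc, mul_comm]

theorem go_plus2_dih {F : Type*} [Field F] [Fintype F] {q : ℕ} (hF : Fintype.card F = q) :
    Nonempty (Cfsg.isometryGroup F (Cfsg.quadFormPlus 1 F) ≃* DihedralGroup (q - 1)) := by
  classical
  have hq2 : 2 ≤ q := by rw [← hF]; exact Fintype.one_lt_card
  obtain ⟨g, hg⟩ := IsCyclic.exists_generator (α := Fˣ)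
  have hordg : orderOf g = q - 1 := by
    rw [orderOf_eq_card_of_forall_mem_zpowers hg, Nat.card_eq_fintype_card, Fintype.card_units,
      hF]
  obtain ⟨μ, hμ⟩ : ∃ μ : Fˣ →* ((Fin 1 ⊕ Fin 1 → F) →ₗ[F] (Fin 1 ⊕ Fin 1 → F))ˣ,
      ∀ (u : Fˣ) (v : Fin 1 ⊕ Fin 1 → F),
        ((μ u : ((Fin 1 ⊕ Fin 1 → F) →ₗ[F] (Fin 1 ⊕ Fin 1 → F))ˣ) :
          (Fin 1 ⊕ Fin 1 → F) →ₗ[F] (Fin 1 ⊕ Fin 1 → F)) v
        = Sum.elim (fun i => (u : F) * v (Sum.inl i))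
            (fun i => ((u⁻¹ : Fˣ) : F) * v (Sum.inr i)) :=
    ⟨(hypDiag F).toHomUnits, fun u v => rfl⟩
  have hμinj : Function.Injective μ := by
    intro u w huw
    apply Units.ext
    have h1 := hμ u (Pi.single (Sum.inl 0) 1)
    rw [huw, hμ] at h1
    have h2 := congrFun h1 (Sum.inl 0)
    simpa using h2.symm
  obtain ⟨sw, hsw⟩ : ∃ sw : (Fin 1 ⊕ Fin 1 → F) →ₗ[F] (Fin 1 ⊕ Fin 1 → F),
      ∀ v x, sw v x = v (Sum.swap x) := ⟨LinearMap.funLeft F F Sum.swap, fun v x => rfl⟩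
  have hsw2 : sw * sw = 1 := by
    apply LinearMap.ext
    intro v
    funext x
    show sw (sw v) x = v x
    rw [hsw, hsw, Sum.swap_swap]
  obtain ⟨d, hd⟩ : ∃ d : ((Fin 1 ⊕ Fin 1 → F) →ₗ[F] (Fin 1 ⊕ Fin 1 → F))ˣ,
      (d : (Fin 1 ⊕ Fin 1 → F) →ₗ[F] (Fin 1 ⊕ Fin 1 → F)) = sw :=
    ⟨⟨sw, sw, hsw2, hsw2⟩, rfl⟩
  obtain ⟨H, hH⟩ : ∃ H : Subgroup ((Fin 1 ⊕ Fin 1 → F) →ₗ[F] (Fin 1 ⊕ Fin 1 → F))ˣ,
      H = presUnits (Cfsg.quadFormPlus 1 F) := ⟨_, rfl⟩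
  have hgg : (g : F) * ((g⁻¹ : Fˣ) : F) = 1 := by
    rw [← Units.val_mul, mul_inv_cancel, Units.val_one]
  have hρmem : μ g ∈ H := by
    rw [hH]
    intro v
    unfold Cfsg.quadFormPlus
    simp only [hμ, Sum.elim_inl, Sum.elim_inr]
    apply Finset.sum_congr rfl
    intro i _
    linear_combination (v (Sum.inl i) * v (Sum.inr i)) * hgg
  have hdmem : d ∈ H := by
    rw [hH]
    intro v
    unfold Cfsg.quadFormPlus
    rw [hd]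
    simp only [hsw, Sum.swap_inl, Sum.swap_inr]
    exact Finset.sum_congr rfl (fun i _ => mul_comm _ _)
  obtain ⟨ρ', hρ'⟩ : ∃ ρ' : H,
      (ρ' : ((Fin 1 ⊕ Fin 1 → F) →ₗ[F] (Fin 1 ⊕ Fin 1 → F))ˣ) = μ g := ⟨⟨μ g, hρmem⟩, rfl⟩
  obtain ⟨d', hd'⟩ : ∃ d' : H,
      (d' : ((Fin 1 ⊕ Fin 1 → F) →ₗ[F] (Fin 1 ⊕ Fin 1 → F))ˣ) = d := ⟨⟨d, hdmem⟩, rfl⟩
  have h1 : ρ' ^ (q - 1) = 1 := by
    apply Subtype.ext
    rw [Subgroup.coe_pow, hρ', ← map_pow, ← hordg, pow_orderOf_eq_one, map_one]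
    rfl
  have h2 : d' * d' = 1 := by
    apply Subtype.ext
    apply Units.ext
    rw [Subgroup.coe_mul, hd']
    show (d : (Fin 1 ⊕ Fin 1 → F) →ₗ[F] (Fin 1 ⊕ Fin 1 → F))
      * (d : (Fin 1 ⊕ Fin 1 → F) →ₗ[F] (Fin 1 ⊕ Fin 1 → F)) = 1
    rw [hd, hsw2]
  have h3 : d' * ρ' * d' = ρ'⁻¹ := by
    apply eq_inv_of_mul_eq_one_left
    apply Subtype.ext
    apply Units.ext
    apply LinearMap.ext
    intro v
    rw [Subgroup.coe_mul, Subgroup.coe_mul, Subgroup.coe_mul, hd', hρ']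
    show (d : (Fin 1 ⊕ Fin 1 → F) →ₗ[F] (Fin 1 ⊕ Fin 1 → F))
      (((μ g : ((Fin 1 ⊕ Fin 1 → F) →ₗ[F] (Fin 1 ⊕ Fin 1 → F))ˣ) :
        (Fin 1 ⊕ Fin 1 → F) →ₗ[F] (Fin 1 ⊕ Fin 1 → F))
        ((d : (Fin 1 ⊕ Fin 1 → F) →ₗ[F] (Fin 1 ⊕ Fin 1 → F))
          (((μ g : ((Fin 1 ⊕ Fin 1 → F) →ₗ[F] (Fin 1 ⊕ Fin 1 → F))ˣ) :
            (Fin 1 ⊕ Fin 1 → F) →ₗ[F] (Fin 1 ⊕ Fin 1 → F)) v))) = v
    rw [hd]
    funext x
    rcases x with i | i
    · simp only [hsw, hμ, Sum.swap_inl, Sum.swap_inr, Sum.elim_inl, Sum.elim_inr]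
      rw [← mul_assoc, mul_comm ((g⁻¹ : Fˣ) : F), hgg, one_mul]
    · simp only [hsw, hμ, Sum.swap_inl, Sum.swap_inr, Sum.elim_inl, Sum.elim_inr]
      rw [← mul_assoc, hgg, one_mul]
  have hord : orderOf ρ' = q - 1 := by
    rw [← hordg, ← orderOf_injective μ hμinj g, ← hρ']
    exact (Subgroup.orderOf_coe ρ').symm
  have hdz : d' ∉ Subgroup.zpowers ρ' := by
    rintro ⟨k, hk⟩
    have hk' : ((μ (g ^ k) : ((Fin 1 ⊕ Fin 1 → F) →ₗ[F] (Fin 1 ⊕ Fin 1 → F))ˣ) :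
        (Fin 1 ⊕ Fin 1 → F) →ₗ[F] (Fin 1 ⊕ Fin 1 → F)) = sw := by
      rw [← hd, map_zpow, ← hd', ← hρ']
      have := congrArg (fun h : H => ((h : ((Fin 1 ⊕ Fin 1 → F) →ₗ[F] (Fin 1 ⊕ Fin 1 → F))ˣ) :
        (Fin 1 ⊕ Fin 1 → F) →ₗ[F] (Fin 1 ⊕ Fin 1 → F))) hk
      simpa using this
    have e1 := congrFun (congrArg (fun f : (Fin 1 ⊕ Fin 1 → F) →ₗ[F] (Fin 1 ⊕ Fin 1 → F) =>
      f (Pi.single (Sum.inl 0) 1)) hk') (Sum.inl 0)
    simp only [hμ, hsw, Sum.elim_inl, Sum.swap_inl] at e1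
    simp at e1
    exact zpow_ne_zero k g.ne_zero e1
  have hinv : ∀ (x : DihedralGroup (q - 1)) (v : Fin 1 ⊕ Fin 1 → F),
      Cfsg.quadFormPlus 1 F (((Units.coeHom ((Fin 1 ⊕ Fin 1 → F) →ₗ[F] (Fin 1 ⊕ Fin 1 → F))).comp
        (H.subtype.comp (Cfsg.Agent.Helper1.dihedralLift (q - 1) ρ' d' h1 h2 h3))) x v)
        = Cfsg.quadFormPlus 1 F v := by
    intro x v
    subst hH
    exact (Cfsg.Agent.Helper1.dihedralLift (q - 1) ρ' d' h1 h2 h3 x).2 v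
  obtain ⟨φ, hφ⟩ := orth_embed (Cfsg.quadFormPlus 1 F) (Cfsg.quadFormPlus 1 F)
    (LinearEquiv.refl F (Fin 1 ⊕ Fin 1 → F)) (fun v => rfl)
    ((Units.coeHom ((Fin 1 ⊕ Fin 1 → F) →ₗ[F] (Fin 1 ⊕ Fin 1 → F))).comp
      (H.subtype.comp (Cfsg.Agent.Helper1.dihedralLift (q - 1) ρ' d' h1 h2 h3)))
    (by
      intro a b hab
      apply Cfsg.Agent.Helper1.dihedralLift_injective (q - 1) ρ' d' h1 h2 h3 hord hdz
      apply Subtype.ext
      apply Units.ext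
      exact hab) hinv
  have hcardG : Nat.card ↥(Cfsg.isometryGroup F (Cfsg.quadFormPlus 1 F)) = 2 * (q - 1) := by
    rw [go_plus_order hF 0]
    simp
  haveI : Finite ↥(Cfsg.isometryGroup F (Cfsg.quadFormPlus 1 F)) :=
    Nat.finite_of_card_ne_zero (by rw [hcardG]; omega)
  obtain ⟨e⟩ := mulEquiv_of_inj_card φ hφ (by rw [hcardG, DihedralGroup.nat_card])
  exact ⟨e.symm⟩

end Cfsg.Agent.Helper5
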