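import Mathlib
import Cfsg.Prelude.Def_ClassicalGeometry
import Cfsg.Agent.Helper5.SpEmbed

namespace Cfsg.Agent.Helper5

open Matrix

/-- A linear action preserving an alternating form, faithful modulo the radical, embeds in the
symplectic group of the quotient. -/
theorem sp_embed_rad {F V G : Type*} [Field F] [AddCommGroup V] [Module F V]
    [FiniteDimensional F V] [Group G]
    (B : LinearMap.BilinForm F V) (hA : B.IsAlt) (R : Submodule F V)
    (hR : ∀ v, v ∈ R ↔ ∀ u, B u v = 0)
    {n : ℕ} (hV : Module.finrank F V = 2 * n + Module.finrank F R)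
    (ρ : G →* (V →ₗ[F] V)) (hinv : ∀ g u v, B (ρ g u) (ρ g v) = B u v)
    (hfaith : ∀ g, (∀ v, ρ g v - v ∈ R) → g = 1) :
    ∃ φ : G →* ↥(Matrix.symplecticGroup (Fin n) F), Function.Injective φ := by
  classical
  have hswap : ∀ u v, B u v = - B v u := fun u v =>
    Cfsg.Agent.Helper8.SympBasis.alt_swap B hA v u
  have hRr : ∀ r ∈ R, ∀ u, B u r = 0 := fun r hr => (hR r).mp hr
  have hRl : ∀ r ∈ R, ∀ u, B r u = 0 := by
    intro r hr u
    rw [hswap, hRr r hr, neg_zero]
  have hρ1 : ∀ g u, ρ g (ρ g⁻¹ u) = u := by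
    intro g u
    have : ρ g * ρ g⁻¹ = 1 := by rw [← map_mul, mul_inv_cancel, map_one]
    have := LinearMap.congr_fun this u
    simpa using this
  have hRinv : ∀ g, ∀ r ∈ R, ρ g r ∈ R := by
    intro g r hr
    rw [hR]
    intro u
    rw [← hρ1 g u, hinv]
    exact hRr r hr _
  obtain ⟨s, hs⟩ := LinearMap.exists_rightInverse_of_surjective R.mkQ
    (LinearMap.range_eq_top.mpr (Submodule.mkQ_surjective R))
  have hs' : ∀ x, R.mkQ (s x) = x := fun x => LinearMap.congr_fun hs x
  have hsR : ∀ v, s (R.mkQ v) - v ∈ R := by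
    intro v
    rw [← Submodule.Quotient.mk_eq_zero, Submodule.Quotient.mk_sub]
    exact sub_eq_zero.mpr (hs' (R.mkQ v))
  have hBR : ∀ u v u' v', u - u' ∈ R → v - v' ∈ R → B u v = B u' v' := by
    intro u v u' v' hu hv
    have h1 : B u v = B (u - u' + u') (v - v' + v') := by rw [sub_add_cancel, sub_add_cancel]
    rw [h1, map_add, map_add, LinearMap.add_apply, LinearMap.add_apply, hRl _ hu, hRl _ hu,
      hRr _ hv]
    simp
  obtain ⟨B', hB'⟩ : ∃ B' : LinearMap.BilinForm F (V ⧸ R), ∀ x y, B' x y = B (s x) (s y) :=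
    ⟨B.compl₁₂ s s, fun x y => rfl⟩
  have hA' : B'.IsAlt := by
    intro x
    rw [hB']
    exact hA _
  have hleft : B'.SeparatingLeft := by
    intro x hx
    have h1 : s x ∈ R := by
      rw [hR]
      intro u
      rw [hswap, hBR (s x) u (s x) (s (R.mkQ u)) (by rw [sub_self]; exact R.zero_mem) (by
        have := hsR u
        rw [← neg_sub]
        exact R.neg_mem this), ← hB', hx, neg_zero]
    have h2 := hs' x
    rw [Submodule.mkQ_apply, (Submodule.Quotient.mk_eq_zero R).mpr h1] at h2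
    exact h2.symm
  have hBnd : B'.Nondegenerate := (hA'.isRefl).nondegenerate_iff_separatingLeft.mpr hleft
  have hfr : Module.finrank F (V ⧸ R) = 2 * n := by
    have := Submodule.finrank_quotient_add_finrank R
    omega
  obtain ⟨ρ', hρ'⟩ : ∃ ρ' : G →* ((V ⧸ R) →ₗ[F] (V ⧸ R)),
      ∀ g x, ρ' g x = R.mkQ (ρ g (s x)) := by
    refine ⟨{ toFun := fun g => R.mkQ ∘ₗ ρ g ∘ₗ s
              map_one' := ?_
              map_mul' := ?_ }, fun g x => rfl⟩
    · apply LinearMap.ext
      intro x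
      simp [hs']
    · intro g h
      apply LinearMap.ext
      intro x
      show R.mkQ (ρ (g * h) (s x)) = R.mkQ (ρ g (s (R.mkQ (ρ h (s x)))))
      rw [map_mul]
      show R.mkQ (ρ g (ρ h (s x))) = _
      rw [Submodule.mkQ_apply, Submodule.mkQ_apply, Submodule.Quotient.eq, ← map_sub]
      apply hRinv
      have := hsR (ρ h (s x))
      rw [← neg_sub]
      exact R.neg_mem this
  refine sp_embed B' hA' hBnd hfr ρ' ?_ ?_
  · rw [injective_iff_map_eq_one]
    intro g hg
    apply hfaith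
    intro v
    have h1 : ρ' g (R.mkQ v) = R.mkQ v := by rw [hg]; rfl
    rw [hρ'] at h1
    have h2 : ρ g (s (R.mkQ v)) - v ∈ R := by
      rw [← Submodule.Quotient.mk_eq_zero, Submodule.Quotient.mk_sub]
      exact sub_eq_zero.mpr h1
    have h3 : ρ g (s (R.mkQ v) - v) ∈ R := hRinv g _ (hsR v)
    have h4 : ρ g v - v = (ρ g (s (R.mkQ v)) - v) - ρ g (s (R.mkQ v) - v) := by
      rw [map_sub]; abel
    rw [h4]
    exact R.sub_mem h2 h3
  · intro g x y
    rw [hB', hB', hρ', hρ']
    rw [hBR _ _ (ρ g (s x)) (ρ g (s y)) (hsR _) (hsR _), hinv]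

end Cfsg.Agent.Helper5
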