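import Mathlib
import Cfsg.Agent.Helper5.SpRad

namespace Cfsg.Agent.Helper5

open Matrix

/-- The even-weight subspace of the permutation module over the field of two elements. -/
def evenSub (N : ℕ) : Submodule (ZMod 2) (Fin N → ZMod 2) :=
  LinearMap.ker (∑ i : Fin N, LinearMap.proj i : (Fin N → ZMod 2) →ₗ[ZMod 2] ZMod 2)

theorem mem_evenSub (N : ℕ) (v : Fin N → ZMod 2) : v ∈ evenSub N ↔ ∑ i, v i = 0 := by
  unfold evenSub
  rw [LinearMap.mem_ker]
  simp [LinearMap.sum_apply]

theorem finrank_evenSub (N : ℕ) (hN : 1 ≤ N) : Module.finrank (ZMod 2) (evenSub N) = N - 1 := by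
  have h1 := LinearMap.finrank_range_add_finrank_ker
    (∑ i : Fin N, LinearMap.proj i : (Fin N → ZMod 2) →ₗ[ZMod 2] ZMod 2)
  have h2 : LinearMap.range
      (∑ i : Fin N, LinearMap.proj i : (Fin N → ZMod 2) →ₗ[ZMod 2] ZMod 2) = ⊤ := by
    rw [LinearMap.range_eq_top]
    intro c
    refine ⟨Pi.single ⟨0, hN⟩ c, ?_⟩
    simp [LinearMap.sum_apply]
  rw [h2, finrank_top, Module.finrank_self, Module.finrank_fin_fun] at h1
  unfold evenSub
  omega

/-- The dot product on the even-weight subspace. -/
def evenDot (N : ℕ) : LinearMap.BilinForm (ZMod 2) (evenSub N) :=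
  LinearMap.mk₂ (ZMod 2) (fun u v => ∑ i, (u : Fin N → ZMod 2) i * (v : Fin N → ZMod 2) i)
    (by intro u u' v; simp [add_mul, Finset.sum_add_distrib])
    (by intro c u v; simp [Finset.mul_sum, mul_assoc])
    (by intro u v v'; simp [mul_add, Finset.sum_add_distrib])
    (by intro c u v; simp [Finset.mul_sum, mul_left_comm])

theorem evenDot_apply (N : ℕ) (u v : evenSub N) :
    evenDot N u v = ∑ i, (u : Fin N → ZMod 2) i * (v : Fin N → ZMod 2) i := rfl

/-- The permutation action on the even-weight subspace. -/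
def evenPerm (N : ℕ) : Equiv.Perm (Fin N) →* ((evenSub N) →ₗ[ZMod 2] (evenSub N)) where
  toFun σ :=
    { toFun := fun v => ⟨fun i => (v : Fin N → ZMod 2) (σ⁻¹ i), by
        rw [mem_evenSub]
        have := Equiv.sum_comp σ⁻¹ (fun i => (v : Fin N → ZMod 2) i)
        rw [this]
        exact (mem_evenSub N _).mp v.2⟩
      map_add' := fun u v => by
        apply Subtype.ext
        funext i
        rfl
      map_smul' := fun c v => by
        apply Subtype.ext
        funext i
        rfl }
  map_one' := by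
    apply LinearMap.ext
    intro v
    apply Subtype.ext
    funext i
    simp
  map_mul' σ τ := by
    apply LinearMap.ext
    intro v
    apply Subtype.ext
    funext i
    simp [_root_.mul_inv_rev]

theorem evenPerm_apply (N : ℕ) (σ : Equiv.Perm (Fin N)) (v : evenSub N) (i : Fin N) :
    ((evenPerm N σ v : evenSub N) : Fin N → ZMod 2) i = (v : Fin N → ZMod 2) (σ⁻¹ i) := rfl

theorem sym_embed_sp (n : ℕ) (hn : 3 ≤ n) :
    ∃ f : Equiv.Perm (Fin (2 * n)) →* Matrix.symplecticGroup (Fin (n - 1)) (ZMod 2),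
      Function.Injective f := by
  classical
  obtain ⟨N, hN⟩ : ∃ N, N = 2 * n := ⟨_, rfl⟩
  rw [← hN]
  have hN6 : 6 ≤ N := by omega
  have h2 : ∀ a : ZMod 2, a + a = 0 := by decide
  have hself : ∀ a : ZMod 2, a * a = a := by decide
  have hone : (fun _ => 1 : Fin N → ZMod 2) ∈ evenSub N := by
    rw [mem_evenSub]
    simp only [Finset.sum_const, Finset.card_univ, Fintype.card_fin, nsmul_eq_mul, mul_one, hN]
    push_cast
    have : (2 : ZMod 2) = 0 := by decide
    rw [this, zero_mul]
  obtain ⟨one, hone'⟩ : ∃ one : evenSub N, ∀ i, (one : Fin N → ZMod 2) i = 1 :=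
    ⟨⟨fun _ => 1, hone⟩, fun i => rfl⟩
  obtain ⟨R, hRdef⟩ : ∃ R : Submodule (ZMod 2) (evenSub N),
      R = Submodule.span (ZMod 2) {one} := ⟨_, rfl⟩
  have hRconst : ∀ v ∈ R, ∃ c : ZMod 2, ∀ i, (v : Fin N → ZMod 2) i = c := by
    intro v hv
    rw [hRdef] at hv
    obtain ⟨c, rfl⟩ := Submodule.mem_span_singleton.mp hv
    refine ⟨c, fun i => ?_⟩
    show c * (one : Fin N → ZMod 2) i = c
    rw [hone', mul_one]
  have hA : (evenDot N).IsAlt := by
    intro v
    rw [evenDot_apply]
    simp only [hself]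
    exact (mem_evenSub N _).mp v.2
  have hR : ∀ v, v ∈ R ↔ ∀ u, evenDot N u v = 0 := by
    intro v
    constructor
    · intro hv u
      obtain ⟨c, hc⟩ := hRconst v hv
      rw [evenDot_apply]
      simp only [hc]
      rw [← Finset.sum_mul, (mem_evenSub N _).mp u.2, zero_mul]
    · intro hv
      have hij : ∀ i j : Fin N, (v : Fin N → ZMod 2) i = (v : Fin N → ZMod 2) j := by
        intro i j
        by_cases hne : i = j
        · rw [hne]
        have hmem : (Pi.single i 1 + Pi.single j 1 : Fin N → ZMod 2) ∈ evenSub N := by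
          rw [mem_evenSub]
          simp only [Pi.add_apply, Finset.sum_add_distrib, Finset.sum_pi_single',
            Finset.mem_univ, if_true]
          exact h2 1
        have := hv ⟨_, hmem⟩
        rw [evenDot_apply] at this
        simp only [Pi.add_apply, add_mul, Finset.sum_add_distrib, Pi.single_apply, ite_mul,
          one_mul, zero_mul, Finset.sum_ite_eq', Finset.mem_univ, if_true] at this
        have h3 := h2 ((v : Fin N → ZMod 2) j)
        have h4 : (v : Fin N → ZMod 2) i = (v : Fin N → ZMod 2) i + ((v : Fin N → ZMod 2) j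
            + (v : Fin N → ZMod 2) j) := by rw [h3, add_zero]
        rw [h4, ← add_assoc, this, zero_add]
      rw [hRdef, Submodule.mem_span_singleton]
      refine ⟨(v : Fin N → ZMod 2) ⟨0, by omega⟩, ?_⟩
      apply Subtype.ext
      funext i
      show (v : Fin N → ZMod 2) ⟨0, by omega⟩ * (one : Fin N → ZMod 2) i = _
      rw [hone', mul_one]
      exact hij _ _
  have hfrR : Module.finrank (ZMod 2) R = 1 := by
    rw [hRdef]
    apply finrank_span_singleton
    intro h0
    have := congrArg (fun w : evenSub N => (w : Fin N → ZMod 2) ⟨0, by omega⟩) h0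
    simp only [hone'] at this
    exact one_ne_zero this
  have hV : Module.finrank (ZMod 2) (evenSub N) = 2 * (n - 1) + Module.finrank (ZMod 2) R := by
    rw [hfrR, finrank_evenSub N (by omega)]
    omega
  refine sp_embed_rad (evenDot N) hA R hR hV (evenPerm N) ?_ ?_
  · intro σ u v
    rw [evenDot_apply, evenDot_apply]
    simp only [evenPerm_apply]
    exact Equiv.sum_comp σ⁻¹ (fun i => (u : Fin N → ZMod 2) i * (v : Fin N → ZMod 2) i)
  · intro σ hσ
    by_contra hne
    obtain ⟨i, hi⟩ : ∃ i, σ i ≠ i := by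
      by_contra hcon
      push Not at hcon
      exact hne (Equiv.ext hcon)
    have hc2 : ({i, σ i} : Finset (Fin N)).card < (Finset.univ : Finset (Fin N)).card := by
      rw [Finset.card_univ, Fintype.card_fin]
      exact lt_of_le_of_lt Finset.card_le_two (by omega)
    obtain ⟨k, -, hk⟩ := Finset.exists_mem_notMem_of_card_lt_card hc2
    simp only [Finset.mem_insert, Finset.mem_singleton, not_or] at hk
    have hc4 : ({i, σ i, k, σ k} : Finset (Fin N)).card
        < (Finset.univ : Finset (Fin N)).card := by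
      rw [Finset.card_univ, Fintype.card_fin]
      exact lt_of_le_of_lt Finset.card_le_four (by omega)
    obtain ⟨x₀, -, hx₀⟩ := Finset.exists_mem_notMem_of_card_lt_card hc4
    simp only [Finset.mem_insert, Finset.mem_singleton, not_or] at hx₀
    have hmem : (Pi.single i 1 + Pi.single k 1 : Fin N → ZMod 2) ∈ evenSub N := by
      rw [mem_evenSub]
      simp only [Pi.add_apply, Finset.sum_add_distrib, Finset.sum_pi_single',
        Finset.mem_univ, if_true]
      exact h2 1
    obtain ⟨c, hc⟩ := hRconst _ (hσ ⟨_, hmem⟩)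
    have e1 := hc (σ i)
    have e2 := hc x₀
    simp only [Submodule.coe_sub, Pi.sub_apply, evenPerm_apply, Pi.add_apply,
      Pi.single_apply] at e1 e2
    have hs1 : σ⁻¹ (σ i) = i := by simp
    have hs2 : σ⁻¹ x₀ ≠ i := by
      intro h
      apply hx₀.2.1
      rw [← h]
      simp
    have hs3 : σ⁻¹ x₀ ≠ k := by
      intro h
      apply hx₀.2.2.2
      rw [← h]
      simp
    rw [hs1, if_pos rfl, if_neg (Ne.symm hk.1), if_neg hi, if_neg (Ne.symm hk.2)] at e1
    rw [if_neg hs2, if_neg hs3, if_neg hx₀.1, if_neg hx₀.2.2.1] at e2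
    rw [← e2] at e1
    have h10 : (1 : ZMod 2) + 0 - (0 + 0) ≠ 0 + 0 - (0 + 0) := by decide
    exact h10 e1

end Cfsg.Agent.Helper5
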