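import Mathlib
import Cfsg.Prelude.Def_Classical
import Cfsg.Agent.Helper5.SymSp
import Cfsg.Agent.Helper5.HermQ

namespace Cfsg.Agent.Helper5

open Matrix

/-- A quadratic form with singular radical `R` descends to a nondegenerate form on the quotient,
together with an isometric action. -/
theorem orth_rad {F V G : Type*} [Field F] [AddCommGroup V] [Module F V]
    [FiniteDimensional F V] [Group G]
    (Q : QuadraticForm F V) (R : Submodule F V)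
    (hR : ∀ v, v ∈ R ↔ ∀ u, QuadraticMap.polar ⇑Q u v = 0) (hRQ : ∀ r ∈ R, Q r = 0)
    (ρ : G →* (V →ₗ[F] V)) (hinv : ∀ g v, Q (ρ g v) = Q v)
    (hfaith : ∀ g, (∀ v, ρ g v - v ∈ R) → g = 1) :
    ∃ (Q' : QuadraticForm F (V ⧸ R)) (ρ' : G →* ((V ⧸ R) →ₗ[F] (V ⧸ R))),
      (QuadraticMap.polarBilin Q').Nondegenerate ∧ Function.Injective ρ' ∧
      (∀ g x, Q' (ρ' g x) = Q' x) ∧
      Nat.card {v : V // Q v = 0} = Nat.card R * Nat.card {x : V ⧸ R // Q' x = 0} := by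
  classical
  have hRr : ∀ r ∈ R, ∀ u, QuadraticMap.polar ⇑Q u r = 0 := fun r hr => (hR r).mp hr
  have hQR : ∀ u u', u - u' ∈ R → Q u = Q u' := by
    intro u u' h
    have h1 : u = u' + (u - u') := by abel
    rw [h1, qf_add, hRQ _ h, hRr _ h, add_zero, add_zero]
  have hpinv : ∀ g u v, QuadraticMap.polar ⇑Q (ρ g u) (ρ g v) = QuadraticMap.polar ⇑Q u v := by
    intro g u v
    simp only [QuadraticMap.polar, ← map_add, hinv]
  have hρ1 : ∀ g u, ρ g (ρ g⁻¹ u) = u := by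
    intro g u
    have : ρ g * ρ g⁻¹ = 1 := by rw [← map_mul, mul_inv_cancel, map_one]
    have := LinearMap.congr_fun this u
    simpa using this
  have hRinv : ∀ g, ∀ r ∈ R, ρ g r ∈ R := by
    intro g r hr
    rw [hR]
    intro u
    rw [← hρ1 g u, hpinv]
    exact hRr r hr _
  obtain ⟨s, hs⟩ := LinearMap.exists_rightInverse_of_surjective R.mkQ
    (LinearMap.range_eq_top.mpr (Submodule.mkQ_surjective R))
  have hs' : ∀ x, R.mkQ (s x) = x := fun x => LinearMap.congr_fun hs x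
  have hsR : ∀ v, s (R.mkQ v) - v ∈ R := by
    intro v
    rw [← Submodule.Quotient.mk_eq_zero, Submodule.Quotient.mk_sub]
    exact sub_eq_zero.mpr (hs' (R.mkQ v))
  obtain ⟨Q', hQ'⟩ : ∃ Q' : QuadraticForm F (V ⧸ R), ∀ x, Q' x = Q (s x) :=
    ⟨Q.comp s, fun x => rfl⟩
  have hpol' : ∀ x y, QuadraticMap.polar ⇑Q' x y = QuadraticMap.polar ⇑Q (s x) (s y) := by
    intro x y
    simp only [QuadraticMap.polar, hQ', map_add]
  have hleft : ∀ x, (∀ y, QuadraticMap.polar ⇑Q' x y = 0) → x = 0 := by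
    intro x hx
    have h1 : s x ∈ R := by
      rw [hR]
      intro u
      have h2 : u = s (R.mkQ u) + (u - s (R.mkQ u)) := by abel
      rw [QuadraticMap.polar_comm, h2, QuadraticMap.polar_add_right, ← hpol', hx, zero_add]
      exact hRr _ (by rw [← neg_sub]; exact R.neg_mem (hsR u)) _
    have h2 := hs' x
    rw [Submodule.mkQ_apply, (Submodule.Quotient.mk_eq_zero R).mpr h1] at h2
    exact h2.symm
  obtain ⟨ρ', hρ'⟩ : ∃ ρ' : G →* ((V ⧸ R) →ₗ[F] (V ⧸ R)),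
      ∀ g x, ρ' g x = R.mkQ (ρ g (s x)) := by
    refine ⟨{ toFun := fun g => R.mkQ ∘ₗ ρ g ∘ₗ s
              map_one' := ?_
              map_mul' := ?_ }, fun g x => rfl⟩
    · apply LinearMap.ext
      intro x
      simp [hs']
    · intro g h
      apply LinearMap.ext
      intro x
      show R.mkQ (ρ (g * h) (s x)) = R.mkQ (ρ g (s (R.mkQ (ρ h (s x)))))
      rw [map_mul]
      show R.mkQ (ρ g (ρ h (s x))) = _
      rw [Submodule.mkQ_apply, Submodule.mkQ_apply, Submodule.Quotient.eq, ← map_sub]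
      apply hRinv
      have := hsR (ρ h (s x))
      rw [← neg_sub]
      exact R.neg_mem this
  refine ⟨Q', ρ', ⟨?_, ?_⟩, ?_, ?_, ?_⟩
  · intro x hx
    exact hleft x (fun y => by
      rw [← QuadraticMap.polarBilin_apply_apply]; exact hx y)
  · intro y hy
    exact hleft y (fun x => by
      rw [QuadraticMap.polar_comm, ← QuadraticMap.polarBilin_apply_apply]; exact hy x)
  · rw [injective_iff_map_eq_one]
    intro g hg
    apply hfaith
    intro v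
    have h1 : ρ' g (R.mkQ v) = R.mkQ v := by rw [hg]; rfl
    rw [hρ'] at h1
    have h2 : ρ g (s (R.mkQ v)) - v ∈ R := by
      rw [← Submodule.Quotient.mk_eq_zero, Submodule.Quotient.mk_sub]
      exact sub_eq_zero.mpr h1
    have h3 : ρ g (s (R.mkQ v) - v) ∈ R := hRinv g _ (hsR v)
    have h4 : ρ g v - v = (ρ g (s (R.mkQ v)) - v) - ρ g (s (R.mkQ v) - v) := by
      rw [map_sub]; abel
    rw [h4]
    exact R.sub_mem h2 h3
  · intro g x
    rw [hQ', hQ', hρ', hQR _ _ (hsR _), hinv]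
  · rw [← Nat.card_prod]
    apply Nat.card_congr
    refine
      { toFun := fun v => (⟨v.1 - s (R.mkQ v.1), by
            rw [← neg_sub]; exact R.neg_mem (hsR v.1)⟩, ⟨R.mkQ v.1, by
            rw [hQ', hQR _ _ (hsR v.1)]; exact v.2⟩)
        invFun := fun p => ⟨s p.2.1 + p.1.1, by
            rw [hQR (s p.2.1 + p.1.1) (s p.2.1) (by rw [add_sub_cancel_left]; exact p.1.2),
              ← hQ']
            exact p.2.2⟩
        left_inv := ?_
        right_inv := ?_ }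
    · intro v
      apply Subtype.ext
      show s (R.mkQ v.1) + (v.1 - s (R.mkQ v.1)) = v.1
      abel
    · rintro ⟨⟨r, hr⟩, ⟨x, hx⟩⟩
      have h1 : R.mkQ (s x + r) = x := by
        rw [map_add, hs', Submodule.mkQ_apply, (Submodule.Quotient.mk_eq_zero R).mpr hr,
          add_zero]
      apply Prod.ext
      · apply Subtype.ext
        show s x + r - s (R.mkQ (s x + r)) = r
        rw [h1]
        abel
      · apply Subtype.ext
        exact h1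

/-- Weight of a binary vector. -/
def wt2 {n : ℕ} (v : Fin n → ZMod 2) : ℕ := ∑ i, if v i = 1 then 1 else 0

/-- Number of binary vectors of length `n` with weight congruent to `r` modulo 4. -/
def cnt4 (n r : ℕ) : ℕ := ∑ v : Fin n → ZMod 2, if wt2 v % 4 = r then 1 else 0

theorem wt2_cons {n : ℕ} (a : ZMod 2) (v : Fin n → ZMod 2) :
    wt2 (Fin.cons a v : Fin (n + 1) → ZMod 2) = (if a = 1 then 1 else 0) + wt2 v := by
  unfold wt2
  rw [Fin.sum_univ_succ]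
  simp

theorem cnt4_succ (n r : ℕ) (hr : r < 4) :
    cnt4 (n + 1) r = cnt4 n r + cnt4 n ((r + 3) % 4) := by
  unfold cnt4
  rw [← (Fin.consEquiv (fun _ : Fin (n + 1) => ZMod 2)).sum_comp, Fintype.sum_prod_type]
  have h2 : ∀ f : ZMod 2 → ℕ, ∑ a, f a = f 0 + f 1 := fun f => Fin.sum_univ_two f
  rw [h2]
  congr 1
  · apply Finset.sum_congr rfl
    intro v _
    show (if wt2 (Fin.cons 0 v : Fin (n + 1) → ZMod 2) % 4 = r then 1 else 0) = _
    rw [wt2_cons]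
    simp
  · apply Finset.sum_congr rfl
    intro v _
    show (if wt2 (Fin.cons 1 v : Fin (n + 1) → ZMod 2) % 4 = r then 1 else 0) = _
    rw [wt2_cons]
    have h3 : ∀ w : ℕ, ((1 + w) % 4 = r ↔ w % 4 = (r + 3) % 4) := by
      intro w
      omega
    simp [h3]

theorem cnt4_four (n : ℕ) :
    cnt4 (n + 4) 0 = 2 * cnt4 n 0 + 4 * cnt4 n 3 + 6 * cnt4 n 2 + 4 * cnt4 n 1 ∧
    cnt4 (n + 4) 1 = 2 * cnt4 n 1 + 4 * cnt4 n 0 + 6 * cnt4 n 3 + 4 * cnt4 n 2 ∧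
    cnt4 (n + 4) 2 = 2 * cnt4 n 2 + 4 * cnt4 n 1 + 6 * cnt4 n 0 + 4 * cnt4 n 3 ∧
    cnt4 (n + 4) 3 = 2 * cnt4 n 3 + 4 * cnt4 n 2 + 6 * cnt4 n 1 + 4 * cnt4 n 0 := by
  have a0 : cnt4 (n + 1) 0 = cnt4 n 0 + cnt4 n 3 := cnt4_succ n 0 (by omega)
  have a1 : cnt4 (n + 1) 1 = cnt4 n 1 + cnt4 n 0 := cnt4_succ n 1 (by omega)
  have a2 : cnt4 (n + 1) 2 = cnt4 n 2 + cnt4 n 1 := cnt4_succ n 2 (by omega)
  have a3 : cnt4 (n + 1) 3 = cnt4 n 3 + cnt4 n 2 := cnt4_succ n 3 (by omega)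
  have b0 : cnt4 (n + 2) 0 = cnt4 (n + 1) 0 + cnt4 (n + 1) 3 := cnt4_succ (n + 1) 0 (by omega)
  have b1 : cnt4 (n + 2) 1 = cnt4 (n + 1) 1 + cnt4 (n + 1) 0 := cnt4_succ (n + 1) 1 (by omega)
  have b2 : cnt4 (n + 2) 2 = cnt4 (n + 1) 2 + cnt4 (n + 1) 1 := cnt4_succ (n + 1) 2 (by omega)
  have b3 : cnt4 (n + 2) 3 = cnt4 (n + 1) 3 + cnt4 (n + 1) 2 := cnt4_succ (n + 1) 3 (by omega)
  have c0 : cnt4 (n + 3) 0 = cnt4 (n + 2) 0 + cnt4 (n + 2) 3 := cnt4_succ (n + 2) 0 (by omega)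
  have c1 : cnt4 (n + 3) 1 = cnt4 (n + 2) 1 + cnt4 (n + 2) 0 := cnt4_succ (n + 2) 1 (by omega)
  have c2 : cnt4 (n + 3) 2 = cnt4 (n + 2) 2 + cnt4 (n + 2) 1 := cnt4_succ (n + 2) 2 (by omega)
  have c3 : cnt4 (n + 3) 3 = cnt4 (n + 2) 3 + cnt4 (n + 2) 2 := cnt4_succ (n + 2) 3 (by omega)
  have d0 : cnt4 (n + 4) 0 = cnt4 (n + 3) 0 + cnt4 (n + 3) 3 := cnt4_succ (n + 3) 0 (by omega)
  have d1 : cnt4 (n + 4) 1 = cnt4 (n + 3) 1 + cnt4 (n + 3) 0 := cnt4_succ (n + 3) 1 (by omega)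
  have d2 : cnt4 (n + 4) 2 = cnt4 (n + 3) 2 + cnt4 (n + 3) 1 := cnt4_succ (n + 3) 2 (by omega)
  have d3 : cnt4 (n + 4) 3 = cnt4 (n + 3) 3 + cnt4 (n + 3) 2 := cnt4_succ (n + 3) 3 (by omega)
  omega

theorem cnt4_zero : cnt4 0 0 = 1 ∧ cnt4 0 1 = 0 ∧ cnt4 0 2 = 0 ∧ cnt4 0 3 = 0 := by
  unfold cnt4 wt2
  simp

theorem cnt4_closed (i : ℕ) :
    (cnt4 (4 * (i + 1)) 0 : ℤ) = 2 ^ (4 * i + 2) + (-1) ^ (i + 1) * 2 ^ (2 * i + 1) ∧
    (cnt4 (4 * (i + 1)) 2 : ℤ) = 2 ^ (4 * i + 2) - (-1) ^ (i + 1) * 2 ^ (2 * i + 1) ∧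
    (cnt4 (4 * (i + 1)) 1 : ℤ) = 2 ^ (4 * i + 2) ∧
    (cnt4 (4 * (i + 1)) 3 : ℤ) = 2 ^ (4 * i + 2) := by
  induction i with
  | zero =>
    obtain ⟨z0, z1, z2, z3⟩ := cnt4_zero
    obtain ⟨f0, f1, f2, f3⟩ := cnt4_four 0
    rw [z0, z1, z2, z3] at f0 f1 f2 f3
    have e : 4 * (0 + 1) = 0 + 4 := by norm_num
    rw [e, f0, f1, f2, f3]
    norm_num
  | succ i ih =>
    obtain ⟨h0, h2, h1, h3⟩ := ih
    obtain ⟨f0, f1, f2, f3⟩ := cnt4_four (4 * (i + 1))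
    have e : 4 * (i + 1 + 1) = 4 * (i + 1) + 4 := by ring
    rw [e, f0, f1, f2, f3]
    push_cast
    rw [h0, h1, h2, h3]
    have p1 : (2 : ℤ) ^ (4 * (i + 1) + 2) = 16 * 2 ^ (4 * i + 2) := by ring
    have p2 : (2 : ℤ) ^ (2 * (i + 1) + 1) = 4 * 2 ^ (2 * i + 1) := by ring
    have p3 : (-1 : ℤ) ^ (i + 1 + 1) = -(-1) ^ (i + 1) := by ring
    rw [p1, p2, p3]
    refine ⟨by ring, by ring, by ring, by ring⟩

end Cfsg.Agent.Helper5
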