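import Mathlib
import Cfsg.Prelude.Def_Classical
import Cfsg.Agent.Helper5.SymOrth

namespace Cfsg.Agent.Helper5

open Matrix

theorem even_core (N : ℕ) (hN6 : 6 ≤ N) (hNe : Even N) :
    ∃ (one : evenSub N) (R : Submodule (ZMod 2) (evenSub N)),
      (∀ i, (one : Fin N → ZMod 2) i = 1) ∧ R = Submodule.span (ZMod 2) {one} ∧
      (∀ v, v ∈ R ↔ ∀ u, evenDot N u v = 0) ∧ Module.finrank (ZMod 2) R = 1 ∧
      (∀ σ : Equiv.Perm (Fin N), (∀ v, evenPerm N σ v - v ∈ R) → σ = 1) := by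
  classical
  have h2 : ∀ a : ZMod 2, a + a = 0 := by decide
  have hself : ∀ a : ZMod 2, a * a = a := by decide
  have hone : (fun _ => 1 : Fin N → ZMod 2) ∈ evenSub N := by
    rw [mem_evenSub]
    simp only [Finset.sum_const, Finset.card_univ, Fintype.card_fin, nsmul_eq_mul, mul_one]
    exact ZMod.natCast_eq_zero_iff_even.mpr hNe
  obtain ⟨one, hone'⟩ : ∃ one : evenSub N, ∀ i, (one : Fin N → ZMod 2) i = 1 :=
    ⟨⟨fun _ => 1, hone⟩, fun i => rfl⟩
  obtain ⟨R, hRdef⟩ : ∃ R : Submodule (ZMod 2) (evenSub N),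
      R = Submodule.span (ZMod 2) {one} := ⟨_, rfl⟩
  have hRconst : ∀ v ∈ R, ∃ c : ZMod 2, ∀ i, (v : Fin N → ZMod 2) i = c := by
    intro v hv
    rw [hRdef] at hv
    obtain ⟨c, rfl⟩ := Submodule.mem_span_singleton.mp hv
    refine ⟨c, fun i => ?_⟩
    show c * (one : Fin N → ZMod 2) i = c
    rw [hone', mul_one]
  have hR : ∀ v, v ∈ R ↔ ∀ u, evenDot N u v = 0 := by
    intro v
    constructor
    · intro hv u
      obtain ⟨c, hc⟩ := hRconst v hv
      rw [evenDot_apply]
      simp only [hc]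
      rw [← Finset.sum_mul, (mem_evenSub N _).mp u.2, zero_mul]
    · intro hv
      have hij : ∀ i j : Fin N, (v : Fin N → ZMod 2) i = (v : Fin N → ZMod 2) j := by
        intro i j
        by_cases hne : i = j
        · rw [hne]
        have hmem : (Pi.single i 1 + Pi.single j 1 : Fin N → ZMod 2) ∈ evenSub N := by
          rw [mem_evenSub]
          simp only [Pi.add_apply, Finset.sum_add_distrib, Finset.sum_pi_single',
            Finset.mem_univ, if_true]
          exact h2 1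
        have := hv ⟨_, hmem⟩
        rw [evenDot_apply] at this
        simp only [Pi.add_apply, add_mul, Finset.sum_add_distrib, Pi.single_apply, ite_mul,
          one_mul, zero_mul, Finset.sum_ite_eq', Finset.mem_univ, if_true] at this
        have h3 := h2 ((v : Fin N → ZMod 2) j)
        have h4 : (v : Fin N → ZMod 2) i = (v : Fin N → ZMod 2) i + ((v : Fin N → ZMod 2) j
            + (v : Fin N → ZMod 2) j) := by rw [h3, add_zero]
        rw [h4, ← add_assoc, this, zero_add]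
      rw [hRdef, Submodule.mem_span_singleton]
      refine ⟨(v : Fin N → ZMod 2) ⟨0, by omega⟩, ?_⟩
      apply Subtype.ext
      funext i
      show (v : Fin N → ZMod 2) ⟨0, by omega⟩ * (one : Fin N → ZMod 2) i = _
      rw [hone', mul_one]
      exact hij _ _
  have hfrR : Module.finrank (ZMod 2) R = 1 := by
    rw [hRdef]
    apply finrank_span_singleton
    intro h0
    have := congrArg (fun w : evenSub N => (w : Fin N → ZMod 2) ⟨0, by omega⟩) h0
    simp only [hone'] at this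
    exact one_ne_zero this
  refine ⟨one, R, hone', hRdef, hR, hfrR, ?_⟩
  intro σ hσ
  by_contra hne
  obtain ⟨i, hi⟩ : ∃ i, σ i ≠ i := by
    by_contra hcon
    push Not at hcon
    exact hne (Equiv.ext hcon)
  have hc2 : ({i, σ i} : Finset (Fin N)).card < (Finset.univ : Finset (Fin N)).card := by
    rw [Finset.card_univ, Fintype.card_fin]
    exact lt_of_le_of_lt Finset.card_le_two (by omega)
  obtain ⟨k, -, hk⟩ := Finset.exists_mem_notMem_of_card_lt_card hc2
  simp only [Finset.mem_insert, Finset.mem_singleton, not_or] at hk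
  have hc4 : ({i, σ i, k, σ k} : Finset (Fin N)).card
      < (Finset.univ : Finset (Fin N)).card := by
    rw [Finset.card_univ, Fintype.card_fin]
    exact lt_of_le_of_lt Finset.card_le_four (by omega)
  obtain ⟨x₀, -, hx₀⟩ := Finset.exists_mem_notMem_of_card_lt_card hc4
  simp only [Finset.mem_insert, Finset.mem_singleton, not_or] at hx₀
  have hmem : (Pi.single i 1 + Pi.single k 1 : Fin N → ZMod 2) ∈ evenSub N := by
    rw [mem_evenSub]
    simp only [Pi.add_apply, Finset.sum_add_distrib, Finset.sum_pi_single',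
      Finset.mem_univ, if_true]
    exact h2 1
  obtain ⟨c, hc⟩ := hRconst _ (hσ ⟨_, hmem⟩)
  have e1 := hc (σ i)
  have e2 := hc x₀
  simp only [Submodule.coe_sub, Pi.sub_apply, evenPerm_apply, Pi.add_apply,
    Pi.single_apply] at e1 e2
  have hs1 : σ⁻¹ (σ i) = i := by simp
  have hs2 : σ⁻¹ x₀ ≠ i := by
    intro h
    apply hx₀.2.1
    rw [← h]
    simp
  have hs3 : σ⁻¹ x₀ ≠ k := by
    intro h
    apply hx₀.2.2.2
    rw [← h]
    simp
  rw [hs1, if_pos rfl, if_neg (Ne.symm hk.1), if_neg hi, if_neg (Ne.symm hk.2)] at e1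
  rw [if_neg hs2, if_neg hs3, if_neg hx₀.1, if_neg hx₀.2.2.1] at e2
  rw [← e2] at e1
  have h10 : (1 : ZMod 2) + 0 - (0 + 0) ≠ 0 + 0 - (0 + 0) := by decide
  exact h10 e1

theorem sym_orth (k : ℕ) (hk : 1 ≤ k) :
    (Odd k → ∃ φ : Equiv.Perm (Fin (4 * k + 4)) →*
        ↥(Cfsg.isometryGroup (ZMod 2) (Cfsg.quadFormPlus (2 * k + 1) (ZMod 2))),
        Function.Injective φ) ∧
    (Even k → ∃ φ : Equiv.Perm (Fin (4 * k + 4)) →*
        ↥(Cfsg.isometryGroup (ZMod 2) (Cfsg.quadFormMinus (2 * k) (ZMod 2) 1 1)),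
        Function.Injective φ) := by
  classical
  obtain ⟨N, hN⟩ : ∃ N, N = 4 * k + 4 := ⟨_, rfl⟩
  rw [← hN]
  have hN6 : 6 ≤ N := by omega
  have hNe : Even N := ⟨2 * k + 2, by omega⟩
  obtain ⟨one, R, hone', hRdef, hR, hfrR, hfaith⟩ := even_core N hN6 hNe
  have h2 : ∀ a : ZMod 2, a + a = 0 := by decide
  have hcast : ∀ v : Fin N → ZMod 2, ((wt2 v : ℕ) : ZMod 2) = ∑ i, v i := by
    intro v
    unfold wt2
    rw [Nat.cast_sum]
    apply Finset.sum_congr rfl
    intro i _
    have : ∀ a : ZMod 2, ((if a = 1 then 1 else 0 : ℕ) : ZMod 2) = a := by decide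
    exact this (v i)
  have heven : ∀ v : evenSub N, Even (wt2 (v : Fin N → ZMod 2)) := by
    intro v
    rw [← ZMod.natCast_eq_zero_iff_even, hcast]
    exact (mem_evenSub N _).mp v.2
  have hkey : ∀ u v : Fin N → ZMod 2,
      wt2 (u + v) + 2 * (∑ i, if u i = 1 ∧ v i = 1 then 1 else 0) = wt2 u + wt2 v := by
    intro u v
    unfold wt2
    rw [Finset.mul_sum, ← Finset.sum_add_distrib, ← Finset.sum_add_distrib]
    apply Finset.sum_congr rfl
    intro i _
    have : ∀ a b : ZMod 2, (if a + b = 1 then 1 else 0) + 2 * (if a = 1 ∧ b = 1 then 1 else 0)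
        = (if a = 1 then 1 else 0) + (if b = 1 then 1 else 0 : ℕ) := by decide
    exact this (u i) (v i)
  have hdot : ∀ u v : Fin N → ZMod 2,
      ((∑ i, if u i = 1 ∧ v i = 1 then 1 else 0 : ℕ) : ZMod 2) = ∑ i, u i * v i := by
    intro u v
    rw [Nat.cast_sum]
    apply Finset.sum_congr rfl
    intro i _
    have : ∀ a b : ZMod 2, ((if a = 1 ∧ b = 1 then 1 else 0 : ℕ) : ZMod 2) = a * b := by
      decide
    exact this (u i) (v i)
  obtain ⟨qE, hqE⟩ : ∃ qE : evenSub N → ZMod 2,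
      ∀ v, qE v = ((wt2 (v : Fin N → ZMod 2) / 2 : ℕ) : ZMod 2) := ⟨_, fun v => rfl⟩
  have hcomp : ∀ u v : evenSub N, qE (u + v) = qE u + qE v + evenDot N u v := by
    intro u v
    obtain ⟨a, ha⟩ := heven u
    obtain ⟨b, hb⟩ := heven v
    obtain ⟨d, hd⟩ := heven (u + v)
    have hk1 := hkey (u : Fin N → ZMod 2) (v : Fin N → ZMod 2)
    have hd' : wt2 ((u : Fin N → ZMod 2) + (v : Fin N → ZMod 2)) = d + d := hd
    obtain ⟨c, hc⟩ : ∃ c : ℕ, c = ∑ i, if (u : Fin N → ZMod 2) i = 1 ∧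
        (v : Fin N → ZMod 2) i = 1 then 1 else 0 := ⟨_, rfl⟩
    rw [hqE, hqE, hqE, evenDot_apply, ← hdot, ← hc]
    rw [← hc] at hk1
    have hdc : d + c = a + b := by
      rw [hd', ha, hb] at hk1
      omega
    have e1 : wt2 ((u + v : evenSub N) : Fin N → ZMod 2) / 2 = d := by rw [hd]; omega
    have e2 : wt2 (u : Fin N → ZMod 2) / 2 = a := by rw [ha]; omega
    have e3 : wt2 (v : Fin N → ZMod 2) / 2 = b := by rw [hb]; omega
    rw [e1, e2, e3]
    have h5 : ((d + c : ℕ) : ZMod 2) = ((a + b : ℕ) : ZMod 2) := by rw [hdc]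
    push_cast at h5
    have h3 := h2 (c : ZMod 2)
    linear_combination h5 - h3
  obtain ⟨Q, hQq, hQB⟩ := qf_of_fun₂ qE (evenDot N) hcomp
  have hpolar : ∀ u v, QuadraticMap.polar ⇑Q u v = evenDot N u v := by
    intro u v
    rw [← QuadraticMap.polarBilin_apply_apply, hQB]
  have hR' : ∀ v, v ∈ R ↔ ∀ u, QuadraticMap.polar ⇑Q u v = 0 := by
    intro v
    rw [hR]
    simp only [hpolar]
  have hwt_one : wt2 (one : Fin N → ZMod 2) = N := by
    unfold wt2
    simp [hone']
  have hRQ : ∀ r ∈ R, Q r = 0 := by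
    intro r hr
    rw [hRdef] at hr
    obtain ⟨c, rfl⟩ := Submodule.mem_span_singleton.mp hr
    have hc : ∀ z : ZMod 2, z = 0 ∨ z = 1 := by decide
    rcases hc c with rfl | rfl
    · simp
    · rw [one_smul, hQq, hqE, hwt_one, hN]
      have : (4 * k + 4) / 2 = 2 * (k + 1) := by omega
      rw [this]
      push_cast
      have : (2 : ZMod 2) = 0 := by decide
      rw [this, zero_mul]
  have hinv : ∀ (σ : Equiv.Perm (Fin N)) v, Q (evenPerm N σ v) = Q v := by
    intro σ v
    rw [hQq, hQq, hqE, hqE]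
    have : wt2 ((evenPerm N σ v : evenSub N) : Fin N → ZMod 2)
        = wt2 (v : Fin N → ZMod 2) := by
      unfold wt2
      simp only [evenPerm_apply]
      exact Equiv.sum_comp σ⁻¹ (fun i => if (v : Fin N → ZMod 2) i = 1 then 1 else 0)
    rw [this]
  obtain ⟨Q', ρ', hQ'nd, hρ'inj, hQ'inv, hcount⟩ :=
    orth_rad Q R hR' hRQ (evenPerm N) hinv hfaith
  have hcardR : Nat.card R = 2 := by
    have := Module.natCard_eq_pow_finrank (K := ZMod 2) (V := R)
    rw [hfrR] at this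
    simpa using this
  have hzeroE : Nat.card {v : evenSub N // Q v = 0} = cnt4 N 0 := by
    have e : {v : evenSub N // Q v = 0} ≃ {v : Fin N → ZMod 2 // wt2 v % 4 = 0} :=
      { toFun := fun x => ⟨x.1.1, by
          have h := x.2
          rw [hQq, hqE] at h
          obtain ⟨a, ha⟩ := heven x.1
          have e2 : wt2 (x.1 : Fin N → ZMod 2) / 2 = a := by rw [ha]; omega
          rw [e2, ZMod.natCast_eq_zero_iff_even] at h
          obtain ⟨b, hb⟩ := h
          show wt2 (x.1 : Fin N → ZMod 2) % 4 = 0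
          omega⟩
        invFun := fun y => ⟨⟨y.1, by
          rw [mem_evenSub, ← hcast, ZMod.natCast_eq_zero_iff_even]
          have := y.2
          exact ⟨wt2 y.1 / 2, by omega⟩⟩, by
          rw [hQq, hqE, ZMod.natCast_eq_zero_iff_even]
          have := y.2
          show Even (wt2 y.1 / 2)
          exact ⟨wt2 y.1 / 4, by omega⟩⟩
        left_inv := fun x => rfl
        right_inv := fun y => rfl }
    rw [Nat.card_congr e, Nat.card_eq_fintype_card, Fintype.card_subtype, Finset.card_filter]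
    rfl
  have hZ : cnt4 N 0 = 2 * Nat.card {x : evenSub N ⧸ R // Q' x = 0} := by
    rw [← hzeroE, hcount, hcardR]
  have hfr : Module.finrank (ZMod 2) (evenSub N ⧸ R) = 2 * (2 * k + 1) := by
    have h1 := Submodule.finrank_quotient_add_finrank R
    rw [hfrR, finrank_evenSub N (by omega)] at h1
    omega
  obtain ⟨c0, -, -, -⟩ := cnt4_closed k
  have hN' : 4 * (k + 1) = N := by omega
  rw [hN'] at c0
  have hcard2 : Fintype.card (ZMod 2) = 2 := ZMod.card 2
  have hA : (2 : ℕ) ^ (4 * k + 2) = 2 * 2 ^ (4 * k + 1) := by ring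
  have hB : (2 : ℕ) ^ (2 * k + 1) = 2 * 2 ^ (2 * k) := by ring
  have hAB : (2 : ℕ) ^ (2 * k) ≤ 2 ^ (4 * k + 1) :=
    Nat.pow_le_pow_right (by norm_num) (by omega)
  have hB1 : 1 ≤ (2 : ℕ) ^ (2 * k) := Nat.one_le_two_pow
  have e1 : 2 * (2 * k + 1) - 1 = 4 * k + 1 := by omega
  have e2 : 2 * k + 1 - 1 = 2 * k := by omega
  constructor
  · intro hodd
    have hs : (-1 : ℤ) ^ (k + 1) = 1 :=
      Even.neg_one_pow (by obtain ⟨j, hj⟩ := hodd; exact ⟨j + 1, by omega⟩)
    rw [hs, one_mul] at c0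
    have c0' : cnt4 N 0 = 2 ^ (4 * k + 2) + 2 ^ (2 * k + 1) := by exact_mod_cast c0
    obtain ⟨g, hg⟩ := (qf_type_of_count Q' hQ'nd (by omega : 1 ≤ 2 * k + 1) hfr).1 (by
      rw [hcard2, e1, e2]
      omega)
    exact orth_embed (fun x => Q' x) (Cfsg.quadFormPlus (2 * k + 1) (ZMod 2)) g hg ρ' hρ'inj
      hQ'inv
  · intro heven'
    have hs : (-1 : ℤ) ^ (k + 1) = -1 :=
      Odd.neg_one_pow (by obtain ⟨j, hj⟩ := heven'; exact ⟨j, by omega⟩)
    rw [hs] at c0
    have c0' : cnt4 N 0 + 2 ^ (2 * k + 1) = 2 ^ (4 * k + 2) := by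
      have : (cnt4 N 0 : ℤ) + 2 ^ (2 * k + 1) = 2 ^ (4 * k + 2) := by rw [c0]; ring
      exact_mod_cast this
    obtain ⟨ζ, g, hζ, hg⟩ := (qf_type_of_count Q' hQ'nd (by omega : 1 ≤ 2 * k + 1) hfr).2 (by
      rw [hcard2, e1, e2]
      omega)
    have hζ1 : ζ = 1 := by
      have h0 := hζ 0
      have h1 : ∀ z : ZMod 2, (0 : ZMod 2) ^ 2 + 0 + z ≠ 0 → z = 1 := by decide
      exact h1 ζ h0
    subst hζ1
    exact orth_embed (fun x => Q' x) (Cfsg.quadFormMinus (2 * k) (ZMod 2) 1 1) g hg ρ' hρ'inj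
      hQ'inv

end Cfsg.Agent.Helper5
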