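import Mathlib
import Cfsg.Prelude.Def_Classical
import Cfsg.Agent.Helper5.SymOrth2
import Cfsg.Agent.Helper5.OrthOrd6

namespace Cfsg.Agent.Helper5

open Matrix

/-- The weight form on even-weight vectors. -/
theorem even_qf (N : ℕ) :
    ∃ Q : QuadraticForm (ZMod 2) (evenSub N),
      (∀ v, Q v = ((wt2 (v : Fin N → ZMod 2) / 2 : ℕ) : ZMod 2)) ∧
      (∀ u v, QuadraticMap.polar ⇑Q u v = evenDot N u v) ∧
      (∀ (σ : Equiv.Perm (Fin N)) v, Q (evenPerm N σ v) = Q v) ∧
      Nat.card {v : evenSub N // Q v = 0} = cnt4 N 0 := by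
  classical
  have h2 : ∀ a : ZMod 2, a + a = 0 := by decide
  have hcast : ∀ v : Fin N → ZMod 2, ((wt2 v : ℕ) : ZMod 2) = ∑ i, v i := by
    intro v
    unfold wt2
    rw [Nat.cast_sum]
    apply Finset.sum_congr rfl
    intro i _
    have : ∀ a : ZMod 2, ((if a = 1 then 1 else 0 : ℕ) : ZMod 2) = a := by decide
    exact this (v i)
  have heven : ∀ v : evenSub N, Even (wt2 (v : Fin N → ZMod 2)) := by
    intro v
    rw [← ZMod.natCast_eq_zero_iff_even, hcast]
    exact (mem_evenSub N _).mp v.2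
  have hkey : ∀ u v : Fin N → ZMod 2,
      wt2 (u + v) + 2 * (∑ i, if u i = 1 ∧ v i = 1 then 1 else 0) = wt2 u + wt2 v := by
    intro u v
    unfold wt2
    rw [Finset.mul_sum, ← Finset.sum_add_distrib, ← Finset.sum_add_distrib]
    apply Finset.sum_congr rfl
    intro i _
    have : ∀ a b : ZMod 2, (if a + b = 1 then 1 else 0) + 2 * (if a = 1 ∧ b = 1 then 1 else 0)
        = (if a = 1 then 1 else 0) + (if b = 1 then 1 else 0 : ℕ) := by decide
    exact this (u i) (v i)
  have hdot : ∀ u v : Fin N → ZMod 2,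
      ((∑ i, if u i = 1 ∧ v i = 1 then 1 else 0 : ℕ) : ZMod 2) = ∑ i, u i * v i := by
    intro u v
    rw [Nat.cast_sum]
    apply Finset.sum_congr rfl
    intro i _
    have : ∀ a b : ZMod 2, ((if a = 1 ∧ b = 1 then 1 else 0 : ℕ) : ZMod 2) = a * b := by
      decide
    exact this (u i) (v i)
  obtain ⟨qE, hqE⟩ : ∃ qE : evenSub N → ZMod 2,
      ∀ v, qE v = ((wt2 (v : Fin N → ZMod 2) / 2 : ℕ) : ZMod 2) := ⟨_, fun v => rfl⟩
  have hcomp : ∀ u v : evenSub N, qE (u + v) = qE u + qE v + evenDot N u v := by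
    intro u v
    obtain ⟨a, ha⟩ := heven u
    obtain ⟨b, hb⟩ := heven v
    obtain ⟨d, hd⟩ := heven (u + v)
    have hk1 := hkey (u : Fin N → ZMod 2) (v : Fin N → ZMod 2)
    have hd' : wt2 ((u : Fin N → ZMod 2) + (v : Fin N → ZMod 2)) = d + d := hd
    obtain ⟨c, hc⟩ : ∃ c : ℕ, c = ∑ i, if (u : Fin N → ZMod 2) i = 1 ∧
        (v : Fin N → ZMod 2) i = 1 then 1 else 0 := ⟨_, rfl⟩
    rw [hqE, hqE, hqE, evenDot_apply, ← hdot, ← hc]
    rw [← hc] at hk1
    have hdc : d + c = a + b := by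
      rw [hd', ha, hb] at hk1
      omega
    have e1 : wt2 ((u + v : evenSub N) : Fin N → ZMod 2) / 2 = d := by rw [hd]; omega
    have e2 : wt2 (u : Fin N → ZMod 2) / 2 = a := by rw [ha]; omega
    have e3 : wt2 (v : Fin N → ZMod 2) / 2 = b := by rw [hb]; omega
    rw [e1, e2, e3]
    have h5 : ((d + c : ℕ) : ZMod 2) = ((a + b : ℕ) : ZMod 2) := by rw [hdc]
    push_cast at h5
    have h3 := h2 (c : ZMod 2)
    linear_combination h5 - h3
  obtain ⟨Q, hQq, hQB⟩ := qf_of_fun₂ qE (evenDot N) hcomp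
  have hpolar : ∀ u v, QuadraticMap.polar ⇑Q u v = evenDot N u v := by
    intro u v
    rw [← QuadraticMap.polarBilin_apply_apply, hQB]
  have hinv : ∀ (σ : Equiv.Perm (Fin N)) v, Q (evenPerm N σ v) = Q v := by
    intro σ v
    rw [hQq, hQq, hqE, hqE]
    have : wt2 ((evenPerm N σ v : evenSub N) : Fin N → ZMod 2)
        = wt2 (v : Fin N → ZMod 2) := by
      unfold wt2
      simp only [evenPerm_apply]
      exact Equiv.sum_comp σ⁻¹ (fun i => if (v : Fin N → ZMod 2) i = 1 then 1 else 0)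
    rw [this]
  have hzeroE : Nat.card {v : evenSub N // Q v = 0} = cnt4 N 0 := by
    have e : {v : evenSub N // Q v = 0} ≃ {v : Fin N → ZMod 2 // wt2 v % 4 = 0} :=
      { toFun := fun x => ⟨x.1.1, by
          have h := x.2
          rw [hQq, hqE] at h
          obtain ⟨a, ha⟩ := heven x.1
          have e2 : wt2 (x.1 : Fin N → ZMod 2) / 2 = a := by rw [ha]; omega
          rw [e2, ZMod.natCast_eq_zero_iff_even] at h
          obtain ⟨b, hb⟩ := h
          show wt2 (x.1 : Fin N → ZMod 2) % 4 = 0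
          omega⟩
        invFun := fun y => ⟨⟨y.1, by
          rw [mem_evenSub, ← hcast, ZMod.natCast_eq_zero_iff_even]
          have := y.2
          exact ⟨wt2 y.1 / 2, by omega⟩⟩, by
          rw [hQq, hqE, ZMod.natCast_eq_zero_iff_even]
          have := y.2
          show Even (wt2 y.1 / 2)
          exact ⟨wt2 y.1 / 4, by omega⟩⟩
        left_inv := fun x => rfl
        right_inv := fun y => rfl }
    rw [Nat.card_congr e, Nat.card_eq_fintype_card, Fintype.card_subtype, Finset.card_filter]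
    rfl
  exact ⟨Q, fun v => by rw [hQq, hqE], hpolar, hinv, hzeroE⟩

theorem sym5_orth : ∃ φ : Equiv.Perm (Fin 5) →*
    ↥(Cfsg.isometryGroup (ZMod 2) (Cfsg.quadFormMinus 1 (ZMod 2) 1 1)),
    Function.Injective φ := by
  classical
  obtain ⟨Q, hQq, hpolar, hinv, hcount⟩ := even_qf 5
  have h2 : ∀ a : ZMod 2, a + a = 0 := by decide
  have hL : ∀ v : evenSub 5, (∀ u, evenDot 5 u v = 0) → v = 0 := by
    intro v hv
    have hij : ∀ i j : Fin 5, (v : Fin 5 → ZMod 2) i = (v : Fin 5 → ZMod 2) j := by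
      intro i j
      by_cases hne : i = j
      · rw [hne]
      have hmem : (Pi.single i 1 + Pi.single j 1 : Fin 5 → ZMod 2) ∈ evenSub 5 := by
        rw [mem_evenSub]
        simp only [Pi.add_apply, Finset.sum_add_distrib, Finset.sum_pi_single',
          Finset.mem_univ, if_true]
        exact h2 1
      have := hv ⟨_, hmem⟩
      rw [evenDot_apply] at this
      simp only [Pi.add_apply, add_mul, Finset.sum_add_distrib, Pi.single_apply, ite_mul,
        one_mul, zero_mul, Finset.sum_ite_eq', Finset.mem_univ, if_true] at this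
      have h3 := h2 ((v : Fin 5 → ZMod 2) j)
      have h4 : (v : Fin 5 → ZMod 2) i = (v : Fin 5 → ZMod 2) i + ((v : Fin 5 → ZMod 2) j
          + (v : Fin 5 → ZMod 2) j) := by rw [h3, add_zero]
      rw [h4, ← add_assoc, this, zero_add]
    have hsum := (mem_evenSub 5 _).mp v.2
    have h0 : (v : Fin 5 → ZMod 2) 0 = 0 := by
      have : ∑ i, (v : Fin 5 → ZMod 2) i = ∑ _i : Fin 5, (v : Fin 5 → ZMod 2) 0 :=
        Finset.sum_congr rfl (fun i _ => hij i 0)
      rw [this, Finset.sum_const, Finset.card_univ, Fintype.card_fin] at hsum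
      have h5 : ∀ x : ZMod 2, 5 • x = 0 → x = 0 := by decide
      exact h5 _ hsum
    apply Subtype.ext
    funext i
    rw [hij i 0, h0]
    rfl
  have hnd : (QuadraticMap.polarBilin Q).Nondegenerate := by
    constructor
    · intro u hu
      apply hL u
      intro w
      have := hu w
      rw [QuadraticMap.polarBilin_apply_apply, hpolar] at this
      rw [evenDot_apply] at this ⊢
      rw [← this]
      exact Finset.sum_congr rfl (fun i _ => mul_comm _ _)
    · intro v hv
      apply hL v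
      intro u
      have := hv u
      rwa [QuadraticMap.polarBilin_apply_apply, hpolar] at this
  have hfr : Module.finrank (ZMod 2) (evenSub 5) = 2 * 2 := by
    rw [finrank_evenSub 5 (by norm_num)]
  have hc6 : cnt4 5 0 = 6 := by
    obtain ⟨c0, c2, c1, c3⟩ := cnt4_closed 0
    have a0 : cnt4 (4 + 1) 0 = cnt4 4 0 + cnt4 4 3 := cnt4_succ 4 0 (by omega)
    norm_num at c0 c3
    have : (cnt4 5 0 : ℤ) = 6 := by
      rw [show (5 : ℕ) = 4 + 1 from rfl, a0]
      push_cast
      rw [c0, c3]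
      norm_num
    exact_mod_cast this
  obtain ⟨ζ, g, hζ, hg⟩ : ∃ (ζ : ZMod 2)
      (g : evenSub 5 ≃ₗ[ZMod 2] ((Fin 1 ⊕ Fin 1) ⊕ Fin 2 → ZMod 2)),
      (∀ t : ZMod 2, t ^ 2 + t + ζ ≠ 0) ∧
      ∀ v, Q v = Cfsg.quadFormMinus 1 (ZMod 2) 1 ζ (g v) :=
    (qf_type_of_count Q hnd (m := 2) (by norm_num) hfr).2 (by
      rw [hcount, hc6, ZMod.card]
      norm_num)
  have hζ1 : ζ = 1 := by
    have h01 : ∀ z : ZMod 2, z = 0 ∨ z = 1 := by decide
    rcases h01 ζ with h | h
    · exfalso
      apply hζ 0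
      rw [h]
      simp
    · exact h
  subst hζ1
  have hρ : Function.Injective (evenPerm 5) := by
    rw [injective_iff_map_eq_one]
    intro σ hσ
    by_contra hne
    obtain ⟨i, hi⟩ : ∃ i, σ i ≠ i := by
      by_contra hcon
      push Not at hcon
      exact hne (Equiv.ext hcon)
    have hc2 : ({i, σ i} : Finset (Fin 5)).card < (Finset.univ : Finset (Fin 5)).card := by
      rw [Finset.card_univ, Fintype.card_fin]
      exact lt_of_le_of_lt Finset.card_le_two (by omega)
    obtain ⟨k, -, hk⟩ := Finset.exists_mem_notMem_of_card_lt_card hc2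
    simp only [Finset.mem_insert, Finset.mem_singleton, not_or] at hk
    have hmem : (Pi.single i 1 + Pi.single k 1 : Fin 5 → ZMod 2) ∈ evenSub 5 := by
      rw [mem_evenSub]
      simp only [Pi.add_apply, Finset.sum_add_distrib, Finset.sum_pi_single',
        Finset.mem_univ, if_true]
      exact h2 1
    have h1 : ((evenPerm 5 σ ⟨_, hmem⟩ : evenSub 5) : Fin 5 → ZMod 2) (σ i)
        = (Pi.single i 1 + Pi.single k 1 : Fin 5 → ZMod 2) (σ i) := by
      rw [hσ]
      rfl
    rw [evenPerm_apply] at h1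
    simp only [Pi.add_apply, Pi.single_apply] at h1
    have hs1 : σ⁻¹ (σ i) = i := by simp
    rw [hs1, if_pos rfl, if_neg (Ne.symm hk.1), if_neg hi, if_neg (Ne.symm hk.2)] at h1
    have h10 : (1 : ZMod 2) + 0 ≠ 0 + 0 := by decide
    exact h10 h1
  exact orth_embed (fun v => Q v) (Cfsg.quadFormMinus 1 (ZMod 2) 1 1) g hg (evenPerm 5) hρ hinv

end Cfsg.Agent.Helper5
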