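import Mathlib
import Cfsg.Prelude.Def_Classical
import Cfsg.Agent.Helper5.SymOrth3
import Cfsg.Agent.Helper5.OrthDih2

namespace Cfsg.Agent.Helper5

open Matrix

/-- A nondegenerate form with a totally singular subspace of half dimension is of plus type. -/
theorem plus_of_ts {F V : Type*} [Field F] [AddCommGroup V] [Module F V]
    [FiniteDimensional F V] (Q : QuadraticForm F V)
    (hQ : (QuadraticMap.polarBilin Q).Nondegenerate) {m : ℕ} (hm : 1 ≤ m)
    (hV : Module.finrank F V = 2 * m) (U : Submodule F V) (hU : ∀ u ∈ U, Q u = 0)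
    (hUd : m ≤ Module.finrank F U) :
    ∃ g : V ≃ₗ[F] (Fin m ⊕ Fin m → F), ∀ v, Q v = Cfsg.quadFormPlus m F (g v) := by
  obtain ⟨e, f, hH, -⟩ := qf_ts_hyp Q hQ U hU m hUd
  obtain ⟨b, P1, P2, P3⟩ := qf_basis_of_hyp hm hV Q e f hH
  exact ⟨b.equivFun, qf_cl_plus Q b P1 P2 P3⟩

theorem evenPerm_inj (N : ℕ) (hN : 3 ≤ N) : Function.Injective (evenPerm N) := by
  classical
  have h2 : ∀ a : ZMod 2, a + a = 0 := by decide
  rw [injective_iff_map_eq_one]
  intro σ hσ
  by_contra hne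
  obtain ⟨i, hi⟩ : ∃ i, σ i ≠ i := by
    by_contra hcon
    push Not at hcon
    exact hne (Equiv.ext hcon)
  have hc2 : ({i, σ i} : Finset (Fin N)).card < (Finset.univ : Finset (Fin N)).card := by
    rw [Finset.card_univ, Fintype.card_fin]
    exact lt_of_le_of_lt Finset.card_le_two (by omega)
  obtain ⟨k, -, hk⟩ := Finset.exists_mem_notMem_of_card_lt_card hc2
  simp only [Finset.mem_insert, Finset.mem_singleton, not_or] at hk
  have hmem : (Pi.single i 1 + Pi.single k 1 : Fin N → ZMod 2) ∈ evenSub N := by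
    rw [mem_evenSub]
    simp only [Pi.add_apply, Finset.sum_add_distrib, Finset.sum_pi_single',
      Finset.mem_univ, if_true]
    exact h2 1
  have h1 : ((evenPerm N σ ⟨_, hmem⟩ : evenSub N) : Fin N → ZMod 2) (σ i)
      = (Pi.single i 1 + Pi.single k 1 : Fin N → ZMod 2) (σ i) := by
    rw [hσ]
    rfl
  rw [evenPerm_apply] at h1
  simp only [Pi.add_apply, Pi.single_apply] at h1
  have hs1 : σ⁻¹ (σ i) = i := by simp
  rw [hs1, if_pos rfl, if_neg (Ne.symm hk.1), if_neg hi, if_neg (Ne.symm hk.2)] at h1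
  have h10 : (1 : ZMod 2) + 0 ≠ 0 + 0 := by decide
  exact h10 h1

theorem even3_qf : ∃ Q₃ : QuadraticForm (ZMod 2) (evenSub 3),
    (QuadraticMap.polarBilin Q₃).Nondegenerate ∧
    (∀ (σ : Equiv.Perm (Fin 3)) v, Q₃ (evenPerm 3 σ v) = Q₃ v) := by
  classical
  obtain ⟨Q, hQq, hpolar, hinv, hcount⟩ := even_qf 3
  have h2 : ∀ a : ZMod 2, a + a = 0 := by decide
  have hL : ∀ v : evenSub 3, (∀ u, evenDot 3 u v = 0) → v = 0 := by
    intro v hv
    have hij : ∀ i j : Fin 3, (v : Fin 3 → ZMod 2) i = (v : Fin 3 → ZMod 2) j := by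
      intro i j
      by_cases hne : i = j
      · rw [hne]
      have hmem : (Pi.single i 1 + Pi.single j 1 : Fin 3 → ZMod 2) ∈ evenSub 3 := by
        rw [mem_evenSub]
        simp only [Pi.add_apply, Finset.sum_add_distrib, Finset.sum_pi_single',
          Finset.mem_univ, if_true]
        exact h2 1
      have := hv ⟨_, hmem⟩
      rw [evenDot_apply] at this
      simp only [Pi.add_apply, add_mul, Finset.sum_add_distrib, Pi.single_apply, ite_mul,
        one_mul, zero_mul, Finset.sum_ite_eq', Finset.mem_univ, if_true] at this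
      have h3 := h2 ((v : Fin 3 → ZMod 2) j)
      have h4 : (v : Fin 3 → ZMod 2) i = (v : Fin 3 → ZMod 2) i + ((v : Fin 3 → ZMod 2) j
          + (v : Fin 3 → ZMod 2) j) := by rw [h3, add_zero]
      rw [h4, ← add_assoc, this, zero_add]
    have hsum := (mem_evenSub 3 _).mp v.2
    have h0 : (v : Fin 3 → ZMod 2) 0 = 0 := by
      have : ∑ i, (v : Fin 3 → ZMod 2) i = ∑ _i : Fin 3, (v : Fin 3 → ZMod 2) 0 :=
        Finset.sum_congr rfl (fun i _ => hij i 0)
      rw [this, Finset.sum_const, Finset.card_univ, Fintype.card_fin] at hsum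
      have h5 : ∀ x : ZMod 2, 3 • x = 0 → x = 0 := by decide
      exact h5 _ hsum
    apply Subtype.ext
    funext i
    rw [hij i 0, h0]
    rfl
  refine ⟨Q, ⟨?_, ?_⟩, hinv⟩
  · intro u hu
    apply hL u
    intro w
    have := hu w
    rw [QuadraticMap.polarBilin_apply_apply, hpolar] at this
    rw [evenDot_apply] at this ⊢
    rw [← this]
    exact Finset.sum_congr rfl (fun i _ => mul_comm _ _)
  · intro v hv
    apply hL v
    intro u
    have := hv u
    rwa [QuadraticMap.polarBilin_apply_apply, hpolar] at this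

set_option maxHeartbeats 1600000 in
theorem o4_two_struct :
    ∃ (A B : Subgroup ↥(Cfsg.isometryGroup (ZMod 2) (Cfsg.quadFormPlus 2 (ZMod 2)))),
      Nonempty (↥A ≃* Equiv.Perm (Fin 3)) ∧ Nonempty (↥B ≃* Equiv.Perm (Fin 3)) ∧
      A ⊓ B = ⊥ ∧ (∀ a ∈ A, ∀ b ∈ B, a * b = b * a) ∧
      Nat.card ↥(A ⊔ B) = 36 ∧
      ∃ g : ↥(Cfsg.isometryGroup (ZMod 2) (Cfsg.quadFormPlus 2 (ZMod 2))),
        A.map (MulAut.conj g).toMonoidHom = B := by
  classical
  obtain ⟨Q₃, hnd₃, hinv₃⟩ := even3_qf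
  have h2 : ∀ a : ZMod 2, a + a = 0 := by decide
  have hfrW : Module.finrank (ZMod 2) (evenSub 3) = 2 := by
    rw [finrank_evenSub 3 (by norm_num)]
  obtain ⟨Qp, hQp⟩ : ∃ Qp : QuadraticForm (ZMod 2) (evenSub 3 × evenSub 3),
      Qp = Q₃.prod Q₃ := ⟨_, rfl⟩
  have hQpa : ∀ p : evenSub 3 × evenSub 3, Qp p = Q₃ p.1 + Q₃ p.2 := by
    intro p
    rw [hQp]
    rfl
  have hpol : ∀ x y : evenSub 3 × evenSub 3, QuadraticMap.polar ⇑Qp x y
      = QuadraticMap.polar ⇑Q₃ x.1 y.1 + QuadraticMap.polar ⇑Q₃ x.2 y.2 := by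
    intro x y
    rw [hQp]
    exact QuadraticMap.polar_prod Q₃ Q₃ x y
  have hLp : ∀ x : evenSub 3 × evenSub 3,
      (∀ y, QuadraticMap.polar ⇑Qp x y = 0) → x = 0 := by
    intro x hx
    apply Prod.ext
    · apply hnd₃.1
      intro u'
      have := hx (u', 0)
      rw [hpol] at this
      simpa [QuadraticMap.polar] using this
    · apply hnd₃.1
      intro u'
      have := hx (0, u')
      rw [hpol] at this
      simpa [QuadraticMap.polar] using this
  have hndp : (QuadraticMap.polarBilin Qp).Nondegenerate := by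
    constructor
    · intro x hx
      exact hLp x (fun y => by
        rw [← QuadraticMap.polarBilin_apply_apply]; exact hx y)
    · intro y hy
      exact hLp y (fun x => by
        rw [QuadraticMap.polar_comm, ← QuadraticMap.polarBilin_apply_apply]; exact hy x)
  have hfrV : Module.finrank (ZMod 2) (evenSub 3 × evenSub 3) = 2 * 2 := by
    rw [Module.finrank_prod, hfrW]
  obtain ⟨E, hE⟩ := plus_of_ts Qp hndp (m := 2) (by norm_num) hfrV
    (LinearMap.range (LinearMap.prod LinearMap.id LinearMap.id :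
      evenSub 3 →ₗ[ZMod 2] evenSub 3 × evenSub 3))
    (by
      rintro _ ⟨w, rfl⟩
      rw [hQpa]
      exact h2 _)
    (by
      rw [LinearMap.finrank_range_of_inj, hfrW]
      intro a b hab
      exact congrArg Prod.fst hab)
  -- the group of isometric units
  obtain ⟨H, hH⟩ : ∃ H : Subgroup ((evenSub 3 × evenSub 3) →ₗ[ZMod 2] (evenSub 3 × evenSub 3))ˣ,
      H = presUnits (fun p : evenSub 3 × evenSub 3 => Qp p) := ⟨_, rfl⟩
  obtain ⟨aE, haE⟩ : ∃ aE : Equiv.Perm (Fin 3) →*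
      ((evenSub 3 × evenSub 3) →ₗ[ZMod 2] (evenSub 3 × evenSub 3)),
      ∀ σ p, aE σ p = (evenPerm 3 σ p.1, p.2) :=
    ⟨(LinearMap.prodMapRingHom (ZMod 2) (evenSub 3) (evenSub 3)).toMonoidHom.comp
      ((evenPerm 3).prod 1), fun σ p => rfl⟩
  obtain ⟨bE, hbE⟩ : ∃ bE : Equiv.Perm (Fin 3) →*
      ((evenSub 3 × evenSub 3) →ₗ[ZMod 2] (evenSub 3 × evenSub 3)),
      ∀ σ p, bE σ p = (p.1, evenPerm 3 σ p.2) :=
    ⟨(LinearMap.prodMapRingHom (ZMod 2) (evenSub 3) (evenSub 3)).toMonoidHom.comp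
      ((1 : Equiv.Perm (Fin 3) →* (evenSub 3 →ₗ[ZMod 2] evenSub 3)).prod (evenPerm 3)),
      fun σ p => rfl⟩
  have haU : ∀ σ, aE.toHomUnits σ ∈ H := by
    intro σ
    rw [hH]
    intro p
    show Qp (aE σ p) = Qp p
    rw [haE, hQpa, hQpa, hinv₃]
  have hbU : ∀ σ, bE.toHomUnits σ ∈ H := by
    intro σ
    rw [hH]
    intro p
    show Qp (bE σ p) = Qp p
    rw [hbE, hQpa, hQpa, hinv₃]
  obtain ⟨aH, haH⟩ : ∃ aH : Equiv.Perm (Fin 3) →* H, ∀ σ p,
      (((aH σ : H) : ((evenSub 3 × evenSub 3) →ₗ[ZMod 2] (evenSub 3 × evenSub 3))ˣ) :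
        (evenSub 3 × evenSub 3) →ₗ[ZMod 2] (evenSub 3 × evenSub 3)) p
        = (evenPerm 3 σ p.1, p.2) :=
    ⟨aE.toHomUnits.codRestrict H haU, fun σ p => haE σ p⟩
  obtain ⟨bH, hbH⟩ : ∃ bH : Equiv.Perm (Fin 3) →* H, ∀ σ p,
      (((bH σ : H) : ((evenSub 3 × evenSub 3) →ₗ[ZMod 2] (evenSub 3 × evenSub 3))ˣ) :
        (evenSub 3 × evenSub 3) →ₗ[ZMod 2] (evenSub 3 × evenSub 3)) p
        = (p.1, evenPerm 3 σ p.2) :=
    ⟨bE.toHomUnits.codRestrict H hbU, fun σ p => hbE σ p⟩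
  obtain ⟨tE, htE⟩ : ∃ tE : (evenSub 3 × evenSub 3) →ₗ[ZMod 2] (evenSub 3 × evenSub 3),
      ∀ p, tE p = (p.2, p.1) :=
    ⟨(LinearEquiv.prodComm (ZMod 2) (evenSub 3) (evenSub 3)).toLinearMap, fun p => rfl⟩
  have htt : tE * tE = 1 := by
    apply LinearMap.ext
    intro p
    show tE (tE p) = p
    rw [htE, htE]
  have htU : (⟨tE, tE, htt, htt⟩ :
      ((evenSub 3 × evenSub 3) →ₗ[ZMod 2] (evenSub 3 × evenSub 3))ˣ) ∈ H := by
    rw [hH]
    intro p
    show Qp (tE p) = Qp p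
    rw [htE, hQpa, hQpa, add_comm]
  obtain ⟨tH, htH⟩ : ∃ tH : H, ∀ p,
      (((tH : H) : ((evenSub 3 × evenSub 3) →ₗ[ZMod 2] (evenSub 3 × evenSub 3))ˣ) :
        (evenSub 3 × evenSub 3) →ₗ[ZMod 2] (evenSub 3 × evenSub 3)) p = (p.2, p.1) :=
    ⟨⟨_, htU⟩, fun p => htE p⟩
  -- extensionality in H
  have hext : ∀ x y : H, (∀ p,
      (((x : H) : ((evenSub 3 × evenSub 3) →ₗ[ZMod 2] (evenSub 3 × evenSub 3))ˣ) :
        (evenSub 3 × evenSub 3) →ₗ[ZMod 2] (evenSub 3 × evenSub 3)) p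
      = (((y : H) : ((evenSub 3 × evenSub 3) →ₗ[ZMod 2] (evenSub 3 × evenSub 3))ˣ) :
        (evenSub 3 × evenSub 3) →ₗ[ZMod 2] (evenSub 3 × evenSub 3)) p) → x = y := by
    intro x y hxy
    apply Subtype.ext
    apply Units.ext
    exact LinearMap.ext hxy
  have hmulH : ∀ (x y : H) p,
      (((x * y : H) : ((evenSub 3 × evenSub 3) →ₗ[ZMod 2] (evenSub 3 × evenSub 3))ˣ) :
        (evenSub 3 × evenSub 3) →ₗ[ZMod 2] (evenSub 3 × evenSub 3)) p
      = (((x : H) : ((evenSub 3 × evenSub 3) →ₗ[ZMod 2] (evenSub 3 × evenSub 3))ˣ) :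
        (evenSub 3 × evenSub 3) →ₗ[ZMod 2] (evenSub 3 × evenSub 3))
        ((((y : H) : ((evenSub 3 × evenSub 3) →ₗ[ZMod 2] (evenSub 3 × evenSub 3))ˣ) :
        (evenSub 3 × evenSub 3) →ₗ[ZMod 2] (evenSub 3 × evenSub 3)) p) := fun x y p => rfl
  have hainj : Function.Injective aH := by
    intro σ σ' h
    apply evenPerm_inj 3 (by norm_num)
    apply LinearMap.ext
    intro u
    have h1 := haH σ (u, 0)
    rw [h, haH] at h1
    exact (congrArg Prod.fst h1).symm
  have hbinj : Function.Injective bH := by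
    intro σ σ' h
    apply evenPerm_inj 3 (by norm_num)
    apply LinearMap.ext
    intro u
    have h1 := hbH σ (0, u)
    rw [h, hbH] at h1
    exact (congrArg Prod.snd h1).symm
  have hcomm : ∀ σ σ', aH σ * bH σ' = bH σ' * aH σ := by
    intro σ σ'
    apply hext
    intro p
    simp only [hmulH, haH, hbH]
  have hdisj : ∀ σ σ', aH σ = bH σ' → σ = 1 := by
    intro σ σ' h
    apply evenPerm_inj 3 (by norm_num)
    rw [map_one]
    apply LinearMap.ext
    intro u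
    have h1 := haH σ (u, 0)
    rw [h, hbH] at h1
    exact (congrArg Prod.fst h1).symm
  have hconj : ∀ σ, tH * aH σ = bH σ * tH := by
    intro σ
    apply hext
    intro p
    simp only [hmulH, haH, htH, hbH]
  -- embed into the isometry group
  obtain ⟨φ, hφ⟩ := orth_embed (fun p : evenSub 3 × evenSub 3 => Qp p)
    (Cfsg.quadFormPlus 2 (ZMod 2)) E hE
    ((Units.coeHom ((evenSub 3 × evenSub 3) →ₗ[ZMod 2] (evenSub 3 × evenSub 3))).comp
      H.subtype)
    (by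
      intro x y hxy
      apply Subtype.ext
      apply Units.ext
      exact hxy)
    (by
      intro x p
      subst hH
      exact x.2 p)
  have hAinj : Function.Injective (φ.comp aH) := hφ.comp hainj
  have hBinj : Function.Injective (φ.comp bH) := hφ.comp hbinj
  have hcomm' : ∀ (σ σ' : Equiv.Perm (Fin 3)), Commute ((φ.comp aH) σ) ((φ.comp bH) σ') := by
    intro σ σ'
    show φ (aH σ) * φ (bH σ') = φ (bH σ') * φ (aH σ)
    rw [← map_mul, ← map_mul, hcomm]
  have hbot : (φ.comp aH).range ⊓ (φ.comp bH).range = ⊥ := by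
    rw [Subgroup.eq_bot_iff_forall]
    rintro x ⟨⟨σ, rfl⟩, ⟨σ', h⟩⟩
    have h1 : aH σ = bH σ' := hφ h.symm
    have h2 := hdisj σ σ' h1
    rw [h2, map_one]
  refine ⟨(φ.comp aH).range, (φ.comp bH).range,
    ⟨(MonoidHom.ofInjective hAinj).symm⟩, ⟨(MonoidHom.ofInjective hBinj).symm⟩, hbot, ?_, ?_,
    φ tH, ?_⟩
  · rintro _ ⟨σ, rfl⟩ _ ⟨σ', rfl⟩
    exact hcomm' σ σ'
  · rw [← MonoidHom.noncommCoprod_range (φ.comp aH) (φ.comp bH) hcomm']
    have hinj : Function.Injective (MonoidHom.noncommCoprod (φ.comp aH) (φ.comp bH) hcomm') := by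
      rw [MonoidHom.noncommCoprod_injective]
      exact ⟨hAinj, hBinj, disjoint_iff.mpr hbot⟩
    rw [← Nat.card_congr (MonoidHom.ofInjective hinj).toEquiv, Nat.card_prod, Nat.card_perm]
    simp [Nat.factorial]
  · ext x
    constructor
    · rintro ⟨_, ⟨σ, rfl⟩, rfl⟩
      refine ⟨σ, ?_⟩
      show φ (bH σ) = φ tH * φ (aH σ) * (φ tH)⁻¹
      rw [← map_mul, hconj, map_mul, mul_inv_cancel_right]
    · rintro ⟨σ, rfl⟩
      refine ⟨φ (aH σ), ⟨σ, rfl⟩, ?_⟩
      show φ tH * φ (aH σ) * (φ tH)⁻¹ = φ (bH σ)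
      rw [← map_mul, hconj, map_mul, mul_inv_cancel_right]

end Cfsg.Agent.Helper5
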