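import Mathlib
import Cfsg.Prelude.Def_Classical

set_option autoImplicit false

namespace Cfsg.Agent.Helper5

open Matrix

variable {F : Type*} [Field F]

/-- block diagonal element of the general linear group. -/
def blockGL {k l : ℕ} (A : Matrix.GeneralLinearGroup (Fin k) F)
    (B : Matrix.GeneralLinearGroup (Fin l) F) : Matrix.GeneralLinearGroup (Fin k ⊕ Fin l) F :=
  ⟨Matrix.fromBlocks (A : Matrix (Fin k) (Fin k) F) 0 0 (B : Matrix (Fin l) (Fin l) F),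
   Matrix.fromBlocks ((A⁻¹ : Matrix.GeneralLinearGroup (Fin k) F) : Matrix (Fin k) (Fin k) F) 0 0
     ((B⁻¹ : Matrix.GeneralLinearGroup (Fin l) F) : Matrix (Fin l) (Fin l) F),
   by
     rw [Matrix.fromBlocks_multiply]
     simp [← Units.val_mul, Matrix.fromBlocks_one],
   by
     rw [Matrix.fromBlocks_multiply]
     simp [← Units.val_mul, Matrix.fromBlocks_one]⟩

theorem blockGL_val {k l : ℕ} (A : Matrix.GeneralLinearGroup (Fin k) F)
    (B : Matrix.GeneralLinearGroup (Fin l) F) :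
    ((blockGL A B : Matrix.GeneralLinearGroup (Fin k ⊕ Fin l) F) :
      Matrix (Fin k ⊕ Fin l) (Fin k ⊕ Fin l) F) =
      Matrix.fromBlocks (A : Matrix (Fin k) (Fin k) F) 0 0 (B : Matrix (Fin l) (Fin l) F) := rfl

theorem blockGL_mul {k l : ℕ} (A A' : Matrix.GeneralLinearGroup (Fin k) F)
    (B B' : Matrix.GeneralLinearGroup (Fin l) F) :
    blockGL (A * A') (B * B') = blockGL A B * blockGL A' B' := by
  apply Units.ext
  rw [Units.val_mul, blockGL_val, blockGL_val, blockGL_val, Matrix.fromBlocks_multiply]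
  simp

theorem blockGL_one {k l : ℕ} :
    blockGL (1 : Matrix.GeneralLinearGroup (Fin k) F) (1 : Matrix.GeneralLinearGroup (Fin l) F)
      = 1 := by
  apply Units.ext
  rw [blockGL_val]
  simp [Matrix.fromBlocks_one]

theorem mem_isometryGroup {ι : Type} [Fintype ι] [DecidableEq ι] (Q : (ι → F) → F)
    (g : Matrix.GeneralLinearGroup ι F) :
    g ∈ Cfsg.isometryGroup F Q ↔ ∀ u : ι → F, Q ((g : Matrix ι ι F) *ᵥ u) = Q u := by
  constructor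
  · intro h u
    exact h u u
  · intro h u _
    exact h u

theorem blockGL_mem {k l : ℕ} (Q₁ : (Fin k → F) → F) (Q₂ : (Fin l → F) → F)
    (A : Matrix.GeneralLinearGroup (Fin k) F) (B : Matrix.GeneralLinearGroup (Fin l) F)
    (hA : A ∈ Cfsg.isometryGroup F Q₁) (hB : B ∈ Cfsg.isometryGroup F Q₂) :
    blockGL A B ∈ Cfsg.isometryGroup F
      (fun v : Fin k ⊕ Fin l → F => Q₁ (v ∘ Sum.inl) + Q₂ (v ∘ Sum.inr)) := by
  rw [mem_isometryGroup] at hA hB ⊢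
  intro u
  rw [blockGL_val, Matrix.fromBlocks_mulVec]
  have e1 : (Sum.elim ((A : Matrix (Fin k) (Fin k) F) *ᵥ (u ∘ Sum.inl) +
      (0 : Matrix (Fin k) (Fin l) F) *ᵥ (u ∘ Sum.inr))
      ((0 : Matrix (Fin l) (Fin k) F) *ᵥ (u ∘ Sum.inl) +
        (B : Matrix (Fin l) (Fin l) F) *ᵥ (u ∘ Sum.inr))) ∘ Sum.inl =
      (A : Matrix (Fin k) (Fin k) F) *ᵥ (u ∘ Sum.inl) := by
    ext i; simp
  have e2 : (Sum.elim ((A : Matrix (Fin k) (Fin k) F) *ᵥ (u ∘ Sum.inl) +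
      (0 : Matrix (Fin k) (Fin l) F) *ᵥ (u ∘ Sum.inr))
      ((0 : Matrix (Fin l) (Fin k) F) *ᵥ (u ∘ Sum.inl) +
        (B : Matrix (Fin l) (Fin l) F) *ᵥ (u ∘ Sum.inr))) ∘ Sum.inr =
      (B : Matrix (Fin l) (Fin l) F) *ᵥ (u ∘ Sum.inr) := by
    ext i; simp
  show Q₁ _ + Q₂ _ = Q₁ (u ∘ Sum.inl) + Q₂ (u ∘ Sum.inr)
  rw [e1, e2, hA, hB]

/-- the block diagonal homomorphism of isometry groups. -/
def blockHom {k l : ℕ} (Q₁ : (Fin k → F) → F) (Q₂ : (Fin l → F) → F) :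
    ↥(Cfsg.isometryGroup F Q₁) × ↥(Cfsg.isometryGroup F Q₂) →*
      ↥(Cfsg.isometryGroup F (fun v : Fin k ⊕ Fin l → F => Q₁ (v ∘ Sum.inl) + Q₂ (v ∘ Sum.inr)))
      where
  toFun x := ⟨blockGL (x.1 : Matrix.GeneralLinearGroup (Fin k) F)
    (x.2 : Matrix.GeneralLinearGroup (Fin l) F), blockGL_mem Q₁ Q₂ _ _ x.1.2 x.2.2⟩
  map_one' := Subtype.ext blockGL_one
  map_mul' x y := Subtype.ext (blockGL_mul _ _ _ _)

theorem omega_sum {k l : ℕ} (Q₁ : (Fin k → F) → F) (Q₂ : (Fin l → F) → F)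
    (g₁ : ↥(Cfsg.isometryGroup F Q₁)) (g₂ : ↥(Cfsg.isometryGroup F Q₂))
    (hg₁ : g₁ ∈ Cfsg.Omega F Q₁) (hg₂ : g₂ ∈ Cfsg.Omega F Q₂) :
    ∃ g : ↥(Cfsg.isometryGroup F
        (fun v : Fin k ⊕ Fin l → F => Q₁ (v ∘ Sum.inl) + Q₂ (v ∘ Sum.inr))),
      g ∈ Cfsg.Omega F (fun v : Fin k ⊕ Fin l → F => Q₁ (v ∘ Sum.inl) + Q₂ (v ∘ Sum.inr)) ∧
      ((g : Matrix.GeneralLinearGroup (Fin k ⊕ Fin l) F) :
        Matrix (Fin k ⊕ Fin l) (Fin k ⊕ Fin l) F) =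
        Matrix.fromBlocks ((g₁ : Matrix.GeneralLinearGroup (Fin k) F) : Matrix (Fin k) (Fin k) F)
          0 0 ((g₂ : Matrix.GeneralLinearGroup (Fin l) F) : Matrix (Fin l) (Fin l) F) := by
  refine ⟨blockHom Q₁ Q₂ (g₁, g₂), ?_, rfl⟩
  have hc : (g₁, g₂) ∈ commutator (↥(Cfsg.isometryGroup F Q₁) × ↥(Cfsg.isometryGroup F Q₂)) := by
    have h1 : (g₁, (1 : ↥(Cfsg.isometryGroup F Q₂))) ∈
        commutator (↥(Cfsg.isometryGroup F Q₁) × ↥(Cfsg.isometryGroup F Q₂)) := by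
      have := Subgroup.map_commutator (⊤ : Subgroup ↥(Cfsg.isometryGroup F Q₁)) ⊤
        (MonoidHom.inl ↥(Cfsg.isometryGroup F Q₁) ↥(Cfsg.isometryGroup F Q₂))
      have h2 : (MonoidHom.inl ↥(Cfsg.isometryGroup F Q₁) ↥(Cfsg.isometryGroup F Q₂)) g₁ ∈
          Subgroup.map (MonoidHom.inl ↥(Cfsg.isometryGroup F Q₁) ↥(Cfsg.isometryGroup F Q₂))
            ⁅(⊤ : Subgroup ↥(Cfsg.isometryGroup F Q₁)), ⊤⁆ :=
        ⟨g₁, by rw [← commutator_def]; exact hg₁, rfl⟩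
      rw [this] at h2
      rw [commutator_def]
      exact Subgroup.commutator_mono le_top le_top h2
    have h1' : ((1 : ↥(Cfsg.isometryGroup F Q₁)), g₂) ∈
        commutator (↥(Cfsg.isometryGroup F Q₁) × ↥(Cfsg.isometryGroup F Q₂)) := by
      have := Subgroup.map_commutator (⊤ : Subgroup ↥(Cfsg.isometryGroup F Q₂)) ⊤
        (MonoidHom.inr ↥(Cfsg.isometryGroup F Q₁) ↥(Cfsg.isometryGroup F Q₂))
      have h2 : (MonoidHom.inr ↥(Cfsg.isometryGroup F Q₁) ↥(Cfsg.isometryGroup F Q₂)) g₂ ∈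
          Subgroup.map (MonoidHom.inr ↥(Cfsg.isometryGroup F Q₁) ↥(Cfsg.isometryGroup F Q₂))
            ⁅(⊤ : Subgroup ↥(Cfsg.isometryGroup F Q₂)), ⊤⁆ :=
        ⟨g₂, by rw [← commutator_def]; exact hg₂, rfl⟩
      rw [this] at h2
      rw [commutator_def]
      exact Subgroup.commutator_mono le_top le_top h2
    have e : (g₁, g₂) = (g₁, (1 : ↥(Cfsg.isometryGroup F Q₂))) *
        ((1 : ↥(Cfsg.isometryGroup F Q₁)), g₂) := by
      ext <;> simp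
    rw [e]
    exact Subgroup.mul_mem _ h1 h1'
  have h3 := Subgroup.map_commutator
    (⊤ : Subgroup (↥(Cfsg.isometryGroup F Q₁) × ↥(Cfsg.isometryGroup F Q₂))) ⊤ (blockHom Q₁ Q₂)
  have h4 : blockHom Q₁ Q₂ (g₁, g₂) ∈ Subgroup.map (blockHom Q₁ Q₂)
      ⁅(⊤ : Subgroup (↥(Cfsg.isometryGroup F Q₁) × ↥(Cfsg.isometryGroup F Q₂))), ⊤⁆ :=
    ⟨(g₁, g₂), by rw [← commutator_def]; exact hc, rfl⟩
  rw [h3] at h4
  show blockHom Q₁ Q₂ (g₁, g₂) ∈ commutator _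
  rw [commutator_def]
  exact Subgroup.commutator_mono le_top le_top h4

end Cfsg.Agent.Helper5
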