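import Mathlib

namespace Cfsg.Agent.Helper5

open Matrix

theorem fixfield_card {F : Type*} [Field F] [Fintype F] {q₀ r : ℕ} (hr : r.Prime)
    (hF : Fintype.card F = q₀ ^ r) (σ : F ≃+* F) (hσ : orderOf σ = r) :
    Nat.card {x : F // σ x = x} = q₀ := by
  classical
  obtain ⟨G, hG⟩ : ∃ G : Subgroup (F ≃+* F), G = Subgroup.zpowers σ := ⟨_, rfl⟩
  haveI : Finite (F ≃+* F) := Finite.of_injective (fun e : F ≃+* F => (e : F → F))
    (fun a b h => RingEquiv.ext (congrFun h))
  haveI : Fintype G := Fintype.ofFinite _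
  haveI : FaithfulSMul G F := ⟨fun {a b} h => Subtype.ext (RingEquiv.ext h)⟩
  have hcardG : Fintype.card G = r := by
    rw [← Nat.card_eq_fintype_card, hG, Nat.card_zpowers, hσ]
  have h1 : Module.finrank (FixedPoints.subfield G F) F = r := by
    rw [FixedPoints.finrank_eq_card, hcardG]
  have hmem : ∀ x : F, x ∈ FixedPoints.subfield G F ↔ σ x = x := by
    intro x
    constructor
    · intro h
      exact h ⟨σ, by rw [hG]; exact Subgroup.mem_zpowers σ⟩
    · intro h g
      have h2 : Subgroup.zpowers σ ≤ MulAction.stabilizer (F ≃+* F) x := by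
        rw [Subgroup.zpowers_le, MulAction.mem_stabilizer_iff]
        exact h
      have h3 := h2 (hG.le g.2)
      rw [MulAction.mem_stabilizer_iff] at h3
      exact h3
  haveI : Fintype (FixedPoints.subfield G F) := Fintype.ofFinite _
  have h2 : Fintype.card F = Fintype.card (FixedPoints.subfield G F) ^ r := by
    rw [← h1]
    exact Module.card_eq_pow_finrank
  have h3 : Fintype.card (FixedPoints.subfield G F) = q₀ := by
    rw [hF] at h2
    exact (Nat.pow_left_injective hr.ne_zero h2).symm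
  rw [← h3, ← Nat.card_eq_fintype_card]
  exact Nat.card_congr (Equiv.subtypeEquivRight (fun x => (hmem x).symm))

theorem pgl_field_fix {F : Type*} [Field F] [Fintype F] {q₀ r n : ℕ} (hr : r.Prime) (hn : 1 ≤ n)
    (hF : Fintype.card F = q₀ ^ r) (σ : F ≃+* F) (hσ : orderOf σ = r) :
    Nat.card {g : GL (Fin n) F // ∃ c : F, c ≠ 0 ∧
      (g : Matrix (Fin n) (Fin n) F).map σ = c • (g : Matrix (Fin n) (Fin n) F)}
      = (q₀ ^ r - 1) / (q₀ - 1) * ∏ i : Fin n, (q₀ ^ n - q₀ ^ (i : ℕ)) := by
  classical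
  obtain ⟨F₀, hF₀⟩ : ∃ F₀ : Subfield F, ∀ x, x ∈ F₀ ↔ σ x = x :=
    ⟨RingHom.eqLocusField (σ : F →+* F) (RingHom.id F), fun x => Iff.rfl⟩
  haveI : Fintype F₀ := Fintype.ofFinite _
  have hcard₀ : Fintype.card F₀ = q₀ := by
    rw [← fixfield_card hr hF σ hσ, ← Nat.card_eq_fintype_card]
    exact Nat.card_congr (Equiv.subtypeEquivRight (fun x => hF₀ x))
  have hq₀ : 2 ≤ q₀ := by
    rw [← hcard₀]
    exact Fintype.one_lt_card
  obtain ⟨ι, hι⟩ : ∃ ι : GL (Fin n) F₀ →* GL (Fin n) F,
      ∀ g i j, (ι g : Matrix (Fin n) (Fin n) F) i j = ((g : Matrix (Fin n) (Fin n) F₀) i j : F) :=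
    ⟨Matrix.GeneralLinearGroup.map F₀.subtype,
      fun g i j => Matrix.GeneralLinearGroup.map_apply F₀.subtype i j g⟩
  have hιinj : Function.Injective ι := by
    intro a b hab
    apply Units.ext
    apply Matrix.ext
    intro i j
    apply Subtype.ext
    rw [← hι, ← hι, hab]
  obtain ⟨f, hf⟩ : ∃ f : Fˣ × GL (Fin n) F₀ →* GL (Fin n) F,
      ∀ μ g, f (μ, g) = Matrix.GeneralLinearGroup.scalar (Fin n) μ * ι g :=
    ⟨MonoidHom.noncommCoprod (Matrix.GeneralLinearGroup.scalar (Fin n)) ι
      (fun m g => Matrix.GeneralLinearGroup.scalar_commute m (ι g)), fun μ g => rfl⟩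
  have hfe : ∀ μ g i j, (f (μ, g) : Matrix (Fin n) (Fin n) F) i j
      = (μ : F) * ((g : Matrix (Fin n) (Fin n) F₀) i j : F) := by
    intro μ g i j
    rw [hf, Units.val_mul, Matrix.GeneralLinearGroup.coe_scalar, Matrix.scalar_apply,
      ← Matrix.smul_eq_diagonal_mul, Matrix.smul_apply, hι, smul_eq_mul]
  -- range of f
  have hrange : ∀ g : GL (Fin n) F, g ∈ f.range ↔ ∃ c : F, c ≠ 0 ∧
      (g : Matrix (Fin n) (Fin n) F).map σ = c • (g : Matrix (Fin n) (Fin n) F) := by
    intro g
    constructor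
    · rintro ⟨⟨μ, g₀⟩, rfl⟩
      refine ⟨σ μ / μ, div_ne_zero ((map_ne_zero σ).mpr μ.ne_zero) μ.ne_zero, ?_⟩
      apply Matrix.ext
      intro i j
      rw [Matrix.map_apply, Matrix.smul_apply, hfe, map_mul, smul_eq_mul,
        (hF₀ _).mp ((g₀ : Matrix (Fin n) (Fin n) F₀) i j).2]
      field_simp
    · rintro ⟨c, hc, hg⟩
      have hg0 : (g : Matrix (Fin n) (Fin n) F) ≠ 0 := by
        intro h0
        haveI : Nonempty (Fin n) := ⟨⟨0, hn⟩⟩
        have h1 := congrArg Matrix.det h0
        rw [Matrix.det_zero] at h1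
        exact (Matrix.isUnits_det_units g).ne_zero h1
      obtain ⟨i₀, j₀, ha⟩ : ∃ i j, (g : Matrix (Fin n) (Fin n) F) i j ≠ 0 := by
        by_contra hcon
        push Not at hcon
        exact hg0 (Matrix.ext hcon)
      obtain ⟨a, haa⟩ : ∃ a : F, a = (g : Matrix (Fin n) (Fin n) F) i₀ j₀ := ⟨_, rfl⟩
      rw [← haa] at ha
      have hσa : σ a = c * a := by
        have := congrFun (congrFun hg i₀) j₀
        rw [Matrix.map_apply, Matrix.smul_apply, smul_eq_mul, ← haa] at this
        exact this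
      have hfix : ∀ i j, a⁻¹ * (g : Matrix (Fin n) (Fin n) F) i j ∈ F₀ := by
        intro i j
        rw [hF₀, map_mul, map_inv₀, hσa]
        have := congrFun (congrFun hg i) j
        rw [Matrix.map_apply, Matrix.smul_apply, smul_eq_mul] at this
        rw [this]
        field_simp
      obtain ⟨M₀, hM₀⟩ : ∃ M₀ : Matrix (Fin n) (Fin n) F₀,
          ∀ i j, (M₀ i j : F) = a⁻¹ * (g : Matrix (Fin n) (Fin n) F) i j :=
        ⟨fun i j => ⟨_, hfix i j⟩, fun i j => rfl⟩
      have hmap : F₀.subtype.mapMatrix M₀ = a⁻¹ • (g : Matrix (Fin n) (Fin n) F) := by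
        apply Matrix.ext
        intro i j
        rw [RingHom.mapMatrix_apply, Matrix.map_apply, Matrix.smul_apply, smul_eq_mul]
        exact hM₀ i j
      have hdet : M₀.det ≠ 0 := by
        intro h0
        have h1 := congrArg F₀.subtype h0
        rw [RingHom.map_det, hmap, Matrix.det_smul, map_zero] at h1
        rcases mul_eq_zero.mp h1 with h2 | h2
        · exact inv_ne_zero ha (pow_eq_zero_iff (by simp; omega) |>.mp h2)
        · exact (Matrix.isUnits_det_units g).ne_zero h2
      refine ⟨(Units.mk0 a ha, Matrix.GeneralLinearGroup.mkOfDetNeZero M₀ hdet), ?_⟩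
      apply Units.ext
      apply Matrix.ext
      intro i j
      rw [hfe]
      show a * (M₀ i j : F) = _
      rw [hM₀]
      field_simp
  -- kernel of f
  obtain ⟨k, hk⟩ : ∃ k : F₀ˣ →* Fˣ × GL (Fin n) F₀, ∀ t, k t = (Units.map F₀.subtype t,
      Matrix.GeneralLinearGroup.scalar (Fin n) t⁻¹) :=
    ⟨MonoidHom.prod (Units.map (F₀.subtype : F₀ →* F))
      ((Matrix.GeneralLinearGroup.scalar (Fin n)).comp
        (MonoidHom.id F₀ˣ)⁻¹), fun t => rfl⟩
  have hkinj : Function.Injective k := by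
    intro s t hst
    rw [hk, hk] at hst
    have h1 := congrArg Prod.fst hst
    apply Units.ext
    apply Subtype.ext
    exact congrArg Units.val h1
  have hkrange : k.range = f.ker := by
    ext ⟨μ, g₀⟩
    constructor
    · rintro ⟨t, ht⟩
      rw [hk] at ht
      rw [MonoidHom.mem_ker, ← ht, hf]
      apply Units.ext
      apply Matrix.ext
      intro i j
      rw [← hf, hfe, Matrix.GeneralLinearGroup.coe_scalar, Matrix.scalar_apply,
        Matrix.diagonal_apply]
      by_cases hij : i = j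
      · subst hij
        simp
      · simp [hij]
    · intro hmem
      rw [MonoidHom.mem_ker] at hmem
      have hent : ∀ i j, (μ : F) * ((g₀ : Matrix (Fin n) (Fin n) F₀) i j : F)
          = if i = j then 1 else 0 := by
        intro i j
        rw [← hfe, hmem]
        simp [Matrix.one_apply]
      have hμ : (μ : F) ∈ F₀ := by
        have h1 := hent ⟨0, hn⟩ ⟨0, hn⟩
        rw [if_pos rfl] at h1
        have h2 : (μ : F) = (((g₀ : Matrix (Fin n) (Fin n) F₀) ⟨0, hn⟩ ⟨0, hn⟩ : F))⁻¹ :=
          eq_inv_of_mul_eq_one_left h1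
        rw [h2]
        exact F₀.inv_mem (Subtype.mem _)
      have hμ0 : (⟨(μ : F), hμ⟩ : F₀) ≠ 0 := by
        intro h0
        exact μ.ne_zero (congrArg Subtype.val h0)
      refine ⟨Units.mk0 ⟨(μ : F), hμ⟩ hμ0, ?_⟩
      rw [hk]
      apply Prod.ext
      · apply Units.ext
        rfl
      · apply Units.ext
        apply Matrix.ext
        intro i j
        apply Subtype.ext
        have h1 := hent i j
        rw [Matrix.GeneralLinearGroup.coe_scalar, Matrix.scalar_apply, Matrix.diagonal_apply]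
        by_cases hij : i = j
        · subst hij
          rw [if_pos rfl] at h1 ⊢
          have h2 : ((g₀ : Matrix (Fin n) (Fin n) F₀) i i : F) = (μ : F)⁻¹ :=
            eq_inv_of_mul_eq_one_right h1
          rw [h2]
          simp
        · rw [if_neg hij] at h1 ⊢
          rcases mul_eq_zero.mp h1 with h2 | h2
          · exact absurd h2 μ.ne_zero
          · rw [h2]
            rfl
  -- counting
  have hc1 : Nat.card f.ker = q₀ - 1 := by
    rw [← hkrange]
    have : Nat.card k.range = Nat.card F₀ˣ := Nat.card_range_of_injective hkinj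
    rw [this, Nat.card_units, Nat.card_eq_fintype_card, hcard₀]
  have hc2 : Nat.card f.range = Nat.card {g : GL (Fin n) F // ∃ c : F, c ≠ 0 ∧
      (g : Matrix (Fin n) (Fin n) F).map σ = c • (g : Matrix (Fin n) (Fin n) F)} :=
    Nat.card_congr (Equiv.subtypeEquivRight hrange)
  have hc3 : Nat.card (Fˣ × GL (Fin n) F₀)
      = (q₀ ^ r - 1) * ∏ i : Fin n, (q₀ ^ n - q₀ ^ (i : ℕ)) := by
    rw [Nat.card_prod, Nat.card_units, Nat.card_eq_fintype_card, hF, Matrix.card_GL_field, hcard₀]
  have hc4 := Subgroup.card_mul_index f.ker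
  rw [Subgroup.index_ker, hc1, hc2, hc3] at hc4
  rw [← hc2] at hc4 ⊢
  obtain ⟨e, he⟩ : q₀ - 1 ∣ q₀ ^ r - 1 := by
    have := Nat.sub_dvd_pow_sub_pow (x := q₀) (y := 1) (n := r)
    rwa [one_pow] at this
  rw [he, Nat.mul_div_cancel_left e (by omega)]
  rw [he, mul_assoc] at hc4
  exact Nat.eq_of_mul_eq_mul_left (by omega) hc4

end Cfsg.Agent.Helper5
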