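import Mathlib
import Cfsg.Prelude.Def_Classical
import Cfsg.Prelude.Def_LieClassical
import Cfsg.Agent.Helper5.PglFix
import Cfsg.Agent.Helper7.UnitCard

namespace Cfsg.Agent.Helper5

open Matrix

theorem herm_expand {F : Type*} [Field F] {q n : ℕ} (τ : F →+* F) (hτ : ∀ x, τ x = x ^ q)
    (g : Matrix (Fin n) (Fin n) F) (u v : Fin n → F) :
    Cfsg.hermForm n F q (g *ᵥ u) (g *ᵥ v)
      = ∑ i, ∑ j, u i * τ (v j) * ∑ k, g k i * τ (g k j) := by
  classical
  show ∑ k, (∑ i, g k i * u i) * (∑ j, g k j * v j) ^ q = _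
  have h1 : ∀ k, (∑ i, g k i * u i) * (∑ j, g k j * v j) ^ q
      = ∑ i, ∑ j, u i * τ (v j) * (g k i * τ (g k j)) := by
    intro k
    rw [← hτ, map_sum, Finset.sum_mul_sum]
    apply Finset.sum_congr rfl
    intro i _
    apply Finset.sum_congr rfl
    intro j _
    rw [map_mul]
    ring
  rw [Finset.sum_congr rfl (fun k _ => h1 k), Finset.sum_comm]
  apply Finset.sum_congr rfl
  intro i _
  rw [Finset.sum_comm]
  apply Finset.sum_congr rfl
  intro j _
  rw [Finset.mul_sum]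

theorem gu_mem_iff {F : Type*} [Field F] {q n : ℕ} (τ : F →+* F) (hτ : ∀ x, τ x = x ^ q)
    (g : GL (Fin n) F) :
    g ∈ Cfsg.GU n F q ↔ ∀ i j, ∑ k, (g : Matrix (Fin n) (Fin n) F) k i *
      τ ((g : Matrix (Fin n) (Fin n) F) k j) = if i = j then 1 else 0 := by
  classical
  have hmem : g ∈ Cfsg.GU n F q ↔ ∀ u v, Cfsg.hermForm n F q
      ((g : Matrix (Fin n) (Fin n) F) *ᵥ u) ((g : Matrix (Fin n) (Fin n) F) *ᵥ v)
      = Cfsg.hermForm n F q u v := Iff.rfl
  rw [hmem]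
  constructor
  · intro h i j
    have h1 := h (Pi.single i 1) (Pi.single j 1)
    rw [herm_expand τ hτ] at h1
    have e1 : ∑ i', ∑ j', (Pi.single i (1 : F) : Fin n → F) i' *
        τ ((Pi.single j (1 : F) : Fin n → F) j') *
        ∑ k, (g : Matrix (Fin n) (Fin n) F) k i' * τ ((g : Matrix (Fin n) (Fin n) F) k j')
        = ∑ k, (g : Matrix (Fin n) (Fin n) F) k i * τ ((g : Matrix (Fin n) (Fin n) F) k j) := by
      rw [Finset.sum_eq_single i, Finset.sum_eq_single j]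
      · simp
      · intro b _ hb
        simp [Pi.single_apply, hb]
      · simp
      · intro b _ hb
        apply Finset.sum_eq_zero
        intro j' _
        simp [Pi.single_apply, hb]
      · simp
    have e2 : Cfsg.hermForm n F q (Pi.single i 1) (Pi.single j 1)
        = if i = j then 1 else 0 := by
      show ∑ k, (Pi.single i (1 : F) : Fin n → F) k * ((Pi.single j (1 : F) : Fin n → F) k) ^ q = _
      rw [Finset.sum_eq_single i]
      · by_cases hij : i = j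
        · subst hij
          simp
        · have hq0 : q ≠ 0 := by
            rintro rfl
            have := hτ 0
            simp at this
          simp [Pi.single_apply, hij, hq0]
      · intro b _ hb
        simp [Pi.single_apply, hb]
      · simp
    rw [e1, e2] at h1
    exact h1
  · intro h u v
    rw [herm_expand τ hτ]
    show _ = ∑ i, u i * (v i) ^ q
    apply Finset.sum_congr rfl
    intro i _
    rw [Finset.sum_eq_single i]
    · rw [h, if_pos rfl, mul_one, hτ]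
    · intro b _ hb
      rw [h, if_neg (Ne.symm hb), mul_zero]
    · simp

theorem gu_scalar_iff {F : Type*} [Field F] {q n : ℕ} (hn : 1 ≤ n) (μ : Fˣ) :
    Matrix.GeneralLinearGroup.scalar (Fin n) μ ∈ Cfsg.GU n F q ↔ (μ : F) ^ (q + 1) = 1 := by
  classical
  have hmem : Matrix.GeneralLinearGroup.scalar (Fin n) μ ∈ Cfsg.GU n F q ↔
      ∀ u v, Cfsg.hermForm n F q
      ((Matrix.GeneralLinearGroup.scalar (Fin n) μ : Matrix (Fin n) (Fin n) F) *ᵥ u)
      ((Matrix.GeneralLinearGroup.scalar (Fin n) μ : Matrix (Fin n) (Fin n) F) *ᵥ v)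
      = Cfsg.hermForm n F q u v := Iff.rfl
  have hsc : ∀ u v : Fin n → F, Cfsg.hermForm n F q
      ((Matrix.GeneralLinearGroup.scalar (Fin n) μ : Matrix (Fin n) (Fin n) F) *ᵥ u)
      ((Matrix.GeneralLinearGroup.scalar (Fin n) μ : Matrix (Fin n) (Fin n) F) *ᵥ v)
      = (μ : F) ^ (q + 1) * Cfsg.hermForm n F q u v := by
    intro u v
    show ∑ i, _ * _ ^ q = _ * ∑ i, u i * (v i) ^ q
    rw [Finset.mul_sum]
    apply Finset.sum_congr rfl
    intro i _
    rw [Matrix.GeneralLinearGroup.coe_scalar, Matrix.scalar_apply, Matrix.mulVec_diagonal,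
      Matrix.mulVec_diagonal]
    ring
  rw [hmem]
  constructor
  · intro h
    have h1 := h (Pi.single ⟨0, hn⟩ 1) (Pi.single ⟨0, hn⟩ 1)
    rw [hsc] at h1
    have e2 : Cfsg.hermForm n F q (Pi.single (⟨0, hn⟩ : Fin n) 1) (Pi.single (⟨0, hn⟩ : Fin n) 1)
        = 1 := by
      show ∑ k, (Pi.single (⟨0, hn⟩ : Fin n) (1 : F) : Fin n → F) k *
        ((Pi.single (⟨0, hn⟩ : Fin n) (1 : F) : Fin n → F) k) ^ q = _
      rw [Finset.sum_eq_single (⟨0, hn⟩ : Fin n)]
      · simp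
      · intro b _ hb
        simp [Pi.single_apply, hb]
      · simp
    rw [e2, mul_one] at h1
    exact h1
  · intro h u v
    rw [hsc, h, one_mul]

theorem pow_q_fix {K : Type*} [Field K] {q₀ r : ℕ} (hodd : Odd r) (K₀ : Subfield K)
    [Fintype K₀] (hc : Fintype.card K₀ = q₀ ^ 2) (x : K₀) :
    (x : K) ^ (q₀ ^ r) = ((x ^ q₀ : K₀) : K) := by
  have h1 : x ^ (q₀ ^ 2) = x := by
    rw [← hc]
    exact FiniteField.pow_card x
  have h2 : ∀ s : ℕ, x ^ ((q₀ ^ 2) ^ s) = x := by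
    intro s
    induction s with
    | zero => simp
    | succ s ih => rw [pow_succ, pow_mul, ih, h1]
  obtain ⟨s, hs⟩ := hodd
  have h3 : x ^ (q₀ ^ r) = x ^ q₀ := by
    rw [hs, pow_succ, pow_mul, pow_mul, h2]
  rw [← h3]
  rfl

theorem gcd_sq_sub_one (q : ℕ) (hq : 1 ≤ q) : Nat.gcd (q ^ 2 - 1) (q + 1) = q + 1 := by
  apply Nat.gcd_eq_right
  obtain ⟨t, rfl⟩ : ∃ t, q = t + 1 := ⟨q - 1, by omega⟩
  refine ⟨t, ?_⟩
  have : (t + 1) ^ 2 = (t + 1 + 1) * t + 1 := by ring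
  omega

theorem unit_pow_ker_card {K : Type*} [Field K] [Fintype K] {q : ℕ}
    (hK : Fintype.card K = q ^ 2) (hq : 1 ≤ q) :
    Nat.card (powMonoidHom (q + 1) : Kˣ →* Kˣ).ker = q + 1 := by
  classical
  rw [IsCyclic.card_powMonoidHom_ker, Nat.card_units, Nat.card_eq_fintype_card, hK,
    gcd_sq_sub_one q hq]

theorem norm_surj_units {K : Type*} [Field K] [Fintype K] {q : ℕ}
    (hK : Fintype.card K = q ^ 2) (hq : 2 ≤ q) (x : K) (hx0 : x ≠ 0) (hx : x ^ q = x) :
    ∃ ν : K, ν ^ (q + 1) = x := by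
  classical
  obtain ⟨ζ, hζ⟩ := IsCyclic.exists_monoid_generator (α := Kˣ)
  obtain ⟨k, hk⟩ := (Submonoid.mem_powers_iff _ _).mp (hζ (Units.mk0 x hx0))
  have hord : orderOf ζ = q ^ 2 - 1 := by
    rw [orderOf_eq_card_of_forall_mem_zpowers
      (fun y => Submonoid.powers_le_zpowers ζ (hζ y)), Nat.card_units, Nat.card_eq_fintype_card,
      hK]
  have h1 : ζ ^ (k * (q - 1)) = 1 := by
    rw [pow_mul, hk]
    apply Units.ext
    rw [Units.val_pow_eq_pow_val, Units.val_mk0, Units.val_one]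
    have : x * x ^ (q - 1) = x * 1 := by
      rw [← pow_succ', Nat.sub_add_cancel (by omega), hx, mul_one]
    exact mul_left_cancel₀ hx0 this
  have h2 : q ^ 2 - 1 ∣ k * (q - 1) := hord ▸ orderOf_dvd_of_pow_eq_one h1
  have h3 : q ^ 2 - 1 = (q + 1) * (q - 1) := by
    obtain ⟨t, rfl⟩ : ∃ t, q = t + 1 := ⟨q - 1, by omega⟩
    have : (t + 1) ^ 2 = (t + 1 + 1) * t + 1 := by ring
    simp only [Nat.add_sub_cancel]
    omega
  rw [h3] at h2
  obtain ⟨j, hj⟩ : q + 1 ∣ k := Nat.dvd_of_mul_dvd_mul_right (by omega) h2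
  refine ⟨((ζ ^ j : Kˣ) : K), ?_⟩
  rw [← Units.val_pow_eq_pow_val, ← pow_mul, mul_comm, ← hj, hk, Units.val_mk0]

theorem pgu_field_fix {K : Type*} [Field K] [Fintype K] {q₀ q r n : ℕ} (hr : r.Prime)
    (hr2 : r ≠ 2) (hn : 1 ≤ n) (hq : q = q₀ ^ r) (hK : Fintype.card K = q ^ 2) (σ : K ≃+* K)
    (hσ : orderOf σ = r) :
    (Nat.card {g : ↥(Cfsg.GU n K q) // ∃ c : K, c ≠ 0 ∧
      ((g : GL (Fin n) K) : Matrix (Fin n) (Fin n) K).map σ
        = c • ((g : GL (Fin n) K) : Matrix (Fin n) (Fin n) K)} : ℤ)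
      = ((q + 1) / (q₀ + 1) : ℕ) * ((q₀ : ℤ) ^ (n * (n - 1) / 2) *
        ∏ i : Fin n, ((q₀ : ℤ) ^ ((i : ℕ) + 1) - (-1) ^ ((i : ℕ) + 1))) := by
  classical
  have hodd : Odd r := hr.odd_of_ne_two hr2
  have hK' : Fintype.card K = (q₀ ^ 2) ^ r := by
    rw [hK, hq, ← pow_mul, ← pow_mul, mul_comm]
  obtain ⟨K₀, hK₀⟩ : ∃ K₀ : Subfield K, ∀ x, x ∈ K₀ ↔ σ x = x :=
    ⟨RingHom.eqLocusField (σ : K →+* K) (RingHom.id K), fun x => Iff.rfl⟩
  haveI : Fintype K₀ := Fintype.ofFinite _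
  have hcard₀ : Fintype.card K₀ = q₀ ^ 2 := by
    rw [← fixfield_card hr hK' σ hσ, ← Nat.card_eq_fintype_card]
    exact Nat.card_congr (Equiv.subtypeEquivRight (fun x => hK₀ x))
  have hq₀ : 2 ≤ q₀ := by
    have h1 : 1 < Fintype.card K₀ := Fintype.one_lt_card
    rw [hcard₀] at h1
    by_contra hlt
    push Not at hlt
    have h2 : q₀ ^ 2 ≤ 1 ^ 2 := Nat.pow_le_pow_left (by omega) 2
    omega
  have hq2 : 2 ≤ q := by
    rw [hq]
    exact le_trans hq₀ (Nat.le_self_pow hr.ne_zero q₀)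
  obtain ⟨τ, hτ, -⟩ := Cfsg.Agent.S0281.exists_sigma hK
  obtain ⟨τ₀, hτ₀, -⟩ := Cfsg.Agent.S0281.exists_sigma hcard₀
  have hA : ∀ x : K₀, (x : K) ^ q = ((x ^ q₀ : K₀) : K) := by
    intro x
    rw [hq]
    exact pow_q_fix hodd K₀ hcard₀ x
  have hA' : ∀ x : K₀, (x : K) ^ (q + 1) = ((x ^ (q₀ + 1) : K₀) : K) := by
    intro x
    rw [pow_succ, hA, pow_succ]
    rfl
  obtain ⟨ι, hι⟩ : ∃ ι : GL (Fin n) K₀ →* GL (Fin n) K,
      ∀ g i j, (ι g : Matrix (Fin n) (Fin n) K) i j = ((g : Matrix (Fin n) (Fin n) K₀) i j : K) :=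
    ⟨Matrix.GeneralLinearGroup.map K₀.subtype,
      fun g i j => Matrix.GeneralLinearGroup.map_apply K₀.subtype i j g⟩
  have hιinj : Function.Injective ι := by
    intro a b hab
    apply Units.ext
    apply Matrix.ext
    intro i j
    apply Subtype.ext
    rw [← hι, ← hι, hab]
  have hιGU : ∀ g₀ : GL (Fin n) K₀, ι g₀ ∈ Cfsg.GU n K q ↔ g₀ ∈ Cfsg.GU n K₀ q₀ := by
    intro g₀
    rw [gu_mem_iff τ hτ, gu_mem_iff τ₀ hτ₀]
    have key : ∀ i j, ∑ k, (ι g₀ : Matrix (Fin n) (Fin n) K) k i *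
        τ ((ι g₀ : Matrix (Fin n) (Fin n) K) k j)
        = ((∑ k, (g₀ : Matrix (Fin n) (Fin n) K₀) k i *
          τ₀ ((g₀ : Matrix (Fin n) (Fin n) K₀) k j) : K₀) : K) := by
      intro i j
      show _ = K₀.subtype _
      rw [map_sum]
      apply Finset.sum_congr rfl
      intro k _
      rw [map_mul, hι, hι, hτ, hA, hτ₀]
      rfl
    constructor
    · intro h i j
      have h1 := h i j
      rw [key] at h1
      apply Subtype.ext
      rw [h1]
      split_ifs <;> simp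
    · intro h i j
      rw [key, h]
      split_ifs <;> simp
  obtain ⟨f, hf⟩ : ∃ f : Kˣ × GL (Fin n) K₀ →* GL (Fin n) K,
      ∀ μ g, f (μ, g) = Matrix.GeneralLinearGroup.scalar (Fin n) μ * ι g :=
    ⟨MonoidHom.noncommCoprod (Matrix.GeneralLinearGroup.scalar (Fin n)) ι
      (fun m g => Matrix.GeneralLinearGroup.scalar_commute m (ι g)), fun μ g => rfl⟩
  have hsce : ∀ (μ : Kˣ) (g : GL (Fin n) K) i j,
      ((Matrix.GeneralLinearGroup.scalar (Fin n) μ * g : GL (Fin n) K) :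
        Matrix (Fin n) (Fin n) K) i j = (μ : K) * (g : Matrix (Fin n) (Fin n) K) i j := by
    intro μ g i j
    rw [Units.val_mul, Matrix.GeneralLinearGroup.coe_scalar, Matrix.scalar_apply,
      ← Matrix.smul_eq_diagonal_mul, Matrix.smul_apply, smul_eq_mul]
  have hfe : ∀ μ g i j, (f (μ, g) : Matrix (Fin n) (Fin n) K) i j
      = (μ : K) * ((g : Matrix (Fin n) (Fin n) K₀) i j : K) := by
    intro μ g i j
    rw [hf, hsce, hι]
  obtain ⟨k, hk⟩ : ∃ k : K₀ˣ →* Kˣ × GL (Fin n) K₀, ∀ t, k t = (Units.map K₀.subtype t,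
      Matrix.GeneralLinearGroup.scalar (Fin n) t⁻¹) :=
    ⟨MonoidHom.prod (Units.map (K₀.subtype : K₀ →* K))
      ((Matrix.GeneralLinearGroup.scalar (Fin n)).comp
        (MonoidHom.id K₀ˣ)⁻¹), fun t => rfl⟩
  have hkinj : Function.Injective k := by
    intro s t hst
    rw [hk, hk] at hst
    have h1 := congrArg Prod.fst hst
    apply Units.ext
    apply Subtype.ext
    exact congrArg Units.val h1
  have hkrange : k.range = f.ker := by
    ext ⟨μ, g₀⟩
    constructor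
    · rintro ⟨t, ht⟩
      rw [hk] at ht
      rw [MonoidHom.mem_ker, ← ht, hf]
      apply Units.ext
      apply Matrix.ext
      intro i j
      rw [← hf, hfe, Matrix.GeneralLinearGroup.coe_scalar, Matrix.scalar_apply,
        Matrix.diagonal_apply]
      by_cases hij : i = j
      · subst hij
        simp
      · simp [hij]
    · intro hmem
      rw [MonoidHom.mem_ker] at hmem
      have hent : ∀ i j, (μ : K) * ((g₀ : Matrix (Fin n) (Fin n) K₀) i j : K)
          = if i = j then 1 else 0 := by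
        intro i j
        rw [← hfe, hmem]
        simp [Matrix.one_apply]
      have hμ : (μ : K) ∈ K₀ := by
        have h1 := hent ⟨0, hn⟩ ⟨0, hn⟩
        rw [if_pos rfl] at h1
        have h2 : (μ : K) = (((g₀ : Matrix (Fin n) (Fin n) K₀) ⟨0, hn⟩ ⟨0, hn⟩ : K))⁻¹ :=
          eq_inv_of_mul_eq_one_left h1
        rw [h2]
        exact K₀.inv_mem (Subtype.mem _)
      have hμ0 : (⟨(μ : K), hμ⟩ : K₀) ≠ 0 := by
        intro h0
        exact μ.ne_zero (congrArg Subtype.val h0)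
      refine ⟨Units.mk0 ⟨(μ : K), hμ⟩ hμ0, ?_⟩
      rw [hk]
      apply Prod.ext
      · apply Units.ext
        rfl
      · apply Units.ext
        apply Matrix.ext
        intro i j
        apply Subtype.ext
        have h1 := hent i j
        rw [Matrix.GeneralLinearGroup.coe_scalar, Matrix.scalar_apply, Matrix.diagonal_apply]
        by_cases hij : i = j
        · subst hij
          rw [if_pos rfl] at h1 ⊢
          have h2 : ((g₀ : Matrix (Fin n) (Fin n) K₀) i i : K) = (μ : K)⁻¹ :=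
            eq_inv_of_mul_eq_one_right h1
          rw [h2]
          simp
        · rw [if_neg hij] at h1 ⊢
          rcases mul_eq_zero.mp h1 with h2 | h2
          · exact absurd h2 μ.ne_zero
          · rw [h2]
            rfl
  -- the subgroups
  obtain ⟨U, hUmem, hUcard⟩ : ∃ U : Subgroup Kˣ, (∀ μ : Kˣ, μ ∈ U ↔ (μ : K) ^ (q + 1) = 1) ∧
      Nat.card U = q + 1 :=
    ⟨(powMonoidHom (q + 1) : Kˣ →* Kˣ).ker, fun μ => by
      rw [MonoidHom.mem_ker, powMonoidHom_apply, Units.ext_iff, Units.val_pow_eq_pow_val,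
        Units.val_one], unit_pow_ker_card hK (by omega)⟩
  obtain ⟨U₀, hU₀mem, hU₀card⟩ : ∃ U₀ : Subgroup K₀ˣ,
      (∀ t : K₀ˣ, t ∈ U₀ ↔ (t : K₀) ^ (q₀ + 1) = 1) ∧ Nat.card U₀ = q₀ + 1 :=
    ⟨(powMonoidHom (q₀ + 1) : K₀ˣ →* K₀ˣ).ker, fun μ => by
      rw [MonoidHom.mem_ker, powMonoidHom_apply, Units.ext_iff, Units.val_pow_eq_pow_val,
        Units.val_one], unit_pow_ker_card hcard₀ (by omega)⟩
  obtain ⟨D, hD⟩ : ∃ D : Subgroup (Kˣ × GL (Fin n) K₀), D = U.prod (Cfsg.GU n K₀ q₀) := ⟨_, rfl⟩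
  have hDmem : ∀ μ g₀, (μ, g₀) ∈ D ↔ μ ∈ U ∧ g₀ ∈ Cfsg.GU n K₀ q₀ := by
    intro μ g₀
    rw [hD, Subgroup.mem_prod]
  have hDcard : Nat.card D = (q + 1) * Nat.card (Cfsg.GU n K₀ q₀) := by
    rw [hD, Nat.card_congr (Subgroup.prodEquiv U (Cfsg.GU n K₀ q₀)).toEquiv, Nat.card_prod,
      hUcard]
  obtain ⟨f', hf'⟩ : ∃ f' : ↥D →* GL (Fin n) K, ∀ d : ↥D, f' d = f (d : Kˣ × GL (Fin n) K₀) :=
    ⟨f.comp D.subtype, fun d => rfl⟩
  have hrange : ∀ g : GL (Fin n) K, g ∈ f'.range ↔ (g ∈ Cfsg.GU n K q ∧ ∃ c : K, c ≠ 0 ∧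
      (g : Matrix (Fin n) (Fin n) K).map σ = c • (g : Matrix (Fin n) (Fin n) K)) := by
    intro g
    constructor
    · rintro ⟨⟨⟨μ, g₀⟩, hd⟩, rfl⟩
      rw [hDmem] at hd
      rw [hf']
      refine ⟨?_, σ μ / μ, div_ne_zero ((map_ne_zero σ).mpr μ.ne_zero) μ.ne_zero, ?_⟩
      · show f (μ, g₀) ∈ _
        rw [hf]
        exact mul_mem ((gu_scalar_iff hn μ).mpr ((hUmem μ).mp hd.1)) ((hιGU g₀).mpr hd.2)
      · apply Matrix.ext
        intro i j
        show σ ((f (μ, g₀) : Matrix (Fin n) (Fin n) K) i j)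
          = (σ μ / μ) * (f (μ, g₀) : Matrix (Fin n) (Fin n) K) i j
        rw [hfe, map_mul, (hK₀ _).mp ((g₀ : Matrix (Fin n) (Fin n) K₀) i j).2]
        field_simp
    · rintro ⟨hgU, c, hc, hg⟩
      have hg0 : (g : Matrix (Fin n) (Fin n) K) ≠ 0 := by
        intro h0
        haveI : Nonempty (Fin n) := ⟨⟨0, hn⟩⟩
        have h1 := congrArg Matrix.det h0
        rw [Matrix.det_zero] at h1
        exact (Matrix.isUnits_det_units g).ne_zero h1
      obtain ⟨i₀, j₀, ha⟩ : ∃ i j, (g : Matrix (Fin n) (Fin n) K) i j ≠ 0 := by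
        by_contra hcon
        push Not at hcon
        exact hg0 (Matrix.ext hcon)
      obtain ⟨a, haa⟩ : ∃ a : K, a = (g : Matrix (Fin n) (Fin n) K) i₀ j₀ := ⟨_, rfl⟩
      rw [← haa] at ha
      have hσg : ∀ i j, σ ((g : Matrix (Fin n) (Fin n) K) i j)
          = c * (g : Matrix (Fin n) (Fin n) K) i j := by
        intro i j
        have := congrFun (congrFun hg i) j
        rw [Matrix.map_apply, Matrix.smul_apply, smul_eq_mul] at this
        exact this
      have hσa : σ a = c * a := by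
        rw [haa]
        exact hσg i₀ j₀
      have hτσ : ∀ x, τ (σ x) = σ (τ x) := by
        intro x
        rw [hτ, hτ, map_pow]
      have hcU : c ^ (q + 1) = 1 := by
        have hN := (gu_mem_iff τ hτ g).mp hgU ⟨0, hn⟩ ⟨0, hn⟩
        rw [if_pos rfl] at hN
        have h1 := congrArg σ hN
        rw [map_sum, map_one] at h1
        have h2 : ∑ k, σ ((g : Matrix (Fin n) (Fin n) K) k ⟨0, hn⟩ *
            τ ((g : Matrix (Fin n) (Fin n) K) k ⟨0, hn⟩))
            = c ^ (q + 1) * ∑ k, (g : Matrix (Fin n) (Fin n) K) k ⟨0, hn⟩ *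
            τ ((g : Matrix (Fin n) (Fin n) K) k ⟨0, hn⟩) := by
          rw [Finset.mul_sum]
          apply Finset.sum_congr rfl
          intro k _
          rw [map_mul, ← hτσ, hσg, map_mul, hτ c]
          ring
        rw [h2, hN, mul_one] at h1
        exact h1
      have haK : a ^ (q ^ 2) = a := by
        rw [← hK]
        exact FiniteField.pow_card a
      have hlmem : a ^ (q + 1) ∈ K₀ := by
        rw [hK₀, map_pow, hσa, mul_pow, hcU, one_mul]
      obtain ⟨l, hl⟩ : ∃ l : K₀, (l : K) = a ^ (q + 1) := ⟨⟨_, hlmem⟩, rfl⟩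
      have hl0 : l ≠ 0 := by
        intro h0
        rw [h0] at hl
        exact pow_ne_zero _ ha hl.symm
      have hlq : l ^ q₀ = l := by
        apply Subtype.ext
        rw [← hA, hl, ← pow_mul]
        have : (q + 1) * q = q ^ 2 + q := by ring
        rw [this, pow_add, haK, pow_succ, mul_comm]
      obtain ⟨ν, hν⟩ := norm_surj_units hcard₀ hq₀ l hl0 hlq
      have hν0 : ν ≠ 0 := by
        intro h0
        rw [h0, zero_pow (by omega)] at hν
        exact hl0 hν.symm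
      have hνK : (ν : K) ≠ 0 := fun h0 => hν0 (Subtype.ext h0)
      have hνq : (ν : K) ^ (q + 1) = a ^ (q + 1) := by
        rw [hA', hν, hl]
      have hμ0 : a / (ν : K) ≠ 0 := div_ne_zero ha hνK
      have hμU : (a / (ν : K)) ^ (q + 1) = 1 := by
        rw [div_pow, hνq, div_self (pow_ne_zero _ ha)]
      have hfix : ∀ i j, (ν : K) * a⁻¹ * (g : Matrix (Fin n) (Fin n) K) i j ∈ K₀ := by
        intro i j
        rw [hK₀, map_mul, map_mul, map_inv₀, hσa, hσg, (hK₀ _).mp ν.2]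
        field_simp
      obtain ⟨M₀, hM₀⟩ : ∃ M₀ : Matrix (Fin n) (Fin n) K₀,
          ∀ i j, (M₀ i j : K) = (ν : K) * a⁻¹ * (g : Matrix (Fin n) (Fin n) K) i j :=
        ⟨fun i j => ⟨_, hfix i j⟩, fun i j => rfl⟩
      have hmap : K₀.subtype.mapMatrix M₀ = ((ν : K) * a⁻¹) • (g : Matrix (Fin n) (Fin n) K) := by
        apply Matrix.ext
        intro i j
        rw [RingHom.mapMatrix_apply, Matrix.map_apply, Matrix.smul_apply, smul_eq_mul]
        exact hM₀ i j
      have hdet : M₀.det ≠ 0 := by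
        intro h0
        have h1 := congrArg K₀.subtype h0
        rw [RingHom.map_det, hmap, Matrix.det_smul, map_zero] at h1
        rcases mul_eq_zero.mp h1 with h2 | h2
        · exact mul_ne_zero hνK (inv_ne_zero ha) (pow_eq_zero_iff (by simp; omega) |>.mp h2)
        · exact (Matrix.isUnits_det_units g).ne_zero h2
      obtain ⟨g₀, hg₀⟩ : ∃ g₀ : GL (Fin n) K₀, (g₀ : Matrix (Fin n) (Fin n) K₀) = M₀ :=
        ⟨Matrix.GeneralLinearGroup.mkOfDetNeZero M₀ hdet, rfl⟩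
      have hιg₀ : ι g₀ = Matrix.GeneralLinearGroup.scalar (Fin n) (Units.mk0 _ hμ0)⁻¹ * g := by
        apply Units.ext
        apply Matrix.ext
        intro i j
        rw [hι, hsce, hg₀, hM₀, Units.val_inv_eq_inv_val, Units.val_mk0]
        field_simp
      have hg₀U : g₀ ∈ Cfsg.GU n K₀ q₀ := by
        rw [← hιGU, hιg₀]
        refine mul_mem ((gu_scalar_iff hn _).mpr ?_) hgU
        rw [Units.val_inv_eq_inv_val, Units.val_mk0, inv_pow, hμU, inv_one]
      refine ⟨⟨(Units.mk0 _ hμ0, g₀), (hDmem _ _).mpr ⟨(hUmem _).mpr hμU, hg₀U⟩⟩, ?_⟩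
      rw [hf']
      show f (Units.mk0 _ hμ0, g₀) = g
      rw [hf, hιg₀, ← mul_assoc, ← map_mul, mul_inv_cancel, map_one, one_mul]
  -- kernel of f'
  have hkD : ∀ t : K₀ˣ, k t ∈ D ↔ t ∈ U₀ := by
    intro t
    rw [hk, hDmem, hUmem, hU₀mem, gu_scalar_iff hn]
    have e1 : ((Units.map (K₀.subtype : K₀ →* K) t : Kˣ) : K) ^ (q + 1)
        = (((t : K₀) ^ (q₀ + 1) : K₀) : K) := hA' (t : K₀)
    rw [e1]
    constructor
    · rintro ⟨h1, -⟩
      apply Subtype.ext
      rw [h1]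
      rfl
    · intro h
      refine ⟨by rw [h]; rfl, ?_⟩
      rw [Units.val_inv_eq_inv_val, inv_pow, h, inv_one]
  have hkerf : ∀ t : K₀ˣ, f (k t) = 1 := by
    intro t
    have : k t ∈ k.range := ⟨t, rfl⟩
    rw [hkrange] at this
    exact this
  have hc1 : Nat.card f'.ker = q₀ + 1 := by
    rw [← hU₀card]
    symm
    apply Nat.card_congr
    refine Equiv.ofBijective (fun t : ↥U₀ => (⟨⟨k (t : K₀ˣ), (hkD _).mpr t.2⟩, by
      rw [MonoidHom.mem_ker, hf']
      exact hkerf _⟩ : ↥f'.ker)) ⟨?_, ?_⟩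
    · intro s t hst
      have h1 : k (s : K₀ˣ) = k (t : K₀ˣ) := congrArg (fun z : ↥f'.ker => ((z : ↥D) : Kˣ × GL (Fin n) K₀)) hst
      exact Subtype.ext (hkinj h1)
    · rintro ⟨⟨d, hd⟩, hdk⟩
      rw [MonoidHom.mem_ker, hf'] at hdk
      have h1 : d ∈ k.range := by
        rw [hkrange]
        exact hdk
      obtain ⟨t, rfl⟩ := h1
      exact ⟨⟨t, (hkD t).mp hd⟩, rfl⟩
  have hc2 : Nat.card f'.range = Nat.card {g : ↥(Cfsg.GU n K q) // ∃ c : K, c ≠ 0 ∧
      ((g : GL (Fin n) K) : Matrix (Fin n) (Fin n) K).map σ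
        = c • ((g : GL (Fin n) K) : Matrix (Fin n) (Fin n) K)} := by
    refine Nat.card_congr ((Equiv.subtypeEquivRight hrange).trans ?_)
    exact (Equiv.subtypeSubtypeEquivSubtypeInter (fun g : GL (Fin n) K => g ∈ Cfsg.GU n K q)
      (fun g : GL (Fin n) K => ∃ c : K, c ≠ 0 ∧
        (g : Matrix (Fin n) (Fin n) K).map σ = c • (g : Matrix (Fin n) (Fin n) K))).symm
  have hc4 := Subgroup.card_mul_index f'.ker
  rw [Subgroup.index_ker, hc1, hc2, hDcard, Cfsg.Agent.Helper7.UnitCard.card_GU hcard₀ n] at hc4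
  obtain ⟨e, he⟩ : q₀ + 1 ∣ q + 1 := by
    have := Odd.nat_add_dvd_pow_add_pow q₀ 1 hodd
    rwa [one_pow, ← hq] at this
  rw [he, Nat.mul_div_cancel_left e (by omega)]
  rw [he, mul_assoc] at hc4
  have hc5 := Nat.eq_of_mul_eq_mul_left (by omega : 0 < q₀ + 1) hc4
  rw [hc5]
  push_cast
  congr 2
  rw [← Fin.prod_univ_eq_prod_range
    (fun x => (if Even x then (q₀ : ℤ) ^ (x + 1) + 1 else ((q₀ ^ (x + 1) - 1 : ℕ) : ℤ))) n]
  apply Finset.prod_congr rfl
  intro i _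
  by_cases hi : Even (i : ℕ)
  · rw [if_pos hi, Odd.neg_one_pow (Even.add_one hi)]
    ring
  · rw [if_neg hi, Even.neg_one_pow (Nat.not_even_iff_odd.mp hi).add_one]
    rw [Nat.cast_sub (Nat.one_le_pow _ _ (by omega))]
    push_cast
    ring

end Cfsg.Agent.Helper5
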