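import Mathlib
import Cfsg.Agent.Helper5.PrinSer2
import Cfsg.Agent.S0148
import Cfsg.Agent.Lead.CharCore5
import Cfsg.Agent.Lead.CharLin2
import Cfsg.Agent.Helper3.SignedIrr

namespace Cfsg.Agent.Helper5

universe uPU

section
variable {F : Type uPU} [Field F] [Fintype F] [DecidableEq F]

theorem ps_theta_char (α : MulChar F ℂ) :
    Cfsg.IsCharacter (borelSL F)
      (fun b => α (((b : Matrix.SpecialLinearGroup (Fin 2) F) : Matrix (Fin 2) (Fin 2) F) 0 0)) := by
  apply Cfsg.Agent.Lead.isCharacter_of_mul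
  · show α ((((1 : borelSL F) : Matrix.SpecialLinearGroup (Fin 2) F) :
      Matrix (Fin 2) (Fin 2) F) 0 0) = 1
    simp
  · intro a b
    show α ((((a * b : borelSL F) : Matrix.SpecialLinearGroup (Fin 2) F) :
      Matrix (Fin 2) (Fin 2) F) 0 0)
      = α (((a : Matrix.SpecialLinearGroup (Fin 2) F) : Matrix (Fin 2) (Fin 2) F) 0 0) *
        α (((b : Matrix.SpecialLinearGroup (Fin 2) F) : Matrix (Fin 2) (Fin 2) F) 0 0)
    rw [← map_mul]
    refine congrArg (fun t => α t) ?_
    have hb := (mem_borelSL b.1).1 b.2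
    rw [Subgroup.coe_mul, Matrix.SpecialLinearGroup.coe_mul, Matrix.mul_apply, Fin.sum_univ_two, hb,
      mul_zero, add_zero]

theorem ps_irr_iff (α : MulChar F ℂ) :
    Cfsg.IsIrrCharacter (Matrix.SpecialLinearGroup (Fin 2) F)
      (Cfsg.indFun (borelSL F)
        (fun b => α (((b : Matrix.SpecialLinearGroup (Fin 2) F) : Matrix (Fin 2) (Fin 2) F) 0 0)))
      ↔ α ^ 2 ≠ 1 := by
  classical
  have hin := ps_inner α α
  rw [if_pos rfl] at hin
  have hchar : Cfsg.IsCharacter (Matrix.SpecialLinearGroup (Fin 2) F)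
      (Cfsg.indFun (borelSL F)
        (fun b => α (((b : Matrix.SpecialLinearGroup (Fin 2) F) : Matrix (Fin 2) (Fin 2) F) 0 0))) :=
    Cfsg.Agent.S0148.result _ _ (ps_theta_char α)
  have hiff : α ^ 2 = 1 ↔ α = α⁻¹ := by
    rw [pow_two]
    exact mul_eq_one_iff_eq_inv
  constructor
  · intro hirr h2
    have h1 := Cfsg.Agent.Helper3.signed_irr_self (Or.inl hirr)
    rw [hin, if_pos (hiff.1 h2)] at h1
    norm_num at h1
  · intro h2
    apply Cfsg.Agent.Lead.isIrrCharacter_of_classInner_eq_one hchar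
    rw [hin, if_neg (fun h => h2 (hiff.2 h)), add_zero]

end

end Cfsg.Agent.Helper5
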