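import Mathlib

set_option autoImplicit false

namespace Cfsg.Agent.Helper5

theorem qf_abs_count {α : Type*} [Finite α] (H P N : α → Prop)
    (hcls : ∀ a, H a → P a ∨ N a) (hexcl : ∀ a, P a → ¬ N a) (c p : ℕ)
    (hc : Nat.card {a // H a} = c) (hp : Nat.card {a // H a ∧ P a} = p) :
    Nat.card {a // H a ∧ N a} = c - p := by
  classical
  have e1 : Nat.card {a // H a ∧ N a} = Nat.card {a // H a ∧ ¬ P a} :=
    Nat.card_congr (Equiv.subtypeEquivRight (fun a => and_congr_right (fun ha =>
      ⟨fun hN hP => hexcl a hP hN, fun hnP => (hcls a ha).resolve_left hnP⟩)))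
  have f1 : Nat.card {x : {a // H a} // P x.1} = Nat.card {a // H a ∧ P a} :=
    Nat.card_congr (Equiv.subtypeSubtypeEquivSubtypeInter H P)
  have f2 : Nat.card {x : {a // H a} // ¬ P x.1} = Nat.card {a // H a ∧ ¬ P a} :=
    Nat.card_congr (Equiv.subtypeSubtypeEquivSubtypeInter H (fun a => ¬ P a))
  have e2 : Nat.card {x : {a // H a} // P x.1} + Nat.card {x : {a // H a} // ¬ P x.1}
      = Nat.card {a // H a} := by
    rw [← Nat.card_sum]
    exact Nat.card_congr (Equiv.sumCompl (fun x : {a // H a} => P x.1))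
  omega

theorem qf_abs_transfer {α β : Type*} (H P : α → Prop) (Φ : β → {a // H a})
    (hΦ : Function.Bijective Φ) :
    Nat.card {a // H a ∧ P a} = Nat.card {b : β // P (Φ b).1} :=
  (Nat.card_congr (Equiv.subtypeSubtypeEquivSubtypeInter H P)).symm.trans
    (Nat.card_congr (Equiv.subtypeEquiv (Equiv.ofBijective Φ hΦ) (fun b => Iff.rfl))).symm

end Cfsg.Agent.Helper5
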