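import Mathlib

set_option autoImplicit false

namespace Cfsg.Agent.Helper5

theorem qf_ts_finrank_le {F V : Type*} [Field F] [AddCommGroup V] [Module F V]
    [FiniteDimensional F V] (B : LinearMap.BilinForm F V) (hB : B.Nondegenerate)
    (U : Submodule F V) (hU : ∀ u ∈ U, ∀ u' ∈ U, B u u' = 0) :
    2 * Module.finrank F U ≤ Module.finrank F V := by
  have h1 : U ≤ B.orthogonal U := by
    intro u hu
    rw [LinearMap.BilinForm.mem_orthogonal_iff]
    intro n hn
    exact hU n hn u hu
  have h2 := LinearMap.BilinForm.finrank_orthogonal hB U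
  have h3 := Submodule.finrank_mono h1
  have h4 := Submodule.finrank_le U
  omega

end Cfsg.Agent.Helper5
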