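import Mathlib
import Cfsg.Agent.Helper5.QFStd

set_option autoImplicit false

namespace Cfsg.Agent.Helper5

section
variable {F V : Type*} [Field F] [AddCommGroup V] [Module F V]

/-- pairwise orthogonal nonsingular vectors `e i` (`i < k`). -/
def qoHyp (Q : QuadraticForm F V) (k : ℕ) (e : ℕ → V) : Prop :=
  (∀ i < k, Q (e i) ≠ 0) ∧
    ∀ i < k, ∀ j < k, i ≠ j → QuadraticMap.polar ⇑Q (e i) (e j) = 0

def qoPerp (Q : QuadraticForm F V) (k : ℕ) (e : ℕ → V) (u : V) : Prop :=
  ∀ i < k, QuadraticMap.polar ⇑Q (e i) u = 0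

theorem qo_exists_perp [FiniteDimensional F V] (Q : QuadraticForm F V) (k : ℕ) (e : ℕ → V)
    (h : k < Module.finrank F V) : ∃ u : V, u ≠ 0 ∧ qoPerp Q k e u := by
  obtain ⟨u, hu0, hu⟩ := qf_exists_ker Q ((List.range k).map e)
    (by simp only [List.length_map, List.length_range]; exact h)
  exact ⟨u, hu0, fun i hi => hu _ (List.mem_map.mpr ⟨i, List.mem_range.mpr hi, rfl⟩)⟩

theorem qo_proj (h2 : (2 : F) ≠ 0) (Q : QuadraticForm F V) (k : ℕ) (e : ℕ → V)
    (hH : qoHyp Q k e) (z : V) :
    ∃ z' : V, qoPerp Q k e z' ∧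
      ∀ u : V, qoPerp Q k e u → QuadraticMap.polar ⇑Q u z' = QuadraticMap.polar ⇑Q u z := by
  classical
  have hS : ∀ v : V, QuadraticMap.polar ⇑Q v (Finset.sum (Finset.range k)
      (fun i => (QuadraticMap.polar ⇑Q (e i) z / (2 * Q (e i))) • e i))
      = Finset.sum (Finset.range k) (fun i =>
        (QuadraticMap.polar ⇑Q (e i) z / (2 * Q (e i))) * QuadraticMap.polar ⇑Q v (e i)) := by
    intro v
    have := map_sum (QuadraticMap.polarBilin Q v)
      (fun i => (QuadraticMap.polar ⇑Q (e i) z / (2 * Q (e i))) • e i) (Finset.range k)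
    simp only [QuadraticMap.polarBilin_apply_apply] at this
    rw [this]
    apply Finset.sum_congr rfl
    intro i _
    simp only [QuadraticMap.polar_smul_right, smul_eq_mul]
  refine ⟨z - Finset.sum (Finset.range k)
      (fun i => (QuadraticMap.polar ⇑Q (e i) z / (2 * Q (e i))) • e i), ?_, ?_⟩
  · intro j hj
    rw [QuadraticMap.polar_sub_right, hS, Finset.sum_eq_single j]
    · rw [qf_polar_self, div_mul_cancel₀ _ (mul_ne_zero h2 (hH.1 j hj)), sub_self]
    · intro i hi hij
      rw [hH.2 j hj i (Finset.mem_range.mp hi) (Ne.symm hij), mul_zero]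
    · intro h; exact absurd (Finset.mem_range.mpr hj) h
  · intro u hu
    rw [QuadraticMap.polar_sub_right, hS, Finset.sum_eq_zero, sub_zero]
    intro i hi
    rw [QuadraticMap.polar_comm (⇑Q) u (e i), hu i (Finset.mem_range.mp hi), mul_zero]

theorem qo_nonsing [FiniteDimensional F V] (h2 : (2 : F) ≠ 0) (Q : QuadraticForm F V)
    (hQ : (QuadraticMap.polarBilin Q).Nondegenerate) (k : ℕ) (e : ℕ → V)
    (hH : qoHyp Q k e) (h : k < Module.finrank F V) :
    ∃ x : V, qoPerp Q k e x ∧ Q x ≠ 0 := by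
  obtain ⟨u, hu0, hup⟩ := qo_exists_perp Q k e h
  obtain ⟨z₀, hz₀⟩ := qf_exists_pair Q hQ u hu0
  obtain ⟨z', hz'p, hz'⟩ := qo_proj h2 Q k e hH z₀
  have hne : QuadraticMap.polar ⇑Q u z' ≠ 0 := by
    rw [hz' u hup, QuadraticMap.polar_comm]; exact hz₀
  by_cases h1 : Q u = 0
  · by_cases h3 : Q z' = 0
    · refine ⟨u + z', ?_, ?_⟩
      · intro i hi
        rw [QuadraticMap.polar_add_right, hup i hi, hz'p i hi, add_zero]
      · rw [qf_add, h1, h3, zero_add, zero_add]; exact hne
    · exact ⟨z', hz'p, h3⟩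
  · exact ⟨u, hup, h1⟩

theorem qo_update (Q : QuadraticForm F V) (k : ℕ) (e : ℕ → V) (hH : qoHyp Q k e) (x : V)
    (hx : qoPerp Q k e x) (hQx : Q x ≠ 0) : qoHyp Q (k + 1) (Function.update e k x) := by
  constructor
  · intro i hi
    rcases Nat.lt_succ_iff_lt_or_eq.mp hi with hi' | hik
    · rw [Function.update_of_ne (ne_of_lt hi')]; exact hH.1 i hi'
    · rw [hik, Function.update_self]; exact hQx
  · intro i hi j hj hij
    rcases Nat.lt_succ_iff_lt_or_eq.mp hi with hi' | hik
    · rcases Nat.lt_succ_iff_lt_or_eq.mp hj with hj' | hjk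
      · rw [Function.update_of_ne (ne_of_lt hi'), Function.update_of_ne (ne_of_lt hj')]
        exact hH.2 i hi' j hj' hij
      · rw [Function.update_of_ne (ne_of_lt hi'), hjk, Function.update_self]
        exact hx i hi'
    · rcases Nat.lt_succ_iff_lt_or_eq.mp hj with hj' | hjk
      · rw [hik, Function.update_self, Function.update_of_ne (ne_of_lt hj'),
          QuadraticMap.polar_comm]
        exact hx j hj'
      · exact absurd (hik.trans hjk.symm) hij

theorem qo_one [Fintype F] [FiniteDimensional F V] (h2 : (2 : F) ≠ 0) (Q : QuadraticForm F V)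
    (hQ : (QuadraticMap.polarBilin Q).Nondegenerate) (k : ℕ) (e : ℕ → V)
    (hH : qoHyp Q k e) (h : k + 2 ≤ Module.finrank F V) :
    ∃ x : V, qoPerp Q k e x ∧ Q x = 1 := by
  obtain ⟨u1, hu1p, hu1⟩ := qo_nonsing h2 Q hQ k e hH (by omega)
  have hH' := qo_update Q k e hH u1 hu1p hu1
  obtain ⟨u2, hu2p, hu2⟩ := qo_nonsing h2 Q hQ (k + 1) (Function.update e k u1) hH' (by omega)
  have h12 : QuadraticMap.polar ⇑Q u1 u2 = 0 := by
    have := hu2p k (Nat.lt_succ_self k)
    rwa [Function.update_self] at this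
  have hu2p' : qoPerp Q k e u2 := by
    intro i hi
    have := hu2p i (Nat.lt_succ_of_lt hi)
    rwa [Function.update_of_ne (ne_of_lt hi)] at this
  have hodd : Fintype.card F % 2 = 1 := by
    apply FiniteField.odd_card_of_char_ne_two
    intro h
    apply h2
    have h3 := CharP.cast_eq_zero F (ringChar F)
    rw [h] at h3
    exact_mod_cast h3
  obtain ⟨s, t, hst⟩ := FiniteField.exists_root_sum_quadratic
    (f := Polynomial.C (Q u1) * Polynomial.X ^ 2 + Polynomial.C 0 * Polynomial.X + Polynomial.C 0)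
    (g := Polynomial.C (Q u2) * Polynomial.X ^ 2 + Polynomial.C 0 * Polynomial.X
      + Polynomial.C (-1))
    (Polynomial.degree_quadratic hu1) (Polynomial.degree_quadratic hu2) hodd
  simp only [Polynomial.eval_add, Polynomial.eval_mul, Polynomial.eval_C, Polynomial.eval_pow,
    Polynomial.eval_X, zero_mul, add_zero] at hst
  refine ⟨s • u1 + t • u2, ?_, ?_⟩
  · intro i hi
    rw [QuadraticMap.polar_add_right, QuadraticMap.polar_smul_right,
      QuadraticMap.polar_smul_right, hu1p i hi, hu2p' i hi, smul_zero, smul_zero, add_zero]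
  · rw [qf_add, qf_smul, qf_smul, QuadraticMap.polar_smul_left, QuadraticMap.polar_smul_right,
      h12, smul_zero, smul_zero, add_zero]
    linear_combination hst

theorem qo_normal [Fintype F] [FiniteDimensional F V] (h2 : (2 : F) ≠ 0) (Q : QuadraticForm F V)
    (hQ : (QuadraticMap.polarBilin Q).Nondegenerate) (n : ℕ) (hn : Module.finrank F V = n)
    (hn1 : 1 ≤ n) :
    ∃ (e : ℕ → V) (d : F), d ≠ 0 ∧ (∀ i < n - 1, Q (e i) = 1) ∧ Q (e (n - 1)) = d ∧
      ∀ i < n, ∀ j < n, i ≠ j → QuadraticMap.polar ⇑Q (e i) (e j) = 0 := by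
  have key : ∀ k, k + 1 ≤ n → ∃ e : ℕ → V, (∀ i < k, Q (e i) = 1) ∧ qoHyp Q k e := by
    intro k
    induction k with
    | zero =>
      intro _
      exact ⟨fun _ => 0, fun i hi => absurd hi (Nat.not_lt_zero _),
        fun i hi => absurd hi (Nat.not_lt_zero _), fun i hi => absurd hi (Nat.not_lt_zero _)⟩
    | succ k ih =>
      intro h
      obtain ⟨e, he1, hH⟩ := ih (by omega)
      obtain ⟨x, hxp, hQx⟩ := qo_one h2 Q hQ k e hH (by rw [hn]; omega)
      refine ⟨Function.update e k x, ?_,
        qo_update Q k e hH x hxp (by rw [hQx]; exact one_ne_zero)⟩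
      intro i hi
      rcases Nat.lt_succ_iff_lt_or_eq.mp hi with hi' | hik
      · rw [Function.update_of_ne (ne_of_lt hi')]; exact he1 i hi'
      · rw [hik, Function.update_self]; exact hQx
  obtain ⟨e, he1, hH⟩ := key (n - 1) (by omega)
  obtain ⟨x, hxp, hQx⟩ := qo_nonsing h2 Q hQ (n - 1) e hH (by rw [hn]; omega)
  have hH' := qo_update Q (n - 1) e hH x hxp hQx
  rw [Nat.sub_add_cancel hn1] at hH'
  refine ⟨Function.update e (n - 1) x, Q x, hQx, ?_, ?_, hH'.2⟩
  · intro i hi
    rw [Function.update_of_ne (ne_of_lt hi)]; exact he1 i hi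
  · rw [Function.update_self]

end

/-- A linear map matching two quadratic forms on a basis (values and polar pairings) is an
isometry. -/
theorem qf_isom_of_basis {F V V' ι : Type*} [Field F] [AddCommGroup V] [Module F V]
    [AddCommGroup V'] [Module F V'] [Fintype ι]
    (Q : QuadraticForm F V) (Q' : QuadraticForm F V') (b : Module.Basis ι F V)
    (g : V →ₗ[F] V')
    (h1 : ∀ i, Q' (g (b i)) = Q (b i))
    (h2 : ∀ i j, QuadraticMap.polar ⇑Q' (g (b i)) (g (b j))
      = QuadraticMap.polar ⇑Q (b i) (b j)) :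
    ∀ v, Q' (g v) = Q v := by
  classical
  have hB : (QuadraticMap.polarBilin Q').compl₁₂ g g = QuadraticMap.polarBilin Q := by
    apply LinearMap.ext_basis b b
    intro i j
    simp only [LinearMap.compl₁₂_apply, QuadraticMap.polarBilin_apply_apply]
    exact h2 i j
  have hpol : ∀ u v, QuadraticMap.polar ⇑Q' (g u) (g v) = QuadraticMap.polar ⇑Q u v := by
    intro u v
    have := LinearMap.congr_fun (LinearMap.congr_fun hB u) v
    simpa [LinearMap.compl₁₂_apply, QuadraticMap.polarBilin_apply_apply] using this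
  have hadd : ∀ u v, Q' (g u) = Q u → Q' (g v) = Q v → Q' (g (u + v)) = Q (u + v) := by
    intro u v hu hv
    rw [map_add, qf_add, qf_add, hu, hv, hpol]
  have hsm : ∀ (a : F) u, Q' (g u) = Q u → Q' (g (a • u)) = Q (a • u) := by
    intro a u hu
    rw [map_smul, qf_smul, qf_smul, hu]
  have hsum : ∀ (s : Finset ι) (a : ι → F),
      Q' (g (∑ i ∈ s, a i • b i)) = Q (∑ i ∈ s, a i • b i) := by
    intro s a
    induction s using Finset.induction_on with
    | empty => simp
    | insert i s hi ih =>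
      rw [Finset.sum_insert hi]
      exact hadd _ _ (hsm _ _ (h1 i)) ih
  intro v
  have := hsum Finset.univ (fun i => b.repr v i)
  rwa [b.sum_repr] at this

theorem qf_isom_equiv {F V : Type*} [Field F] [AddCommGroup V] [Module F V]
    [FiniteDimensional F V] (Q Q' : QuadraticForm F V)
    (hQ : (QuadraticMap.polarBilin Q).Nondegenerate) (g : V →ₗ[F] V)
    (h : ∀ v, Q' (g v) = Q v) :
    ∃ g' : V ≃ₗ[F] V, ∀ v, Q' (g' v) = Q v := by
  have hpol : ∀ u v, QuadraticMap.polar ⇑Q' (g u) (g v) = QuadraticMap.polar ⇑Q u v := by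
    intro u v
    rw [QuadraticMap.polar, QuadraticMap.polar, ← map_add, h, h, h]
  have hinj : Function.Injective g := by
    rw [← LinearMap.ker_eq_bot, LinearMap.ker_eq_bot']
    intro u hu
    apply hQ.1 u
    intro v
    rw [QuadraticMap.polarBilin_apply_apply, ← hpol, hu, QuadraticMap.polar_zero_left]
  refine ⟨LinearEquiv.ofInjectiveEndo g hinj, ?_⟩
  intro v
  rw [LinearEquiv.coe_ofInjectiveEndo]
  exact h v

section Gram
variable {F : Type*} [Field F] {n : ℕ}

theorem qf_polar_expand (Q : QuadraticForm F (Fin n → F)) (a b : Fin n → F) :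
    QuadraticMap.polar ⇑Q a b = ∑ k, a k * ∑ l,
      QuadraticMap.polar ⇑Q (Pi.single k 1) (Pi.single l 1) * b l := by
  classical
  have hrep : ∀ a : Fin n → F, a = ∑ k, a k • (Pi.single k (1 : F) : Fin n → F) := by
    intro a
    ext l
    simp [Finset.sum_apply, Pi.single_apply]
  have hL : ∀ (f : Fin n → (Fin n → F)) (y : Fin n → F),
      QuadraticMap.polar ⇑Q (∑ k, f k) y = ∑ k, QuadraticMap.polar ⇑Q (f k) y := by
    intro f y
    have := map_sum ((QuadraticMap.polarBilin Q).flip y) f Finset.univ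
    simp only [LinearMap.flip_apply, QuadraticMap.polarBilin_apply_apply] at this
    exact this
  have hR : ∀ (x : Fin n → F) (f : Fin n → (Fin n → F)),
      QuadraticMap.polar ⇑Q x (∑ l, f l) = ∑ l, QuadraticMap.polar ⇑Q x (f l) := by
    intro x f
    have := map_sum (QuadraticMap.polarBilin Q x) f Finset.univ
    simp only [QuadraticMap.polarBilin_apply_apply] at this
    exact this
  calc QuadraticMap.polar ⇑Q a b
      = QuadraticMap.polar ⇑Q (∑ k, a k • (Pi.single k (1 : F) : Fin n → F))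
          (∑ l, b l • (Pi.single l (1 : F) : Fin n → F)) := by rw [← hrep a, ← hrep b]
    _ = _ := by
        rw [hL]
        apply Finset.sum_congr rfl
        intro k _
        rw [QuadraticMap.polar_smul_left, smul_eq_mul, hR]
        congr 1
        apply Finset.sum_congr rfl
        intro l _
        rw [QuadraticMap.polar_smul_right, smul_eq_mul, mul_comm]

theorem qf_gram_mul (Q : QuadraticForm F (Fin n → F)) (w : Fin n → Fin n → F) :
    (Matrix.of (fun i j : Fin n => QuadraticMap.polar ⇑Q (w i) (w j)))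
      = Matrix.of w * (Matrix.of (fun k l : Fin n =>
          QuadraticMap.polar ⇑Q (Pi.single k 1) (Pi.single l 1)) * (Matrix.of w).transpose) := by
  ext i j
  simp only [Matrix.mul_apply, Matrix.of_apply, Matrix.transpose_apply]
  exact qf_polar_expand Q (w i) (w j)

theorem qf_gram_det (Q : QuadraticForm F (Fin n → F)) (w : Fin n → Fin n → F) :
    (Matrix.of (fun i j : Fin n => QuadraticMap.polar ⇑Q (w i) (w j))).det
      = (Matrix.of w).det ^ 2 * (Matrix.of (fun k l : Fin n =>
          QuadraticMap.polar ⇑Q (Pi.single k 1) (Pi.single l 1))).det := by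
  rw [qf_gram_mul, Matrix.det_mul, Matrix.det_mul, Matrix.det_transpose]
  ring

end Gram

end Cfsg.Agent.Helper5
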