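import Mathlib
import Cfsg.Prelude.Def_Classical

namespace Cfsg.Agent.Helper5
open Matrix

theorem polar_quadFormPlus {F : Type*} [Field F] {m : ℕ} (v w : Fin m ⊕ Fin m → F) :
    QuadraticMap.polar (Cfsg.quadFormPlus m F) v w =
      Matrix.toBilin' (fromBlocks 0 1 1 0 : Matrix (Fin m ⊕ Fin m) (Fin m ⊕ Fin m) F) v w := by
  rw [Matrix.toBilin'_apply']
  simp only [QuadraticMap.polar, Cfsg.quadFormPlus, dotProduct, Matrix.mulVec, Fintype.sum_sum_type,
    fromBlocks_apply₁₁, fromBlocks_apply₁₂, fromBlocks_apply₂₁, fromBlocks_apply₂₂, Matrix.zero_apply,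
    Matrix.one_apply, Pi.add_apply, zero_mul, Finset.sum_const_zero, zero_add, add_zero, ite_mul, one_mul,
    Finset.sum_ite_eq, Finset.mem_univ, if_true]
  rw [← Finset.sum_add_distrib, ← Finset.sum_sub_distrib, ← Finset.sum_sub_distrib]
  apply Finset.sum_congr rfl
  intro i _
  ring

theorem det_hyperbolic {F : Type*} [Field F] {m : ℕ} :
    (fromBlocks 0 1 1 0 : Matrix (Fin m ⊕ Fin m) (Fin m ⊕ Fin m) F).det = (-1) ^ m := by
  have h1 : (fromBlocks 0 1 1 0 : Matrix (Fin m ⊕ Fin m) (Fin m ⊕ Fin m) F) * fromBlocks 1 0 1 1 =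
      fromBlocks 1 1 1 0 := by
    rw [fromBlocks_multiply]; simp
  have h2 := congrArg Matrix.det h1
  rw [Matrix.det_mul, det_fromBlocks_zero₁₂, det_fromBlocks_one₁₁] at h2
  simp only [det_one, mul_one, zero_sub] at h2
  rw [h2, Matrix.det_neg, det_one, Fintype.card_fin, mul_one]

/-- Gram determinant of a bilinear form given by a matrix on `F^n`, in an arbitrary basis. -/
theorem gram_det {F : Type*} [Field F] {n ι : Type*} [Fintype n] [DecidableEq n] [Fintype ι]
    [DecidableEq ι] (M₀ : Matrix n n F) (b : Module.Basis ι F (n → F)) :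
    ∃ d : F, d ≠ 0 ∧
      (Matrix.of (fun i j : ι => Matrix.toBilin' M₀ (b i) (b j))).det = d * d * M₀.det := by
  -- reindex the basis by `n`
  have hcard : Fintype.card ι = Fintype.card n := by
    have h1 := Module.finrank_eq_card_basis b
    have h2 := Module.finrank_eq_card_basis (Pi.basisFun F n)
    rw [← h1, ← h2]
  let e : ι ≃ n := Fintype.equivOfCardEq hcard
  let b' : Module.Basis n F (n → F) := b.reindex e
  have hG : Matrix.of (fun i j : ι => Matrix.toBilin' M₀ (b i) (b j)) =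
      (LinearMap.BilinForm.toMatrix b' (Matrix.toBilin' M₀)).submatrix e e := by
    ext i j
    simp [LinearMap.BilinForm.toMatrix_apply, b']
  have hP := LinearMap.BilinForm.toMatrix_mul_basis_toMatrix (Pi.basisFun F n) b' (Matrix.toBilin' M₀)
  rw [LinearMap.BilinForm.toMatrix_basisFun, LinearMap.BilinForm.toMatrix'_toBilin'] at hP
  refine ⟨((Pi.basisFun F n).toMatrix ⇑b').det, ?_, ?_⟩
  · have hinv : IsUnit ((Pi.basisFun F n).toMatrix ⇑b').det := by
      rw [← Matrix.isUnit_iff_isUnit_det]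
      have := Module.Basis.invertibleToMatrix (Pi.basisFun F n) b'
      exact isUnit_of_invertible _
    exact hinv.ne_zero
  · rw [hG, Matrix.det_submatrix_equiv_self, ← hP, Matrix.det_mul, Matrix.det_mul, Matrix.det_transpose]
    ring

theorem isSquare_mul_self_mul {F : Type*} [Field F] (d x : F) (hd : d ≠ 0) :
    IsSquare (d * d * x) ↔ IsSquare x := by
  constructor
  · rintro ⟨y, hy⟩
    refine ⟨y / d, ?_⟩
    field_simp
    linear_combination hy
  · rintro ⟨y, hy⟩
    exact ⟨d * y, by rw [hy]; ring⟩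

theorem isSquare_neg_one_pow {F : Type*} [Field F] [Fintype F] {q : ℕ} (hF : Fintype.card F = q)
    (hq : Odd q) (m : ℕ) : IsSquare ((-1 : F) ^ m) ↔ Even (m * (q - 1) / 2) := by
  obtain ⟨t, ht⟩ := hq
  have h1 : m * (q - 1) / 2 = m * t := by
    rw [ht, Nat.add_sub_cancel, mul_left_comm, Nat.mul_div_cancel_left _ (by norm_num : 0 < 2)]
  rw [h1, Nat.even_mul]
  rcases Nat.even_or_odd m with hm | hm
  · simp only [hm, true_or, iff_true]
    rw [hm.neg_one_pow]
    exact IsSquare.one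
  · rw [hm.neg_one_pow, FiniteField.isSquare_neg_one_iff, hF]
    have hm' : ¬ Even m := Nat.not_even_iff_odd.2 hm
    simp only [hm', false_or]
    rw [ht, Nat.even_iff]
    omega

theorem polar_quadFormMinus {F : Type*} [Field F] {k : ℕ} (a c : F)
    (v w : (Fin k ⊕ Fin k) ⊕ Fin 2 → F) :
    QuadraticMap.polar (Cfsg.quadFormMinus k F a c) v w =
      Matrix.toBilin' (fromBlocks (fromBlocks 0 1 1 0) 0 0 !![2, a; a, 2 * c] :
        Matrix ((Fin k ⊕ Fin k) ⊕ Fin 2) ((Fin k ⊕ Fin k) ⊕ Fin 2) F) v w := by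
  rw [Matrix.toBilin'_apply']
  simp only [QuadraticMap.polar, Cfsg.quadFormMinus, dotProduct, Matrix.mulVec, Fintype.sum_sum_type,
    Fin.sum_univ_two,
    fromBlocks_apply₁₁, fromBlocks_apply₁₂, fromBlocks_apply₂₁, fromBlocks_apply₂₂, Matrix.zero_apply,
    Matrix.one_apply, Pi.add_apply, zero_mul, Finset.sum_const_zero, zero_add, add_zero, ite_mul, one_mul,
    Finset.sum_ite_eq, Finset.mem_univ, if_true, Matrix.of_apply, Matrix.cons_val_zero, Matrix.cons_val_one,
    Matrix.cons_val', Matrix.cons_val_fin_one]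
  rw [← Finset.sum_add_distrib]
  have hsum : ∑ x, (v (Sum.inl (Sum.inl x)) + w (Sum.inl (Sum.inl x))) *
      (v (Sum.inl (Sum.inr x)) + w (Sum.inl (Sum.inr x))) =
      ∑ x, (v (Sum.inl (Sum.inl x)) * w (Sum.inl (Sum.inr x)) +
        v (Sum.inl (Sum.inr x)) * w (Sum.inl (Sum.inl x))) +
      ∑ i, v (Sum.inl (Sum.inl i)) * v (Sum.inl (Sum.inr i)) +
      ∑ i, w (Sum.inl (Sum.inl i)) * w (Sum.inl (Sum.inr i)) := by
    rw [← Finset.sum_add_distrib, ← Finset.sum_add_distrib]
    apply Finset.sum_congr rfl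
    intro i _
    ring
  rw [hsum]
  ring

theorem det_elliptic {F : Type*} [Field F] {k : ℕ} (a c : F) :
    (fromBlocks (fromBlocks 0 1 1 0) 0 0 !![2, a; a, 2 * c] :
        Matrix ((Fin k ⊕ Fin k) ⊕ Fin 2) ((Fin k ⊕ Fin k) ⊕ Fin 2) F).det =
      (-1) ^ k * (4 * c - a * a) := by
  rw [det_fromBlocks_zero₂₁, det_hyperbolic, Matrix.det_fin_two_of]
  ring

/-- in a finite field, a nonzero element times a nonsquare is a square iff it is a nonsquare. -/
theorem isSquare_mul_nonsquare {F : Type*} [Field F] [Fintype F] (x y : F) (hx : x ≠ 0)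
    (hy : ¬ IsSquare y) : IsSquare (x * y) ↔ ¬ IsSquare x := by
  classical
  have hy0 : y ≠ 0 := by
    rintro rfl
    exact hy ⟨0, by simp⟩
  have hχy : quadraticChar F y = -1 := quadraticChar_neg_one_iff_not_isSquare.2 hy
  rw [← quadraticChar_one_iff_isSquare (mul_ne_zero hx hy0), map_mul, hχy,
    ← quadraticChar_neg_one_iff_not_isSquare]
  constructor
  · intro h
    linarith
  · intro h
    rw [h]; norm_num

end Cfsg.Agent.Helper5
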