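import Mathlib
import Cfsg.Prelude

set_option autoImplicit false

namespace Cfsg.Agent.Helper5

open Module

theorem finrank_ker_comp_le {K V : Type*} [Field K] [AddCommGroup V] [Module K V]
    [FiniteDimensional K V] (f g : V →ₗ[K] V) :
    finrank K (LinearMap.ker (f ∘ₗ g)) ≤
      finrank K (LinearMap.ker f) + finrank K (LinearMap.ker g) := by
  have h1 := LinearMap.finrank_range_add_finrank_ker
    (g ∘ₗ (LinearMap.ker (f ∘ₗ g)).subtype)
  have h2 : LinearMap.range (g ∘ₗ (LinearMap.ker (f ∘ₗ g)).subtype) ≤ LinearMap.ker f := by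
    rintro _ ⟨x, rfl⟩
    have hx := x.2
    rw [LinearMap.mem_ker] at hx ⊢
    exact hx
  have h3 : finrank K (LinearMap.ker (g ∘ₗ (LinearMap.ker (f ∘ₗ g)).subtype)) ≤
      finrank K (LinearMap.ker g) := by
    have h4 : (LinearMap.ker (g ∘ₗ (LinearMap.ker (f ∘ₗ g)).subtype)).map
        (LinearMap.ker (f ∘ₗ g)).subtype ≤ LinearMap.ker g := by
      rintro _ ⟨x, hx, rfl⟩
      rw [SetLike.mem_coe, LinearMap.mem_ker] at hx
      rw [LinearMap.mem_ker]
      exact hx
    calc finrank K (LinearMap.ker (g ∘ₗ (LinearMap.ker (f ∘ₗ g)).subtype)) =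
          finrank K ((LinearMap.ker (g ∘ₗ (LinearMap.ker (f ∘ₗ g)).subtype)).map
            (LinearMap.ker (f ∘ₗ g)).subtype) := (Submodule.finrank_map_subtype_eq _ _).symm
      _ ≤ _ := Submodule.finrank_mono h4
  have h5 := Submodule.finrank_mono h2
  omega

theorem mulVecLin_pow {F ι : Type*} [Field F] [Fintype ι] [DecidableEq ι] (A : Matrix ι ι F)
    (k : ℕ) : Matrix.mulVecLin (A ^ k) = (Matrix.mulVecLin A) ^ k := by
  induction k with
  | zero => rw [pow_zero, pow_zero, Matrix.mulVecLin_one]; rfl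
  | succ k ih => rw [pow_succ, pow_succ, Matrix.mulVecLin_mul, ih]; rfl

/-- the kernel of the `k`-th power of an endomorphism with at most one-dimensional kernel has
dimension at most `k`. -/
theorem finrank_ker_pow_le {K V : Type*} [Field K] [AddCommGroup V] [Module K V]
    [FiniteDimensional K V] (N : Module.End K V) (h1 : finrank K (LinearMap.ker N) ≤ 1) (k : ℕ) :
    finrank K (LinearMap.ker (N ^ k)) ≤ k := by
  induction k with
  | zero =>
    rw [pow_zero]
    have h0 : LinearMap.ker (1 : Module.End K V) = ⊥ := LinearMap.ker_id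
    rw [h0, finrank_bot]
  | succ k ih =>
    rw [pow_succ']
    have h2 := finrank_ker_comp_le N (N ^ k)
    have h3 : N * N ^ k = N ∘ₗ (N ^ k) := rfl
    rw [h3]
    omega

/-- invariant subspaces of a regular unipotent matrix. -/
theorem regular_unipotent_invariant {F ι : Type*} [Field F] [Fintype ι] [DecidableEq ι]
    (u : Matrix ι ι F) (hnil : (u - 1) ^ (Fintype.card ι) = 0)
    (hreg : (u - 1).rank = Fintype.card ι - 1) (W : Submodule F (ι → F))
    (hW : ∀ v ∈ W, u.mulVec v ∈ W) :
    W = LinearMap.ker (Matrix.mulVecLin ((u - 1) ^ finrank F W)) := by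
  rw [mulVecLin_pow]
  have hNW : ∀ v ∈ W, (Matrix.mulVecLin (u - 1)) v ∈ W := by
    intro v hv
    rw [Matrix.mulVecLin_apply, Matrix.sub_mulVec, Matrix.one_mulVec]
    exact W.sub_mem (hW v hv) hv
  have hker1 : finrank F (LinearMap.ker (Matrix.mulVecLin (u - 1))) ≤ 1 := by
    have h1 := LinearMap.finrank_range_add_finrank_ker (Matrix.mulVecLin (u - 1))
    have h2 : finrank F (LinearMap.range (Matrix.mulVecLin (u - 1))) = Fintype.card ι - 1 := hreg
    rw [h2, Module.finrank_fintype_fun_eq_card] at h1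
    omega
  have hle : W ≤ LinearMap.ker ((Matrix.mulVecLin (u - 1)) ^ finrank F W) := by
    have h1 := Module.End.ker_pow_le_ker_pow_finrank
      ((Matrix.mulVecLin (u - 1)).restrict hNW) (Fintype.card ι)
    rw [Module.End.pow_restrict, Module.End.pow_restrict] at h1
    intro w hw
    have h2 : (⟨w, hw⟩ : W) ∈ LinearMap.ker (((Matrix.mulVecLin (u - 1)) ^ Fintype.card ι).restrict
        (Module.End.pow_apply_mem_of_forall_mem (Fintype.card ι) hNW)) := by
      rw [LinearMap.mem_ker]
      apply Subtype.ext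
      rw [LinearMap.coe_restrict_apply, ← mulVecLin_pow, hnil]
      simp
    have h3 := h1 h2
    rw [LinearMap.mem_ker] at h3 ⊢
    have h4 := congrArg Subtype.val h3
    rwa [LinearMap.coe_restrict_apply] at h4
  exact Submodule.eq_of_le_of_finrank_le hle (finrank_ker_pow_le _ hker1 _)

end Cfsg.Agent.Helper5
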