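import Mathlib
import Cfsg.Prelude
import Cfsg.Agent.Helper5.RegUnip

set_option autoImplicit false

namespace Cfsg.Agent.Helper5

open Module Matrix

theorem ker_pow_mono {K V : Type*} [Field K] [AddCommGroup V] [Module K V] (N : Module.End K V)
    {a b : ℕ} (h : a ≤ b) : LinearMap.ker (N ^ a) ≤ LinearMap.ker (N ^ b) := by
  obtain ⟨c, rfl⟩ := Nat.exists_eq_add_of_le h
  rw [add_comm, pow_add]
  exact LinearMap.ker_le_ker_comp _ _

theorem regular_unipotent_symplectic {F : Type*} [Field F] {m : ℕ}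
    (u : Matrix.symplecticGroup (Fin m) F)
    (hnil : ((u : Matrix (Fin m ⊕ Fin m) (Fin m ⊕ Fin m) F) - 1) ^ (2 * m) = 0)
    (hreg : ((u : Matrix (Fin m ⊕ Fin m) (Fin m ⊕ Fin m) F) - 1).rank = 2 * m - 1)
    (W : Submodule F (Fin m ⊕ Fin m → F))
    (hW : ∀ v ∈ W, (u : Matrix (Fin m ⊕ Fin m) (Fin m ⊕ Fin m) F).mulVec v ∈ W)
    (hdim : 2 * Module.finrank F W ≤ 2 * m) :
    ∀ v ∈ W, ∀ w ∈ W, Cfsg.sympForm m F v w = 0 := by
  classical
  have hcard : Fintype.card (Fin m ⊕ Fin m) = 2 * m := by simp [two_mul]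
  let Φ : (Fin m ⊕ Fin m → F) →ₗ[F] (W →ₗ[F] F) := LinearMap.mk₂ F
    (fun v (w : W) => v ⬝ᵥ (Matrix.J (Fin m) F *ᵥ (w : Fin m ⊕ Fin m → F)))
    (by intro v₁ v₂ w; simp [add_dotProduct])
    (by intro c v w; simp [smul_dotProduct])
    (by intro v w₁ w₂; simp [Matrix.mulVec_add, dotProduct_add])
    (by intro c v w; simp [Matrix.mulVec_smul, dotProduct_smul])
  have hΦ : ∀ v (w : W), Φ v w = Cfsg.sympForm m F v w := fun v w => rfl
  have hdimker : finrank F W ≤ finrank F (LinearMap.ker Φ) := by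
    have h1 := LinearMap.finrank_range_add_finrank_ker Φ
    have h2 : finrank F (LinearMap.range Φ) ≤ finrank F (W →ₗ[F] F) := Submodule.finrank_le _
    have h3 : finrank F (W →ₗ[F] F) = finrank F W := Subspace.dual_finrank_eq
    rw [Module.finrank_fintype_fun_eq_card, hcard] at h1
    omega
  have hpres : ∀ v w, Cfsg.sympForm m F ((u : Matrix (Fin m ⊕ Fin m) (Fin m ⊕ Fin m) F) *ᵥ v)
      ((u : Matrix (Fin m ⊕ Fin m) (Fin m ⊕ Fin m) F) *ᵥ w) = Cfsg.sympForm m F v w := by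
    intro v w
    unfold Cfsg.sympForm
    have hu := SymplecticGroup.mem_iff'.1 u.2
    have k1 : ((u : Matrix (Fin m ⊕ Fin m) (Fin m ⊕ Fin m) F) *ᵥ v) ⬝ᵥ
        (Matrix.J (Fin m) F *ᵥ ((u : Matrix (Fin m ⊕ Fin m) (Fin m ⊕ Fin m) F) *ᵥ w)) =
        v ⬝ᵥ ((u : Matrix (Fin m ⊕ Fin m) (Fin m ⊕ Fin m) F)ᵀ *ᵥ
          (Matrix.J (Fin m) F *ᵥ ((u : Matrix (Fin m ⊕ Fin m) (Fin m ⊕ Fin m) F) *ᵥ w))) := by
      rw [Matrix.dotProduct_mulVec v (u : Matrix (Fin m ⊕ Fin m) (Fin m ⊕ Fin m) F)ᵀ,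
        Matrix.vecMul_transpose]
    rw [k1, Matrix.mulVec_mulVec, Matrix.mulVec_mulVec, hu]
  have hinj : Function.Injective
      ((Matrix.mulVecLin (u : Matrix (Fin m ⊕ Fin m) (Fin m ⊕ Fin m) F)).restrict hW) := by
    intro x y hxy
    have h1 : (u : Matrix (Fin m ⊕ Fin m) (Fin m ⊕ Fin m) F) *ᵥ (x : Fin m ⊕ Fin m → F) =
        (u : Matrix (Fin m ⊕ Fin m) (Fin m ⊕ Fin m) F) *ᵥ (y : Fin m ⊕ Fin m → F) :=
      congrArg Subtype.val hxy
    have h2 := congrArg (fun z => ((u⁻¹ : Matrix.symplecticGroup (Fin m) F) :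
      Matrix (Fin m ⊕ Fin m) (Fin m ⊕ Fin m) F) *ᵥ z) h1
    simp only [Matrix.mulVec_mulVec] at h2
    have h3 : ((u⁻¹ : Matrix.symplecticGroup (Fin m) F) :
        Matrix (Fin m ⊕ Fin m) (Fin m ⊕ Fin m) F) *
        (u : Matrix (Fin m ⊕ Fin m) (Fin m ⊕ Fin m) F) = 1 := by
      have h4 := inv_mul_cancel u
      exact congrArg Subtype.val h4
    rw [h3, Matrix.one_mulVec, Matrix.one_mulVec] at h2
    exact Subtype.ext h2
  have hsurj := LinearMap.injective_iff_surjective.1 hinj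
  have hinv : ∀ v ∈ LinearMap.ker Φ,
      (u : Matrix (Fin m ⊕ Fin m) (Fin m ⊕ Fin m) F).mulVec v ∈ LinearMap.ker Φ := by
    intro v hv
    rw [LinearMap.mem_ker] at hv ⊢
    ext w
    obtain ⟨w', hw'⟩ := hsurj w
    rw [hΦ, LinearMap.zero_apply]
    have h1 : (w : Fin m ⊕ Fin m → F) =
        (u : Matrix (Fin m ⊕ Fin m) (Fin m ⊕ Fin m) F) *ᵥ (w' : Fin m ⊕ Fin m → F) := by
      rw [← hw']; rfl
    rw [h1, hpres, ← hΦ, hv]; rfl
  have e1 := regular_unipotent_invariant (u : Matrix (Fin m ⊕ Fin m) (Fin m ⊕ Fin m) F)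
    (by rw [hcard]; exact hnil) (by rw [hcard]; exact hreg) W hW
  have e2 := regular_unipotent_invariant (u : Matrix (Fin m ⊕ Fin m) (Fin m ⊕ Fin m) F)
    (by rw [hcard]; exact hnil) (by rw [hcard]; exact hreg) (LinearMap.ker Φ) hinv
  have hle : W ≤ LinearMap.ker Φ := by
    calc W = LinearMap.ker (Matrix.mulVecLin
          (((u : Matrix (Fin m ⊕ Fin m) (Fin m ⊕ Fin m) F) - 1) ^ finrank F W)) := e1
      _ ≤ LinearMap.ker (Matrix.mulVecLin
          (((u : Matrix (Fin m ⊕ Fin m) (Fin m ⊕ Fin m) F) - 1) ^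
            finrank F (LinearMap.ker Φ))) := by
          rw [mulVecLin_pow, mulVecLin_pow]
          exact ker_pow_mono _ hdimker
      _ = LinearMap.ker Φ := e2.symm
  intro v hv w hw
  have h1 := hle hv
  rw [LinearMap.mem_ker] at h1
  have h2 := congrArg (fun φ => φ ⟨w, hw⟩) h1
  exact h2

end Cfsg.Agent.Helper5
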