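import Mathlib
import Cfsg.Agent.S0262

namespace Cfsg.Agent.Helper5

open Matrix

section
variable {F : Type*} [Field F]

/-- upper unitriangular element of SL₂ -/
noncomputable def sl2u (b : F) : Matrix.SpecialLinearGroup (Fin 2) F :=
  ⟨!![1, b; 0, 1], by simp [Matrix.det_fin_two]⟩

theorem sl2u_coe (b : F) : ((sl2u b : Matrix.SpecialLinearGroup (Fin 2) F) :
    Matrix (Fin 2) (Fin 2) F) = !![1, b; 0, 1] := rfl

theorem sl2u_mul (b c : F) : sl2u b * sl2u c = sl2u (b + c) := by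
  apply Subtype.ext
  show (!![1, b; 0, 1] : Matrix (Fin 2) (Fin 2) F) * !![1, c; 0, 1] = !![1, b + c; 0, 1]
  ext i j
  fin_cases i <;> fin_cases j <;> simp [Matrix.mul_apply, Fin.sum_univ_two, add_comm]

theorem sl2u_pow (b : F) (k : ℕ) : sl2u b ^ k = sl2u (k * b) := by
  induction k with
  | zero =>
    rw [pow_zero, Nat.cast_zero, zero_mul]
    apply Subtype.ext
    show (1 : Matrix (Fin 2) (Fin 2) F) = !![1, 0; 0, 1]
    ext i j
    fin_cases i <;> fin_cases j <;> simp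
  | succ k ih =>
    rw [pow_succ, ih, sl2u_mul]
    congr 1
    push_cast
    ring

theorem sl2u_inj (b c : F) (h : sl2u b = sl2u c) : b = c := by
  have h1 := congrArg (fun g : Matrix.SpecialLinearGroup (Fin 2) F =>
    (g : Matrix (Fin 2) (Fin 2) F) 0 1) h
  simpa [sl2u_coe] using h1

theorem sl2u_order (p : ℕ) [Fact p.Prime] [CharP F p] (b : F) (hb : b ≠ 0) :
    orderOf (sl2u b) = p := by
  apply orderOf_eq_prime
  · rw [sl2u_pow, CharP.cast_eq_zero, zero_mul]
    apply Subtype.ext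
    show (!![1, 0; 0, 1] : Matrix (Fin 2) (Fin 2) F) = 1
    ext i j
    fin_cases i <;> fin_cases j <;> simp
  · intro h
    have h0 : sl2u b = sl2u (0 : F) := by
      rw [h]
      apply Subtype.ext
      show (1 : Matrix (Fin 2) (Fin 2) F) = !![1, 0; 0, 1]
      ext i j
      fin_cases i <;> fin_cases j <;> simp
    exact hb (sl2u_inj b 0 h0)

/-- commutation relation with `sl2u` in coordinates -/
theorem sl2u_semiconj (b b' : F) (c : Matrix.SpecialLinearGroup (Fin 2) F) :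
    c * sl2u b = sl2u b' * c ↔
      (b' * (c : Matrix (Fin 2) (Fin 2) F) 1 0 = 0 ∧
       (c : Matrix (Fin 2) (Fin 2) F) 0 0 * b = b' * (c : Matrix (Fin 2) (Fin 2) F) 1 1 ∧
       (c : Matrix (Fin 2) (Fin 2) F) 1 0 * b = 0) := by
  constructor
  · intro h
    have h1 := congrArg (fun g : Matrix.SpecialLinearGroup (Fin 2) F =>
      (g : Matrix (Fin 2) (Fin 2) F)) h
    simp only [Matrix.SpecialLinearGroup.coe_mul, sl2u_coe] at h1
    have e00 := congrFun (congrFun h1 0) 0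
    have e01 := congrFun (congrFun h1 0) 1
    have e11 := congrFun (congrFun h1 1) 1
    simp [Matrix.mul_apply, Fin.sum_univ_two] at e00 e01 e11
    refine ⟨?_, ?_, ?_⟩
    · exact mul_eq_zero.mpr e00
    · linear_combination e01
    · exact mul_eq_zero.mpr e11
  · rintro ⟨h1, h2, h3⟩
    apply Subtype.ext
    simp only [Matrix.SpecialLinearGroup.coe_mul, sl2u_coe]
    ext i j
    fin_cases i <;> fin_cases j <;> simp [Matrix.mul_apply, Fin.sum_univ_two]
    · exact mul_eq_zero.mp h1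
    · linear_combination h2
    · exact mul_eq_zero.mp h3

theorem sl2u_conj_iff (b b' : F) (hb : b ≠ 0) (hb' : b' ≠ 0) :
    IsConj (sl2u b) (sl2u b') ↔ IsSquare (b * b') := by
  constructor
  · rintro ⟨c, hc⟩
    have hc' : (c : Matrix.SpecialLinearGroup (Fin 2) F) * sl2u b = sl2u b' * c := hc
    obtain ⟨h1, h2, h3⟩ := (sl2u_semiconj b b' _).mp hc'
    have h10 : ((c : Matrix.SpecialLinearGroup (Fin 2) F) : Matrix (Fin 2) (Fin 2) F) 1 0 = 0 := by
      rcases mul_eq_zero.mp h1 with h | h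
      · exact absurd h hb'
      · exact h
    have hdet := (c : Matrix.SpecialLinearGroup (Fin 2) F).det_coe
    rw [Matrix.det_fin_two, h10, mul_zero, sub_zero] at hdet
    refine ⟨((c : Matrix.SpecialLinearGroup (Fin 2) F) : Matrix (Fin 2) (Fin 2) F) 0 0 * b, ?_⟩
    linear_combination (-(b * b')) * hdet
      - (b * ((c : Matrix.SpecialLinearGroup (Fin 2) F) : Matrix (Fin 2) (Fin 2) F) 0 0) * h2
  · rintro ⟨r, hr⟩
    have hr0 : r ≠ 0 := by
      rintro rfl
      rw [mul_zero] at hr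
      exact mul_ne_zero hb hb' hr
    obtain ⟨a, ha⟩ : ∃ a : F, a = r / b := ⟨_, rfl⟩
    have ha0 : a ≠ 0 := by
      rw [ha]
      exact div_ne_zero hr0 hb
    have hab : a * a * b = b' := by
      rw [ha]
      field_simp
      linear_combination -hr
    obtain ⟨c, hc⟩ : ∃ c : Matrix.SpecialLinearGroup (Fin 2) F,
        (c : Matrix (Fin 2) (Fin 2) F) = !![a, 0; 0, a⁻¹] :=
      ⟨⟨!![a, 0; 0, a⁻¹], by simp [Matrix.det_fin_two, ha0]⟩, rfl⟩
    rw [isConj_iff]
    refine ⟨c, ?_⟩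
    rw [mul_inv_eq_iff_eq_mul, sl2u_semiconj, hc]
    refine ⟨by simp, ?_, by simp⟩
    simp only [Matrix.of_apply, Matrix.cons_val', Matrix.cons_val_zero, Matrix.cons_val_one,
      Matrix.empty_val', Matrix.cons_val_fin_one]
    rw [← hab]
    field_simp

theorem sl2_unip_conj (p : ℕ) [Fact p.Prime] [CharP F p]
    (g : Matrix.SpecialLinearGroup (Fin 2) F) (hg : orderOf g = p) :
    ∃ b : F, b ≠ 0 ∧ IsConj (sl2u b) g := by
  classical
  obtain ⟨M, hM⟩ : ∃ M : Matrix (Fin 2) (Fin 2) F, M = (g : Matrix (Fin 2) (Fin 2) F) := ⟨_, rfl⟩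
  have hMp : M ^ p = 1 := by
    rw [hM, ← Matrix.SpecialLinearGroup.coe_pow, ← hg, pow_orderOf_eq_one]
    rfl
  have hM1 : M ≠ 1 := by
    intro h
    have h1 : g = 1 := Subtype.ext (hM ▸ h)
    rw [h1, orderOf_one] at hg
    exact (Fact.out : p.Prime).one_lt.ne hg
  obtain ⟨N, hN⟩ : ∃ N : Matrix (Fin 2) (Fin 2) F, N = M - 1 := ⟨_, rfl⟩
  have hN0 : N ≠ 0 := by
    rw [hN]
    exact sub_ne_zero.mpr hM1
  have hNp : N ^ p = 0 := by
    rw [hN, sub_pow_char_of_commute p (Commute.one_right M), hMp, one_pow, sub_self]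
  have hdetN : N.det = 0 := by
    have h1 := congrArg Matrix.det hNp
    rw [Matrix.det_pow, Matrix.det_zero] at h1
    exact (pow_eq_zero_iff (Fact.out : p.Prime).ne_zero).mp h1
  have hdetM : M.det = 1 := by
    rw [hM]
    exact g.det_coe
  have hNM : ∀ i j, N i j = M i j - (1 : Matrix (Fin 2) (Fin 2) F) i j := by
    intro i j
    rw [hN]
    rfl
  rw [Matrix.det_fin_two] at hdetN hdetM
  rw [hNM, hNM, hNM, hNM] at hdetN
  simp only [Matrix.one_apply_eq, ne_eq, one_ne_zero, not_false_eq_true, Matrix.one_apply_ne,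
    zero_ne_one, sub_zero] at hdetN
  have htr : M 0 0 + M 1 1 = 2 := by linear_combination hdetM - hdetN
  obtain ⟨v, hv⟩ : ∃ v : Fin 2 → F, N *ᵥ v ≠ 0 := by
    by_contra hcon
    push Not at hcon
    apply hN0
    ext i j
    have h1 := congrFun (hcon (Pi.single j 1)) i
    simpa using h1
  obtain ⟨w, hw⟩ : ∃ w : Fin 2 → F, w = N *ᵥ v := ⟨_, rfl⟩
  rw [← hw] at hv
  have hw0 : w 0 = (M 0 0 - 1) * v 0 + M 0 1 * v 1 := by
    rw [hw]
    simp [Matrix.mulVec, dotProduct, Fin.sum_univ_two, hNM]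
  have hw1 : w 1 = M 1 0 * v 0 + (M 1 1 - 1) * v 1 := by
    rw [hw]
    simp [Matrix.mulVec, dotProduct, Fin.sum_univ_two, hNM]
  have hNw0 : (M 0 0 - 1) * w 0 + M 0 1 * w 1 = 0 := by
    rw [hw0, hw1]
    linear_combination (v 0 * M 0 0 + M 0 1 * v 1) * htr + (-v 0) * hdetM
  have hNw1 : M 1 0 * w 0 + (M 1 1 - 1) * w 1 = 0 := by
    rw [hw0, hw1]
    linear_combination (v 0 * M 1 0 + M 1 1 * v 1) * htr + (-v 1) * hdetM
  obtain ⟨d, hd⟩ : ∃ d : F, d = w 0 * v 1 - w 1 * v 0 := ⟨_, rfl⟩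
  have hd0 : d ≠ 0 := by
    intro h0
    rw [hd] at h0
    apply hv
    have e0 : w 0 * w 0 = 0 := by
      linear_combination (w 0) * hw0 + (M 0 1) * h0 + (v 0) * hNw0
    have e1 : w 1 * w 1 = 0 := by
      linear_combination (w 1) * hw1 - (M 1 0) * h0 + (v 1) * hNw1
    funext i
    fin_cases i
    · exact mul_self_eq_zero.mp e0
    · exact mul_self_eq_zero.mp e1
  obtain ⟨c, hc⟩ : ∃ c : Matrix.SpecialLinearGroup (Fin 2) F,
      (c : Matrix (Fin 2) (Fin 2) F) = !![w 0, d⁻¹ * v 0; w 1, d⁻¹ * v 1] :=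
    ⟨⟨!![w 0, d⁻¹ * v 0; w 1, d⁻¹ * v 1], by
      rw [Matrix.det_fin_two]
      simp only [Matrix.of_apply, Matrix.cons_val', Matrix.cons_val_zero, Matrix.cons_val_one,
        Matrix.empty_val', Matrix.cons_val_fin_one]
      field_simp
      linear_combination -hd⟩, rfl⟩
  refine ⟨d⁻¹, inv_ne_zero hd0, ?_⟩
  rw [isConj_iff]
  refine ⟨c, ?_⟩
  rw [mul_inv_eq_iff_eq_mul]
  apply Subtype.ext
  simp only [Matrix.SpecialLinearGroup.coe_mul, sl2u_coe, hc, ← hM]
  ext i j
  fin_cases i <;> fin_cases j <;> simp [Matrix.mul_apply, Fin.sum_univ_two]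
  · linear_combination -hNw0
  · linear_combination (d⁻¹) * hw0
  · linear_combination -hNw1
  · linear_combination (d⁻¹) * hw1

theorem sl2u_centralizer_card [Fintype F] (p : ℕ) [Fact p.Prime] [CharP F p] (hp : p ≠ 2)
    (b : F) (hb : b ≠ 0) :
    Nat.card (Subgroup.centralizer ({sl2u b} : Set (Matrix.SpecialLinearGroup (Fin 2) F)))
      = 2 * Fintype.card F := by
  classical
  have h2 : (2 : F) ≠ 0 := Ring.two_ne_zero (by rw [ringChar.eq F p]; exact hp)
  have h11 : (1 : F) ≠ -1 := by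
    intro h
    apply h2
    linear_combination h
  have hmem : ∀ c : Matrix.SpecialLinearGroup (Fin 2) F,
      c ∈ Subgroup.centralizer ({sl2u b} : Set (Matrix.SpecialLinearGroup (Fin 2) F)) ↔
        ((c : Matrix (Fin 2) (Fin 2) F) 1 0 = 0 ∧
          (c : Matrix (Fin 2) (Fin 2) F) 0 0 = (c : Matrix (Fin 2) (Fin 2) F) 1 1) := by
    intro c
    rw [Subgroup.mem_centralizer_iff]
    constructor
    · intro h
      have h1 := (h (sl2u b) rfl).symm
      rw [sl2u_semiconj] at h1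
      obtain ⟨e1, e2, -⟩ := h1
      refine ⟨(mul_eq_zero.mp e1).resolve_left hb, ?_⟩
      have : b * ((c : Matrix (Fin 2) (Fin 2) F) 0 0 - (c : Matrix (Fin 2) (Fin 2) F) 1 1) = 0 := by
        linear_combination e2
      have h3 := (mul_eq_zero.mp this).resolve_left hb
      exact sub_eq_zero.mp h3
    · rintro ⟨e1, e2⟩ y hy
      rw [Set.mem_singleton_iff] at hy
      subst hy
      symm
      rw [sl2u_semiconj]
      refine ⟨by rw [e1, mul_zero], by rw [e2, mul_comm], by rw [e1, zero_mul]⟩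
  obtain ⟨sg, hsg⟩ : ∃ sg : Bool → F, ∀ t, sg t = if t then 1 else -1 := ⟨_, fun _ => rfl⟩
  have hsg2 : ∀ t, sg t * sg t = 1 := by
    intro t
    rw [hsg]
    cases t <;> simp
  obtain ⟨k, hk⟩ : ∃ k : Bool × F → Matrix.SpecialLinearGroup (Fin 2) F,
      ∀ x, ((k x : Matrix.SpecialLinearGroup (Fin 2) F) : Matrix (Fin 2) (Fin 2) F)
        = !![sg x.1, x.2; 0, sg x.1] :=
    ⟨fun x => ⟨!![sg x.1, x.2; 0, sg x.1], by
      rw [Matrix.det_fin_two]
      simp [hsg2]⟩, fun x => rfl⟩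
  have hkmem : ∀ x, k x ∈ Subgroup.centralizer
      ({sl2u b} : Set (Matrix.SpecialLinearGroup (Fin 2) F)) := by
    intro x
    rw [hmem, hk]
    simp
  have hcard : Nat.card (Bool × F) = 2 * Fintype.card F := by
    rw [Nat.card_prod, Nat.card_eq_fintype_card, Nat.card_eq_fintype_card, Fintype.card_bool]
  rw [← hcard]
  symm
  apply Nat.card_congr
  refine Equiv.ofBijective (fun x => (⟨k x, hkmem x⟩ : ↥(Subgroup.centralizer
      ({sl2u b} : Set (Matrix.SpecialLinearGroup (Fin 2) F))))) ⟨?_, ?_⟩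
  · rintro ⟨t, β⟩ ⟨t', β'⟩ h
    have h1 : k (t, β) = k (t', β') := congrArg Subtype.val h
    have h2 := congrArg (fun g : Matrix.SpecialLinearGroup (Fin 2) F =>
      (g : Matrix (Fin 2) (Fin 2) F)) h1
    simp only [hk] at h2
    have e00 := congrFun (congrFun h2 0) 0
    have e01 := congrFun (congrFun h2 0) 1
    simp at e00 e01
    rw [hsg, hsg] at e00
    have ht : t = t' := by
      cases t <;> cases t' <;> simp at e00 ⊢
      · exact h11 e00.symm
      · exact h11 e00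
    rw [ht, e01]
  · rintro ⟨c, hc⟩
    rw [hmem] at hc
    obtain ⟨e1, e2⟩ := hc
    have hdet := c.det_coe
    rw [Matrix.det_fin_two, e1, mul_zero, sub_zero, ← e2] at hdet
    have h3 : (c : Matrix (Fin 2) (Fin 2) F) 0 0 = 1 ∨ (c : Matrix (Fin 2) (Fin 2) F) 0 0 = -1 :=
      mul_self_eq_one_iff.mp hdet
    refine ⟨(decide ((c : Matrix (Fin 2) (Fin 2) F) 0 0 = 1), (c : Matrix (Fin 2) (Fin 2) F) 0 1),
      ?_⟩
    apply Subtype.ext
    apply Subtype.ext
    show ((k _ : Matrix.SpecialLinearGroup (Fin 2) F) : Matrix (Fin 2) (Fin 2) F) = _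
    rw [hk, hsg]
    have hs : (if decide ((c : Matrix (Fin 2) (Fin 2) F) 0 0 = 1) = true then (1 : F) else -1)
        = (c : Matrix (Fin 2) (Fin 2) F) 0 0 := by
      rcases h3 with h | h
      · simp [h]
      · rw [h]
        simp [h11.symm]
    simp only [hs]
    ext i j
    fin_cases i <;> fin_cases j <;> simp [e1, e2]

theorem sl2_unip_classes [Fintype F] (p : ℕ) [Fact p.Prime] [CharP F p] (hp : p ≠ 2) :
    Nat.card {C : ConjClasses (Matrix.SpecialLinearGroup (Fin 2) F) //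
      ∃ g : Matrix.SpecialLinearGroup (Fin 2) F, orderOf g = p ∧ ConjClasses.mk g = C} = 2 ∧
    (∀ g : Matrix.SpecialLinearGroup (Fin 2) F, orderOf g = p →
      Nat.card (ConjClasses.mk g).carrier = (Fintype.card F ^ 2 - 1) / 2) ∧
    ∀ g h : Matrix.SpecialLinearGroup (Fin 2) F, (g : Matrix (Fin 2) (Fin 2) F) 0 0 = 1 →
      (g : Matrix (Fin 2) (Fin 2) F) 1 1 = 1 → (g : Matrix (Fin 2) (Fin 2) F) 1 0 = 0 →
      (g : Matrix (Fin 2) (Fin 2) F) 0 1 ≠ 0 →
      (h : Matrix (Fin 2) (Fin 2) F) 0 0 = 1 → (h : Matrix (Fin 2) (Fin 2) F) 1 1 = 1 →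
      (h : Matrix (Fin 2) (Fin 2) F) 1 0 = 0 → (h : Matrix (Fin 2) (Fin 2) F) 0 1 ≠ 0 →
      (IsConj g h ↔ IsSquare ((g : Matrix (Fin 2) (Fin 2) F) 0 1 *
        (h : Matrix (Fin 2) (Fin 2) F) 0 1)) := by
  classical
  have hchar : ringChar F ≠ 2 := by
    rw [ringChar.eq F p]
    exact hp
  obtain ⟨ε, hε⟩ := FiniteField.exists_nonsquare hchar
  have hε0 : ε ≠ 0 := by
    rintro rfl
    exact hε ⟨0, by simp⟩
  have hnsq : ∀ b : F, b ≠ 0 → ¬IsSquare b → IsSquare (b * ε) := by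
    intro b hb0 hb
    rw [← quadraticChar_one_iff_isSquare (mul_ne_zero hb0 hε0), map_mul,
      quadraticChar_neg_one_iff_not_isSquare.mpr hb,
      quadraticChar_neg_one_iff_not_isSquare.mpr hε]
    norm_num
  refine ⟨?_, ?_, ?_⟩
  · rw [Nat.card_eq_two_iff]
    refine ⟨⟨ConjClasses.mk (sl2u 1), sl2u 1, sl2u_order p 1 one_ne_zero, rfl⟩,
      ⟨ConjClasses.mk (sl2u ε), sl2u ε, sl2u_order p ε hε0, rfl⟩, ?_, ?_⟩
    · intro h
      have h1 := congrArg Subtype.val h
      rw [ConjClasses.mk_eq_mk_iff_isConj, sl2u_conj_iff 1 ε one_ne_zero hε0, one_mul] at h1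
      exact hε h1
    · apply Set.eq_univ_of_forall
      rintro ⟨C, g, hg, rfl⟩
      obtain ⟨b, hb0, hbc⟩ := sl2_unip_conj p g hg
      by_cases hsq : IsSquare b
      · left
        apply Subtype.ext
        show ConjClasses.mk g = ConjClasses.mk (sl2u 1)
        rw [ConjClasses.mk_eq_mk_iff_isConj]
        exact hbc.symm.trans ((sl2u_conj_iff b 1 hb0 one_ne_zero).mpr (by rwa [mul_one]))
      · right
        rw [Set.mem_singleton_iff]
        apply Subtype.ext
        show ConjClasses.mk g = ConjClasses.mk (sl2u ε)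
        rw [ConjClasses.mk_eq_mk_iff_isConj]
        exact hbc.symm.trans ((sl2u_conj_iff b ε hb0 hε0).mpr (hnsq b hb0 hsq))
  · intro g hg
    obtain ⟨b, hb0, hbc⟩ := sl2_unip_conj p g hg
    have hmk : ConjClasses.mk g = ConjClasses.mk (sl2u b) :=
      (ConjClasses.mk_eq_mk_iff_isConj.mpr hbc).symm
    rw [hmk]
    haveI : Fintype (Matrix.SpecialLinearGroup (Fin 2) F) := Fintype.ofFinite _
    haveI : Fintype (ConjClasses.mk (sl2u b)).carrier := Fintype.ofFinite _
    haveI : Fintype (MulAction.stabilizer (ConjAct (Matrix.SpecialLinearGroup (Fin 2) F))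
      (sl2u b)) := Fintype.ofFinite _
    have h1 := ConjClasses.card_carrier (sl2u b)
    rw [← Nat.card_eq_fintype_card, ← Nat.card_eq_fintype_card, ← Nat.card_eq_fintype_card,
      ← Subgroup.nat_card_centralizer_nat_card_stabilizer, sl2u_centralizer_card p hp b hb0,
      Cfsg.Agent.S0262.card_SL2, mul_comm 2 (Fintype.card F),
      Nat.mul_div_mul_left _ _ Fintype.card_pos] at h1
    exact h1
  · intro g h g00 g11 g10 g01 h00 h11 h10 h01
    have hg : g = sl2u ((g : Matrix (Fin 2) (Fin 2) F) 0 1) := by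
      apply Subtype.ext
      rw [sl2u_coe]
      ext i j
      fin_cases i <;> fin_cases j <;> simp [g00, g11, g10]
    have hh : h = sl2u ((h : Matrix (Fin 2) (Fin 2) F) 0 1) := by
      apply Subtype.ext
      rw [sl2u_coe]
      ext i j
      fin_cases i <;> fin_cases j <;> simp [h00, h11, h10]
    rw [hg, hh, sl2u_conj_iff _ _ g01 h01, sl2u_coe, sl2u_coe]
    simp

end

end Cfsg.Agent.Helper5
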