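import Mathlib

namespace Cfsg.Agent.Helper5

open Polynomial

section
variable {F V : Type*} [Field F] [Fintype F] [AddCommGroup V] [Module F V]
  [FiniteDimensional F V]

/-- For a semisimple endomorphism over a finite field, the centraliser has elements of every
determinant. -/
theorem ss_det_surj (T : V →ₗ[F] V) (hT : Module.End.IsSemisimple T) [Nontrivial V] (d : F) :
    ∃ c : V →ₗ[F] V, c ∘ₗ T = T ∘ₗ c ∧ LinearMap.det c = d := by
  classical
  have hint : IsIntegral F T := Algebra.IsIntegral.isIntegral T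
  have hm0 : minpoly F T ≠ 0 := minpoly.ne_zero hint
  have hmu : ¬ IsUnit (minpoly F T) := minpoly.not_isUnit F T
  obtain ⟨f₁, hirr, f₂, hf⟩ := WfDvdMonoid.exists_irreducible_factor hmu hm0
  have hf₂0 : f₂ ≠ 0 := by
    rintro rfl
    rw [mul_zero] at hf
    exact hm0 hf
  obtain ⟨v', hv'0, hv'⟩ : ∃ v' : V, v' ≠ 0 ∧ aeval T f₁ v' = 0 := by
    by_contra hcon
    push Not at hcon
    have h2 : aeval T f₂ = 0 := by
      apply LinearMap.ext
      intro w
      by_contra hw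
      apply hcon (aeval T f₂ w) hw
      rw [← Module.End.mul_apply, ← map_mul, ← hf, minpoly.aeval]
      rfl
    have h3 := minpoly.dvd F T h2
    rw [hf] at h3
    obtain ⟨t, ht⟩ := h3
    have h4 : f₁ * t = 1 := by
      have : f₂ * (f₁ * t) = f₂ * 1 := by
        rw [mul_one]
        conv_rhs => rw [ht]
        ring
      exact mul_left_cancel₀ hf₂0 this
    exact hirr.not_isUnit (IsUnit.of_mul_eq_one _ h4)
  haveI : Fact (Irreducible f₁) := ⟨hirr⟩
  have hf₁0 : f₁ ≠ 0 := hirr.ne_zero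
  haveI : Module.Finite F (AdjoinRoot f₁) := (AdjoinRoot.powerBasis hf₁0).finite
  haveI : Finite (AdjoinRoot f₁) := Module.finite_of_finite F
  obtain ⟨g, hg⟩ : ∃ g : F[X] →ₗ[F] V, ∀ r, g r = aeval T r v' :=
    ⟨(LinearMap.applyₗ v' : (V →ₗ[F] V) →ₗ[F] V).comp
      (aeval T : F[X] →ₐ[F] (V →ₗ[F] V)).toLinearMap, fun r => rfl⟩
  have hker : (Ideal.span {f₁} : Ideal F[X]).restrictScalars F ≤ LinearMap.ker g := by
    intro r hr
    rw [Submodule.restrictScalars_mem, Ideal.mem_span_singleton] at hr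
    obtain ⟨s, rfl⟩ := hr
    rw [LinearMap.mem_ker, hg, mul_comm, map_mul, Module.End.mul_apply, hv', map_zero]
  obtain ⟨φ, hφ⟩ : ∃ φ : AdjoinRoot f₁ →ₗ[F] V, ∀ r, φ (AdjoinRoot.mk f₁ r) = aeval T r v' :=
    ⟨(Submodule.liftQ _ g hker).comp
      (Submodule.Quotient.restrictScalarsEquiv F (Ideal.span {f₁} : Ideal F[X])).symm.toLinearMap,
      fun r => hg r⟩
  have hφmul : ∀ (r : F[X]) (e : AdjoinRoot f₁),
      φ (AdjoinRoot.mk f₁ r * e) = aeval T r (φ e) := by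
    intro r e
    obtain ⟨s, rfl⟩ := AdjoinRoot.mk_surjective e
    rw [← map_mul, hφ, hφ, map_mul, Module.End.mul_apply]
  have hφinj : Function.Injective φ := by
    rw [injective_iff_map_eq_zero]
    intro e he
    by_contra hne
    obtain ⟨s, hs⟩ := AdjoinRoot.mk_surjective (e⁻¹)
    have h1 := hφmul s e
    rw [hs, inv_mul_cancel₀ hne, he, map_zero] at h1
    have h2 : φ 1 = v' := by
      have h3 := hφ 1
      have e1 : AdjoinRoot.mk f₁ (1 : F[X]) = 1 := map_one _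
      have e2 : aeval T (1 : F[X]) = 1 := map_one _
      rw [e1, e2] at h3
      exact h3
    exact hv'0 (h2.symm.trans h1)
  obtain ⟨L, hL⟩ : ∃ L : Submodule F V, L = LinearMap.range φ := ⟨_, rfl⟩
  have hLinv : ∀ (r : F[X]), ∀ l ∈ L, aeval T r l ∈ L := by
    intro r l hl
    rw [hL] at hl ⊢
    obtain ⟨e, rfl⟩ := hl
    exact ⟨AdjoinRoot.mk f₁ r * e, hφmul r e⟩
  have hLT : L ∈ Module.End.invtSubmodule T := by
    rw [Module.End.mem_invtSubmodule]
    intro l hl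
    have := hLinv X l hl
    rwa [aeval_X] at this
  obtain ⟨L'', hL''T, hcompl⟩ := (Module.End.isSemisimple_iff.mp hT) L hLT
  obtain ⟨e₀, he₀⟩ := FiniteField.norm_surjective F (AdjoinRoot f₁) d
  obtain ⟨p, rfl⟩ := AdjoinRoot.mk_surjective e₀
  obtain ⟨φ', hφ'⟩ : ∃ φ' : AdjoinRoot f₁ ≃ₗ[F] L, ∀ e, ((φ' e : L) : V) = φ e := by
    subst hL
    exact ⟨LinearEquiv.ofInjective φ hφinj, fun e => rfl⟩
  obtain ⟨a, ha'⟩ : ∃ a : L →ₗ[F] L, ∀ l : L, ((a l : L) : V) = aeval T p (l : V) :=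
    ⟨(aeval T p).restrict (hLinv p), fun l => rfl⟩
  have ha : a = (φ' : AdjoinRoot f₁ →ₗ[F] L) ∘ₗ
      (Algebra.lmul F (AdjoinRoot f₁) (AdjoinRoot.mk f₁ p)) ∘ₗ
      (φ'.symm : L →ₗ[F] AdjoinRoot f₁) := by
    apply LinearMap.ext
    intro l
    obtain ⟨e, rfl⟩ := φ'.surjective l
    apply Subtype.ext
    simp only [LinearMap.comp_apply, LinearEquiv.coe_coe, LinearEquiv.symm_apply_apply]
    rw [ha', hφ', hφ']
    exact (hφmul p e).symm
  have hdeta : LinearMap.det a = d := by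
    rw [ha, LinearMap.det_conj, ← Algebra.norm_apply, he₀]
  obtain ⟨E, hE⟩ : ∃ E : (L × L'') ≃ₗ[F] V, ∀ y : L × L'', E y = (y.1 : V) + (y.2 : V) :=
    ⟨Submodule.prodEquivOfIsCompl L L'' hcompl, fun y => rfl⟩
  refine ⟨(E : (L × L'') →ₗ[F] V) ∘ₗ (LinearMap.prodMap a LinearMap.id) ∘ₗ
    (E.symm : V →ₗ[F] (L × L'')), ?_, ?_⟩
  · apply LinearMap.ext
    intro v
    obtain ⟨x, rfl⟩ := E.surjective v
    have hTE : T (E x) = E (⟨T x.1, hLT x.1.2⟩, ⟨T x.2, hL''T x.2.2⟩) := by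
      rw [hE, hE, map_add]
    simp only [LinearMap.comp_apply, LinearEquiv.coe_coe]
    rw [hTE, LinearEquiv.symm_apply_apply, LinearEquiv.symm_apply_apply, hE, hE, map_add]
    simp only [LinearMap.prodMap_apply, LinearMap.id_apply]
    congr 1
    rw [ha', ha']
    show aeval T p (T x.1) = T (aeval T p x.1)
    rw [← Module.End.mul_apply, ← Module.End.mul_apply]
    congr 1
    have : aeval T (p * X) = aeval T (X * p) := by rw [mul_comm]
    rwa [map_mul, map_mul, aeval_X] at this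
  · rw [LinearMap.det_conj, LinearMap.det_prodMap, hdeta, LinearMap.det_id, mul_one]

end

theorem sl_conj_ss {F : Type*} [Field F] [Fintype F] {p : ℕ} [Fact p.Prime] [CharP F p] {n : ℕ}
    (x g : GL (Fin n) F) (hx : (orderOf x).Coprime p) :
    ∃ h : GL (Fin n) F, (h : Matrix (Fin n) (Fin n) F).det = 1 ∧
      h * x * h⁻¹ = g * x * g⁻¹ := by
  classical
  rcases Nat.eq_zero_or_pos n with rfl | hn
  · exact ⟨g, Matrix.det_isEmpty, rfl⟩
  haveI : Nonempty (Fin n) := ⟨⟨0, hn⟩⟩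
  obtain ⟨k, hk⟩ : ∃ k, k = orderOf x := ⟨_, rfl⟩
  have hkF : (k : F) ≠ 0 := by
    intro h0
    rw [CharP.cast_eq_zero_iff F p] at h0
    rw [← hk] at hx
    have := Nat.Coprime.eq_one_of_dvd hx.symm h0
    exact (Fact.out : p.Prime).one_lt.ne' this
  obtain ⟨T, hTdef⟩ : ∃ T : (Fin n → F) →ₗ[F] (Fin n → F),
      T = Matrix.toLinAlgEquiv' (x : Matrix (Fin n) (Fin n) F) := ⟨_, rfl⟩
  have hTk : T ^ k = 1 := by
    rw [hTdef, ← map_pow, ← Units.val_pow_eq_pow_val, hk, pow_orderOf_eq_one, Units.val_one,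
      map_one]
  have hss : Module.End.IsSemisimple T := by
    apply Module.End.isSemisimple_of_squarefree_aeval_eq_zero (p := X ^ k - C (1 : F))
    · exact (separable_X_pow_sub_C (1 : F) hkF one_ne_zero).squarefree
    · simp [hTk]
  have hdg : (g : Matrix (Fin n) (Fin n) F).det ≠ 0 := (Matrix.isUnits_det_units g).ne_zero
  obtain ⟨c, hcT, hdet⟩ := ss_det_surj T hss ((g : Matrix (Fin n) (Fin n) F).det)⁻¹
  obtain ⟨C, hC⟩ : ∃ C : Matrix (Fin n) (Fin n) F, C = LinearMap.toMatrix' c := ⟨_, rfl⟩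
  have hCdet : C.det = ((g : Matrix (Fin n) (Fin n) F).det)⁻¹ := by
    rw [← hdet, hC]
    exact LinearMap.det_toMatrix' c
  have hCx : C * (x : Matrix (Fin n) (Fin n) F) = (x : Matrix (Fin n) (Fin n) F) * C := by
    have h1 : LinearMap.toMatrix' (c ∘ₗ T) = LinearMap.toMatrix' (T ∘ₗ c) := by rw [hcT]
    rw [LinearMap.toMatrix'_comp, LinearMap.toMatrix'_comp] at h1
    have h2 : LinearMap.toMatrix' T = (x : Matrix (Fin n) (Fin n) F) := by
      rw [hTdef]
      exact LinearMap.toMatrix'_toLin' _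
    rwa [h2, ← hC] at h1
  have hC0 : C.det ≠ 0 := by
    rw [hCdet]
    exact inv_ne_zero hdg
  obtain ⟨Cg, hCg⟩ : ∃ Cg : GL (Fin n) F, (Cg : Matrix (Fin n) (Fin n) F) = C :=
    ⟨Matrix.GeneralLinearGroup.mkOfDetNeZero C hC0, rfl⟩
  refine ⟨g * Cg, ?_, ?_⟩
  · rw [Units.val_mul, Matrix.det_mul, hCg, hCdet, mul_inv_cancel₀ hdg]
  · have hcomm : Cg * x = x * Cg := Units.ext (by
      rw [Units.val_mul, Units.val_mul, hCg, hCx])
    rw [mul_inv_rev, mul_assoc g Cg x, hcomm]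
    group

end Cfsg.Agent.Helper5
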