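import Mathlib
import Cfsg.Prelude

set_option autoImplicit false

namespace Cfsg.Agent.Helper5

/-- counting a relation whose nonempty fibres are left cosets of a subgroup `D`. -/
theorem card_fibered {α : Type*} {H : Type*} [Group H] (D : Subgroup H) (S : α → Set H)
    (hS : ∀ a, ∀ h₀ ∈ S a, ∀ h, h ∈ S a ↔ h₀⁻¹ * h ∈ D) :
    Nat.card {p : α × H // p.2 ∈ S p.1} = Nat.card {a : α // (S a).Nonempty} * Nat.card D := by
  classical
  rw [← Nat.card_prod]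
  apply Nat.card_congr
  have hch : ∀ a : {a : α // (S a).Nonempty}, ∃ h, h ∈ S a.1 := fun a => a.2
  choose b hb using hch
  refine ⟨fun p => (⟨p.1.1, ⟨p.1.2, p.2⟩⟩, ⟨(b ⟨p.1.1, ⟨p.1.2, p.2⟩⟩)⁻¹ * p.1.2, ?_⟩),
    fun z => ⟨(z.1.1, b z.1 * z.2), ?_⟩, ?_, ?_⟩
  · exact (hS p.1.1 _ (hb ⟨p.1.1, ⟨p.1.2, p.2⟩⟩) p.1.2).1 p.2
  · exact (hS z.1.1 _ (hb z.1) _).2 (by rw [inv_mul_cancel_left]; exact z.2.2)
  · rintro ⟨⟨a, h⟩, hp⟩
    apply Subtype.ext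
    apply Prod.ext
    · rfl
    · show b ⟨a, _⟩ * ((b ⟨a, _⟩)⁻¹ * h) = h
      rw [mul_inv_cancel_left]
  · rintro ⟨⟨a, ha⟩, ⟨d, hd⟩⟩
    apply Prod.ext
    · rfl
    · apply Subtype.ext
      show (b ⟨a, _⟩)⁻¹ * (b ⟨a, ha⟩ * d) = d
      rw [inv_mul_cancel_left]

theorem shintani_count {X : Type*} [Group X] (σ : MulAut X) (e : ℕ)
    (Y : Subgroup X) (hY : ∀ y : X, y ∈ Y ↔ σ y ∈ Y)
    (hYL : ∀ y ∈ Y, ∃ a ∈ Y, y = a * (σ a)⁻¹) (hYLe : ∀ y ∈ Y, ∃ a ∈ Y, y = a * ((σ ^ e) a)⁻¹)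
    (g : X) (a : X) (ha : g = a * (σ a)⁻¹) :
    Nat.card {k : ↥((MulEquiv.toMonoidHom (σ ^ e)).eqLocus (MonoidHom.id X)) //
        (k : X)⁻¹ * g * σ k ∈ Y} *
        Nat.card ↥(Y ⊓ (MulEquiv.toMonoidHom σ).eqLocus (MonoidHom.id X)) =
      Nat.card {h : ↥((MulEquiv.toMonoidHom σ).eqLocus (MonoidHom.id X)) //
        (h : X)⁻¹ * (((σ ^ e) a)⁻¹ * a) * h ∈ Y} *
        Nat.card ↥(Y ⊓ (MulEquiv.toMonoidHom (σ ^ e)).eqLocus (MonoidHom.id X)) := by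
  -- stability under powers
  have hYpow : ∀ n : ℕ, ∀ y : X, y ∈ Y ↔ (σ ^ n) y ∈ Y := by
    intro n
    induction n with
    | zero => intro y; simp
    | succ n ih =>
      intro y
      rw [pow_succ', MulAut.mul_apply, ← hY]
      exact ih y
  have hfixpow : ∀ n : ℕ, ∀ z : X, σ z = z → (σ ^ n) z = z := by
    intro n
    induction n with
    | zero => intro z _; simp
    | succ n ih =>
      intro z hz
      rw [pow_succ', MulAut.mul_apply, ih z hz, hz]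
  have memG : ∀ z : X, z ∈ (MulEquiv.toMonoidHom (σ ^ e)).eqLocus (MonoidHom.id X) ↔
      (σ ^ e) z = z := fun z => Iff.rfl
  have memH : ∀ z : X, z ∈ (MulEquiv.toMonoidHom σ).eqLocus (MonoidHom.id X) ↔ σ z = z :=
    fun z => Iff.rfl
  -- the two fibre systems
  have c1 := card_fibered
    ((Y ⊓ (MulEquiv.toMonoidHom σ).eqLocus (MonoidHom.id X)).subgroupOf
      ((MulEquiv.toMonoidHom σ).eqLocus (MonoidHom.id X)))
    (fun k : ↥((MulEquiv.toMonoidHom (σ ^ e)).eqLocus (MonoidHom.id X)) =>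
      {h : ↥((MulEquiv.toMonoidHom σ).eqLocus (MonoidHom.id X)) | (k : X)⁻¹ * a * (h : X) ∈ Y})
    (by
      intro k h₀ hh₀ h
      have hh₀' : (k : X)⁻¹ * a * (h₀ : X) ∈ Y := hh₀
      show (k : X)⁻¹ * a * (h : X) ∈ Y ↔ _
      rw [Subgroup.mem_subgroupOf]
      have h1 : (k : X)⁻¹ * a * (h : X) = ((k : X)⁻¹ * a * (h₀ : X)) * ((h₀ : X)⁻¹ * (h : X)) := by
        group
      rw [h1, Subgroup.mul_mem_cancel_left _ hh₀']
      constructor
      · intro hy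
        exact Subgroup.mem_inf.2 ⟨hy, (h₀⁻¹ * h).2⟩
      · intro hy
        exact (Subgroup.mem_inf.1 hy).1)
  have c2 := card_fibered
    ((Y ⊓ (MulEquiv.toMonoidHom (σ ^ e)).eqLocus (MonoidHom.id X)).subgroupOf
      ((MulEquiv.toMonoidHom (σ ^ e)).eqLocus (MonoidHom.id X)))
    (fun h : ↥((MulEquiv.toMonoidHom σ).eqLocus (MonoidHom.id X)) =>
      {k : ↥((MulEquiv.toMonoidHom (σ ^ e)).eqLocus (MonoidHom.id X)) |
        (k : X)⁻¹ * a * (h : X) ∈ Y})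
    (by
      intro h k₀ hk₀ k
      have hk₀' : (k₀ : X)⁻¹ * a * (h : X) ∈ Y := hk₀
      show (k : X)⁻¹ * a * (h : X) ∈ Y ↔ _
      rw [Subgroup.mem_subgroupOf]
      have h1 : (k : X)⁻¹ * a * (h : X) = ((k₀ : X)⁻¹ * (k : X))⁻¹ * ((k₀ : X)⁻¹ * a * (h : X)) := by
        group
      rw [h1, Subgroup.mul_mem_cancel_right _ hk₀', Subgroup.inv_mem_iff]
      constructor
      · intro hy
        exact Subgroup.mem_inf.2 ⟨hy, (k₀⁻¹ * k).2⟩
      · intro hy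
        exact (Subgroup.mem_inf.1 hy).1)
  -- the swap
  have c3 : Nat.card {p : ↥((MulEquiv.toMonoidHom (σ ^ e)).eqLocus (MonoidHom.id X)) ×
        ↥((MulEquiv.toMonoidHom σ).eqLocus (MonoidHom.id X)) //
        p.2 ∈ {h : ↥((MulEquiv.toMonoidHom σ).eqLocus (MonoidHom.id X)) |
          (p.1 : X)⁻¹ * a * (h : X) ∈ Y}} =
      Nat.card {p : ↥((MulEquiv.toMonoidHom σ).eqLocus (MonoidHom.id X)) ×
        ↥((MulEquiv.toMonoidHom (σ ^ e)).eqLocus (MonoidHom.id X)) //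
        p.2 ∈ {k : ↥((MulEquiv.toMonoidHom (σ ^ e)).eqLocus (MonoidHom.id X)) |
          (k : X)⁻¹ * a * (p.1 : X) ∈ Y}} :=
    Nat.card_congr (Equiv.subtypeEquiv (Equiv.prodComm _ _) (fun _ => Iff.rfl))
  -- identification of the images
  have i1 : Nat.card {k : ↥((MulEquiv.toMonoidHom (σ ^ e)).eqLocus (MonoidHom.id X)) //
        (k : X)⁻¹ * g * σ k ∈ Y} =
      Nat.card {k : ↥((MulEquiv.toMonoidHom (σ ^ e)).eqLocus (MonoidHom.id X)) //
        ({h : ↥((MulEquiv.toMonoidHom σ).eqLocus (MonoidHom.id X)) |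
          (k : X)⁻¹ * a * (h : X) ∈ Y}).Nonempty} := by
    apply Nat.card_congr
    apply Equiv.subtypeEquivRight
    intro k
    have hz : (k : X)⁻¹ * g * σ k = ((k : X)⁻¹ * a) * (σ ((k : X)⁻¹ * a))⁻¹ := by
      rw [ha, map_mul, map_inv]
      group
    rw [hz]
    constructor
    · intro hmem
      obtain ⟨b, hb, hbe⟩ := hYL _ hmem
      have hfix : σ (((k : X)⁻¹ * a)⁻¹ * b) = ((k : X)⁻¹ * a)⁻¹ * b := by
        rw [map_mul, map_inv]
        have h2 : (σ ((k : X)⁻¹ * a))⁻¹ = ((k : X)⁻¹ * a)⁻¹ * (b * (σ b)⁻¹) := by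
          rw [← hbe]; group
        rw [h2]; group
      refine ⟨⟨((k : X)⁻¹ * a)⁻¹ * b, (memH _).2 hfix⟩, ?_⟩
      show (k : X)⁻¹ * a * (((k : X)⁻¹ * a)⁻¹ * b) ∈ Y
      rw [mul_inv_cancel_left]
      exact hb
    · rintro ⟨h, hh⟩
      have hh' : (k : X)⁻¹ * a * (h : X) ∈ Y := hh
      have hσh : σ (h : X) = (h : X) := (memH _).1 h.2
      have h2 : ((k : X)⁻¹ * a) * (σ ((k : X)⁻¹ * a))⁻¹ =
          ((k : X)⁻¹ * a * (h : X)) * (σ ((k : X)⁻¹ * a * (h : X)))⁻¹ := by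
        rw [map_mul σ ((k : X)⁻¹ * a) (h : X), hσh]
        group
      rw [h2]
      exact Y.mul_mem hh' (Y.inv_mem ((hY _).1 hh'))
  have i2 : Nat.card {h : ↥((MulEquiv.toMonoidHom σ).eqLocus (MonoidHom.id X)) //
        (h : X)⁻¹ * (((σ ^ e) a)⁻¹ * a) * h ∈ Y} =
      Nat.card {h : ↥((MulEquiv.toMonoidHom σ).eqLocus (MonoidHom.id X)) //
        ({k : ↥((MulEquiv.toMonoidHom (σ ^ e)).eqLocus (MonoidHom.id X)) |
          (k : X)⁻¹ * a * (h : X) ∈ Y}).Nonempty} := by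
    apply Nat.card_congr
    apply Equiv.subtypeEquivRight
    intro h
    have hσh : (σ ^ e) (h : X) = (h : X) := hfixpow e _ ((memH _).1 h.2)
    have hz : (h : X)⁻¹ * (((σ ^ e) a)⁻¹ * a) * h = ((σ ^ e) (a * (h : X)))⁻¹ * (a * (h : X)) := by
      rw [map_mul, hσh]
      group
    rw [hz]
    constructor
    · intro hmem
      have hv : (a * (h : X))⁻¹ * (σ ^ e) (a * (h : X)) ∈ Y := by
        have h0 : (a * (h : X))⁻¹ * (σ ^ e) (a * (h : X)) =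
            (((σ ^ e) (a * (h : X)))⁻¹ * (a * (h : X)))⁻¹ := by group
        rw [h0]
        exact Y.inv_mem hmem
      obtain ⟨b, hb, hbe⟩ := hYLe _ hv
      have hfix : (σ ^ e) (a * (h : X) * b) = a * (h : X) * b := by
        rw [map_mul (σ ^ e) (a * (h : X)) b]
        have h2 : (σ ^ e) (a * (h : X)) = (a * (h : X)) * (b * ((σ ^ e) b)⁻¹) := by
          rw [← hbe]; group
        rw [h2]; group
      refine ⟨⟨a * (h : X) * b, (memG _).2 hfix⟩, ?_⟩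
      show (a * (h : X) * b)⁻¹ * a * (h : X) ∈ Y
      have h3 : (a * (h : X) * b)⁻¹ * a * (h : X) = b⁻¹ := by group
      rw [h3]
      exact Y.inv_mem hb
    · rintro ⟨k, hk⟩
      have hk' : (k : X)⁻¹ * a * (h : X) ∈ Y := hk
      have hσk : (σ ^ e) (k : X) = (k : X) := (memG _).1 k.2
      have h2 : ((σ ^ e) (a * (h : X)))⁻¹ * (a * (h : X)) =
          ((σ ^ e) ((k : X)⁻¹ * a * (h : X)))⁻¹ * ((k : X)⁻¹ * a * (h : X)) := by
        have h3 : (k : X)⁻¹ * a * (h : X) = (k : X)⁻¹ * (a * (h : X)) := by group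
        rw [h3, map_mul (σ ^ e) (k : X)⁻¹ (a * (h : X)), map_inv, hσk]
        group
      rw [h2]
      exact Y.mul_mem (Y.inv_mem ((hYpow e _).1 hk')) hk'
  -- cardinalities of the subgroups
  have d1 : Nat.card ((Y ⊓ (MulEquiv.toMonoidHom σ).eqLocus (MonoidHom.id X)).subgroupOf
      ((MulEquiv.toMonoidHom σ).eqLocus (MonoidHom.id X))) =
      Nat.card ↥(Y ⊓ (MulEquiv.toMonoidHom σ).eqLocus (MonoidHom.id X)) :=
    Nat.card_congr (Subgroup.subgroupOfEquivOfLe inf_le_right).toEquiv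
  have d2 : Nat.card ((Y ⊓ (MulEquiv.toMonoidHom (σ ^ e)).eqLocus (MonoidHom.id X)).subgroupOf
      ((MulEquiv.toMonoidHom (σ ^ e)).eqLocus (MonoidHom.id X))) =
      Nat.card ↥(Y ⊓ (MulEquiv.toMonoidHom (σ ^ e)).eqLocus (MonoidHom.id X)) :=
    Nat.card_congr (Subgroup.subgroupOfEquivOfLe inf_le_right).toEquiv
  rw [i1, i2, ← d1, ← d2, ← c1, ← c2]
  exact c3

end Cfsg.Agent.Helper5
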