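import Mathlib

namespace Cfsg.Agent.Helper5

open Polynomial

universe uT

theorem cyc_form {F : Type uT} [Field F] (g : F[X]) (hg : g ≠ 0) :
    ∃ lam : (F[X] ⧸ (Ideal.span {g} : Ideal F[X])) → F,
      (∀ a b, lam (a + b) = lam a + lam b) ∧
      (∀ (c : F) a, lam (Ideal.Quotient.mk _ (C c) * a) = c * lam a) ∧
      (∀ a, a ≠ 0 → ∃ b, lam (a * b) ≠ 0) := by
  classical
  obtain ⟨g', hg'⟩ : ∃ g' : F[X], g' = g * C (g.leadingCoeff)⁻¹ := ⟨_, rfl⟩
  have hmon : g'.Monic := by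
    rw [hg']
    exact monic_mul_leadingCoeff_inv hg
  have hlc : (g.leadingCoeff)⁻¹ ≠ 0 := inv_ne_zero (leadingCoeff_ne_zero.mpr hg)
  have hdvd : ∀ r, g ∣ r ↔ g' ∣ r := by
    intro r
    rw [hg']
    constructor
    · rintro ⟨s, rfl⟩
      refine ⟨C (g.leadingCoeff) * s, ?_⟩
      rw [mul_assoc, ← mul_assoc (C _), ← C_mul, inv_mul_cancel₀ (leadingCoeff_ne_zero.mpr hg),
        C_1, one_mul]
    · rintro ⟨s, rfl⟩
      exact ⟨C (g.leadingCoeff)⁻¹ * s, by rw [mul_assoc]⟩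
  obtain ⟨d, hd⟩ : ∃ d, d = g'.natDegree := ⟨_, rfl⟩
  obtain ⟨lam₀, hlam₀⟩ : ∃ lam₀ : F[X] →ₗ[F] F, ∀ r, lam₀ r = (r %ₘ g').coeff (d - 1) :=
    ⟨(lcoeff F (d - 1)).comp (modByMonicHom g'), fun r => rfl⟩
  have hmk : ∀ r r' : F[X], Ideal.Quotient.mk (Ideal.span {g} : Ideal F[X]) r
      = Ideal.Quotient.mk (Ideal.span {g} : Ideal F[X]) r' → lam₀ r = lam₀ r' := by
    intro r r' h
    rw [Ideal.Quotient.eq, Ideal.mem_span_singleton, hdvd] at h
    rw [hlam₀, hlam₀, modByMonic_eq_of_dvd_sub hmon h]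
  obtain ⟨s, hs⟩ : ∃ s : (F[X] ⧸ (Ideal.span {g} : Ideal F[X])) → F[X],
      ∀ a, Ideal.Quotient.mk (Ideal.span {g} : Ideal F[X]) (s a) = a :=
    ⟨Function.surjInv Ideal.Quotient.mk_surjective,
      Function.surjInv_eq Ideal.Quotient.mk_surjective⟩
  have hlmk : ∀ r : F[X], lam₀ (s (Ideal.Quotient.mk (Ideal.span {g} : Ideal F[X]) r)) = lam₀ r :=
    fun r => hmk _ _ (hs _)
  refine ⟨fun a => lam₀ (s a), ?_, ?_, ?_⟩
  · intro a b
    obtain ⟨r, rfl⟩ := Ideal.Quotient.mk_surjective a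
    obtain ⟨r', rfl⟩ := Ideal.Quotient.mk_surjective b
    show lam₀ (s (_ + _)) = lam₀ (s _) + lam₀ (s _)
    rw [← map_add, hlmk, hlmk, hlmk, map_add]
  · intro c a
    obtain ⟨r, rfl⟩ := Ideal.Quotient.mk_surjective a
    show lam₀ (s (_ * _)) = c * lam₀ (s _)
    rw [← map_mul, hlmk, hlmk, C_mul', map_smul, smul_eq_mul]
  · intro a ha
    obtain ⟨r, rfl⟩ := Ideal.Quotient.mk_surjective a
    obtain ⟨r₀, hr₀⟩ : ∃ r₀, r₀ = r %ₘ g' := ⟨_, rfl⟩
    have h1 : Ideal.Quotient.mk (Ideal.span {g} : Ideal F[X]) r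
        = Ideal.Quotient.mk (Ideal.span {g} : Ideal F[X]) r₀ := by
      rw [Ideal.Quotient.eq, Ideal.mem_span_singleton, hdvd, hr₀]
      refine ⟨r /ₘ g', ?_⟩
      have := modByMonic_add_div r g'
      rw [sub_eq_iff_eq_add, add_comm]
      exact this.symm
    have hr₀0 : r₀ ≠ 0 := by
      intro h0
      rw [h0, map_zero] at h1
      exact ha h1
    have hdeg : r₀.degree < g'.degree := by
      rw [hr₀]
      exact degree_modByMonic_lt r hmon
    have hnd : r₀.natDegree < d := by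
      rw [hd]
      exact natDegree_lt_natDegree hr₀0 hdeg
    obtain ⟨k, hk⟩ : ∃ k, d - 1 = r₀.natDegree + k := ⟨d - 1 - r₀.natDegree, by omega⟩
    refine ⟨Ideal.Quotient.mk _ (X ^ k), ?_⟩
    show lam₀ (s (_ * _)) ≠ 0
    rw [h1, ← map_mul, hlmk, hlam₀]
    have h2 : (r₀ * X ^ k) %ₘ g' = r₀ * X ^ k := by
      rw [modByMonic_eq_self_iff hmon, degree_mul, degree_X_pow, degree_eq_natDegree hr₀0,
        degree_eq_natDegree hmon.ne_zero, ← hd, ← Nat.cast_add, Nat.cast_lt]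
      omega
    rw [h2, hk, coeff_mul_X_pow]
    exact leadingCoeff_ne_zero.mpr hr₀0

theorem sim_tr_form {F : Type uT} [Field F] {κ : Type*} [Fintype κ] [DecidableEq κ]
    (T : (κ → F) →ₗ[F] (κ → F)) :
    ∃ B : LinearMap.BilinForm F (κ → F), (∀ v w, B (T v) w = B v (T w)) ∧
      (∀ w, w ≠ 0 → ∃ v, B v w ≠ 0) := by
  classical
  obtain ⟨ι, _, p, hp, e, ⟨φ⟩⟩ := Module.equiv_directSum_of_isTorsion
    (Module.AEval.isTorsion_of_finiteDimensional F (κ → F) T)
  have hg : ∀ i, p i ^ e i ≠ 0 := fun i => pow_ne_zero _ (hp i).ne_zero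
  choose lam hadd hC hnd using fun i => cyc_form (p i ^ e i) (hg i)
  obtain ⟨ψ, hψ⟩ : ∃ ψ : ∀ i, (κ → F) → (F[X] ⧸ (Ideal.span {p i ^ e i} : Ideal F[X])),
      ∀ i v, ψ i v = (φ (Module.AEval'.of T v)) i :=
    ⟨fun i v => (φ (Module.AEval'.of T v)) i, fun _ _ => rfl⟩
  have hsm : ∀ i (r : F[X]) (m : F[X] ⧸ (Ideal.span {p i ^ e i} : Ideal F[X])),
      r • m = Ideal.Quotient.mk _ r * m := by
    intro i r m
    obtain ⟨s, rfl⟩ := Ideal.Quotient.mk_surjective m
    rfl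
  have hψadd : ∀ i v w, ψ i (v + w) = ψ i v + ψ i w := by
    intro i v w
    rw [hψ, hψ, hψ, map_add, map_add, DirectSum.add_apply]
  have hψsm : ∀ i (r : F[X]) v,
      (φ (r • Module.AEval'.of T v)) i = Ideal.Quotient.mk _ r * ψ i v := by
    intro i r v
    rw [map_smul, DirectSum.smul_apply, hψ]
    exact hsm i r _
  have hψC : ∀ i (c : F) v, ψ i (c • v) = Ideal.Quotient.mk _ (C c) * ψ i v := by
    intro i c v
    rw [← hψsm, hψ, Module.AEval.C_smul, map_smul]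
  have hψT : ∀ i v, ψ i (T v) = Ideal.Quotient.mk _ X * ψ i v := by
    intro i v
    rw [← hψsm, hψ, Module.AEval'.X_smul_of]
  have hlam0 : ∀ i, lam i 0 = 0 := by
    intro i
    have h0 := hadd i 0 0
    rw [add_zero] at h0
    linear_combination -h0
  obtain ⟨β, hβ⟩ : ∃ β : (κ → F) → (κ → F) → F,
      ∀ v w, β v w = ∑ i, lam i (ψ i v * ψ i w) := ⟨_, fun _ _ => rfl⟩
  have b1 : ∀ v v' w, β (v + v') w = β v w + β v' w := by
    intro v v' w
    rw [hβ, hβ, hβ, ← Finset.sum_add_distrib]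
    apply Finset.sum_congr rfl
    intro i _
    rw [hψadd, add_mul, hadd]
  have b2 : ∀ (c : F) v w, β (c • v) w = c • β v w := by
    intro c v w
    rw [hβ, hβ, smul_eq_mul, Finset.mul_sum]
    apply Finset.sum_congr rfl
    intro i _
    rw [hψC, mul_assoc, hC]
  have b3 : ∀ v w w', β v (w + w') = β v w + β v w' := by
    intro v w w'
    rw [hβ, hβ, hβ, ← Finset.sum_add_distrib]
    apply Finset.sum_congr rfl
    intro i _
    rw [hψadd, mul_add, hadd]
  have b4 : ∀ (c : F) v w, β v (c • w) = c • β v w := by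
    intro c v w
    rw [hβ, hβ, smul_eq_mul, Finset.mul_sum]
    apply Finset.sum_congr rfl
    intro i _
    rw [hψC, mul_left_comm, hC]
  refine ⟨LinearMap.mk₂ F β b1 b2 b3 b4, ?_, ?_⟩
  · intro v w
    show β (T v) w = β v (T w)
    rw [hβ, hβ]
    apply Finset.sum_congr rfl
    intro i _
    rw [hψT, hψT, mul_left_comm (ψ i v), mul_assoc]
  · intro w hw
    have hy : φ (Module.AEval'.of T w) ≠ 0 := by
      intro h0
      apply hw
      have := φ.injective (h0.trans (map_zero φ).symm)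
      exact (Module.AEval'.of T).injective (this.trans (map_zero _).symm)
    obtain ⟨i, hi⟩ : ∃ i, ψ i w ≠ 0 := by
      by_contra hcon
      push Not at hcon
      apply hy
      apply DFinsupp.ext
      intro i
      rw [← hψ, hcon]
      rfl
    obtain ⟨b, hb⟩ := hnd i _ hi
    refine ⟨(Module.AEval'.of T).symm (φ.symm (DirectSum.of _ i b)), ?_⟩
    show β _ w ≠ 0
    rw [hβ, Finset.sum_eq_single i]
    · rw [hψ, LinearEquiv.apply_symm_apply, LinearEquiv.apply_symm_apply, DirectSum.of_eq_same,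
        mul_comm]
      exact hb
    · intro j _ hji
      rw [hψ, LinearEquiv.apply_symm_apply, LinearEquiv.apply_symm_apply,
        DirectSum.of_eq_of_ne _ _ _ hji, zero_mul, hlam0]
    · intro h
      exact absurd (Finset.mem_univ i) h

theorem sim_transpose {F : Type uT} [Field F] {κ : Type*} [Fintype κ] [DecidableEq κ]
    (A : Matrix κ κ F) :
    IsConj A A.transpose := by
  classical
  obtain ⟨B, hB, hnd⟩ := sim_tr_form (Matrix.toLin' A)
  obtain ⟨P, hP⟩ : ∃ P, P = LinearMap.BilinForm.toMatrix' B := ⟨_, rfl⟩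
  have h1 : A.transpose * P = P * A := by
    have e1 : B.compLeft (Matrix.toLin' A) = B.compRight (Matrix.toLin' A) := by
      apply LinearMap.ext₂
      intro v w
      exact hB v w
    have := congrArg LinearMap.BilinForm.toMatrix' e1
    rw [LinearMap.BilinForm.toMatrix'_compLeft, LinearMap.BilinForm.toMatrix'_compRight,
      LinearMap.toMatrix'_toLin'] at this
    rw [hP]
    exact this
  have hB' : ∀ v u, B v u = v ⬝ᵥ P.mulVec u := by
    intro v u
    rw [hP, ← Matrix.toBilin'_apply', Matrix.toBilin'_toMatrix']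
  have hinj : Function.Injective P.mulVec := by
    intro w w' h
    by_contra hne
    obtain ⟨v, hv⟩ := hnd (w - w') (sub_ne_zero.mpr hne)
    apply hv
    rw [hB', Matrix.mulVec_sub, h, sub_self, dotProduct_zero]
  obtain ⟨u, hu⟩ := Matrix.mulVec_injective_iff_isUnit.mp hinj
  refine ⟨u, ?_⟩
  show (u : Matrix κ κ F) * A = A.transpose * u
  rw [hu]
  exact h1.symm

theorem sp_conj_inv {F : Type uT} [Field F] {m : ℕ} (A : Matrix.symplecticGroup (Fin m) F) :
    IsConj (A : Matrix (Fin m ⊕ Fin m) (Fin m ⊕ Fin m) F)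
      ((A⁻¹ : Matrix.symplecticGroup (Fin m) F) : Matrix (Fin m ⊕ Fin m) (Fin m ⊕ Fin m) F) := by
  classical
  have hJ1 : Matrix.J (Fin m) F * -Matrix.J (Fin m) F = 1 := by
    rw [mul_neg, Matrix.J_squared, neg_neg]
  have hJ2 : -Matrix.J (Fin m) F * Matrix.J (Fin m) F = 1 := by
    rw [neg_mul, Matrix.J_squared, neg_neg]
  have h1 : IsConj ((A⁻¹ : Matrix.symplecticGroup (Fin m) F) :
      Matrix (Fin m ⊕ Fin m) (Fin m ⊕ Fin m) F)
      (A : Matrix (Fin m ⊕ Fin m) (Fin m ⊕ Fin m) F).transpose := by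
    refine ⟨⟨Matrix.J (Fin m) F, -Matrix.J (Fin m) F, hJ1, hJ2⟩, ?_⟩
    show Matrix.J (Fin m) F * _ = _ * Matrix.J (Fin m) F
    rw [SymplecticGroup.coe_inv, ← mul_assoc, ← mul_assoc, hJ1, one_mul]
  exact (sim_transpose _).trans h1.symm

end Cfsg.Agent.Helper5
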