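import Mathlib
import Cfsg.Prelude.Def_ClassicalGeometry
import Cfsg.Prelude.Def_LieClassical
import Cfsg.Agent.Helper5.SpEmbed

namespace Cfsg.Agent.Helper5

open Matrix

theorem sp_res_embed {F K : Type*} [Field F] [Fintype F] [Field K] [Fintype K] [Algebra F K]
    {q : ℕ} (hF : Fintype.card F = q) (hK : Fintype.card K = q ^ 2) (a : ℕ) :
    ∃ φ : ↥(Matrix.symplecticGroup (Fin a) K) →* ↥(Matrix.symplecticGroup (Fin (2 * a)) F),
      Function.Injective φ := by
  classical
  have hV : Module.finrank F (Fin a ⊕ Fin a → K) = 2 * (2 * a) := by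
    rw [finrank_fun_of_card hF hK]
    simp only [Fintype.card_sum, Fintype.card_fin]
    ring
  obtain ⟨lam, hlam⟩ : ∃ lam : K →ₗ[F] F, lam 1 ≠ 0 := by
    by_contra hcon
    push Not at hcon
    exact one_ne_zero ((Module.forall_dual_apply_eq_zero_iff F (1 : K)).mp hcon)
  have hsmul : ∀ (c : F) (u : Fin a ⊕ Fin a → K), c • u = (algebraMap F K c) • u := by
    intro c u
    funext i
    simp [Algebra.smul_def]
  obtain ⟨B, hBdef⟩ : ∃ B : LinearMap.BilinForm F (Fin a ⊕ Fin a → K),
      ∀ u v, B u v = lam (Cfsg.sympForm a K u v) := by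
    refine ⟨LinearMap.mk₂ F (fun u v => lam (Cfsg.sympForm a K u v)) ?_ ?_ ?_ ?_,
      fun u v => rfl⟩
    · intro u u' v
      simp only [Cfsg.sympForm, add_dotProduct, map_add]
    · intro c u v
      rw [hsmul]
      simp only [Cfsg.sympForm, smul_dotProduct, smul_eq_mul]
      rw [← Algebra.smul_def, map_smul, smul_eq_mul]
    · intro u v v'
      simp only [Cfsg.sympForm, Matrix.mulVec_add, dotProduct_add, map_add]
    · intro c u v
      rw [hsmul]
      simp only [Cfsg.sympForm, Matrix.mulVec_smul, dotProduct_smul, smul_eq_mul]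
      rw [← Algebra.smul_def, map_smul, smul_eq_mul]
  have hA : B.IsAlt := by
    intro u
    rw [hBdef, sf5_eq]
    have : ∑ i : Fin a, (u (Sum.inr i) * u (Sum.inl i) - u (Sum.inl i) * u (Sum.inr i)) = 0 := by
      apply Finset.sum_eq_zero
      intro i _
      ring
    rw [this, map_zero]
  have hleft : B.SeparatingLeft := by
    intro u hu
    by_contra hne
    obtain ⟨x, hx⟩ : ∃ x, u x ≠ 0 := by
      by_contra hcon
      push Not at hcon
      exact hne (funext hcon)
    obtain ⟨v₀, hv₀⟩ : ∃ v₀, Cfsg.sympForm a K u v₀ ≠ 0 := by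
      rcases x with i | i
      · refine ⟨Pi.single (Sum.inr i) 1, ?_⟩
        rw [sf5_eq]
        simp only [Pi.single_apply, Sum.inr.injEq, reduceCtorEq, if_false, mul_zero, zero_sub,
          mul_ite, mul_one, Finset.sum_neg_distrib, Finset.sum_ite_eq', Finset.mem_univ, if_true]
        exact neg_ne_zero.mpr hx
      · refine ⟨Pi.single (Sum.inl i) 1, ?_⟩
        rw [sf5_eq]
        simp only [Pi.single_apply, Sum.inl.injEq, reduceCtorEq, if_false, mul_zero, sub_zero,
          mul_ite, mul_one, Finset.sum_ite_eq', Finset.mem_univ, if_true]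
        exact hx
    have h1 := hu ((Cfsg.sympForm a K u v₀)⁻¹ • v₀)
    rw [hBdef] at h1
    have h2 : Cfsg.sympForm a K u ((Cfsg.sympForm a K u v₀)⁻¹ • v₀) = 1 := by
      unfold Cfsg.sympForm at hv₀ ⊢
      rw [Matrix.mulVec_smul, dotProduct_smul, smul_eq_mul, inv_mul_cancel₀ hv₀]
    rw [h2] at h1
    exact hlam h1
  have hB : B.Nondegenerate := (hA.isRefl).nondegenerate_iff_separatingLeft.mpr hleft
  obtain ⟨ρ, hρ⟩ : ∃ ρ : ↥(Matrix.symplecticGroup (Fin a) K) →*
      ((Fin a ⊕ Fin a → K) →ₗ[F] (Fin a ⊕ Fin a → K)),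
      ∀ g v, ρ g v = (g : Matrix (Fin a ⊕ Fin a) (Fin a ⊕ Fin a) K) *ᵥ v := by
    refine ⟨{ toFun := fun g =>
                { toFun := fun v => (g : Matrix (Fin a ⊕ Fin a) (Fin a ⊕ Fin a) K) *ᵥ v
                  map_add' := fun u v => Matrix.mulVec_add _ u v
                  map_smul' := fun c v => by
                    rw [hsmul, Matrix.mulVec_smul, ← hsmul]; rfl }
              map_one' := ?_
              map_mul' := ?_ }, fun g v => rfl⟩
    · apply LinearMap.ext
      intro v
      simp
    · intro g h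
      apply LinearMap.ext
      intro v
      simp [Matrix.mulVec_mulVec]
  refine sp_embed B hA hB hV ρ ?_ ?_
  · intro g h hgh
    apply Subtype.ext
    ext i j
    have := congrFun (LinearMap.congr_fun hgh (Pi.single j 1)) i
    rw [hρ, hρ] at this
    simpa [Matrix.mulVec_single_one] using this
  · intro g u v
    rw [hBdef, hBdef, hρ, hρ, sf5_inv]

end Cfsg.Agent.Helper5
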