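import Mathlib
import Cfsg.Prelude.Def_ClassicalGeometry
import Cfsg.Prelude.Def_LieClassical
import Cfsg.Agent.Helper5.SpEmbed

namespace Cfsg.Agent.Helper5

open Matrix

theorem gu_embed {F K : Type*} [Field F] [Fintype F] [Field K] [Fintype K] [Algebra F K] {q : ℕ}
    (hF : Fintype.card F = q) (hK : Fintype.card K = q ^ 2) (m : ℕ) :
    ∃ φ : ↥(Cfsg.GU m K q) →* ↥(Matrix.symplecticGroup (Fin m) F), Function.Injective φ := by
  classical
  have hV : Module.finrank F (Fin m → K) = 2 * m := by
    rw [finrank_fun_of_card hF hK]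
    simp
  have hq2 : 2 ≤ q := by rw [← hF]; exact Fintype.one_lt_card
  obtain ⟨p, hp⟩ := CharP.exists F
  haveI := hp
  haveI : Fact p.Prime := ⟨CharP.char_is_prime F p⟩
  obtain ⟨n, hn⟩ : ∃ n : ℕ, q = p ^ n := by
    obtain ⟨n, _, h⟩ := FiniteField.card F p
    exact ⟨n, by rw [← hF, h]⟩
  haveI : CharP K p := (Algebra.charP_iff F K p).mp hp
  have hadd : ∀ x y : K, (x + y) ^ q = x ^ q + y ^ q := by
    intro x y
    rw [hn]
    exact add_pow_char_pow x y p n
  have hsum : ∀ (s : Finset (Fin m)) (f : Fin m → K),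
      (∑ i ∈ s, f i) ^ q = ∑ i ∈ s, (f i) ^ q := by
    intro s f
    induction s using Finset.induction_on with
    | empty => simp [zero_pow (by omega : q ≠ 0)]
    | insert i s hi ih => rw [Finset.sum_insert hi, Finset.sum_insert hi, hadd, ih]
  have hqq : ∀ x : K, (x ^ q) ^ q = x := by
    intro x
    rw [← pow_mul, ← pow_two, ← hK]
    exact FiniteField.pow_card x
  have hιq : ∀ c : F, (algebraMap F K c) ^ q = algebraMap F K c := by
    intro c
    rw [← map_pow, ← hF, FiniteField.pow_card]
  obtain ⟨w₀, hw₀⟩ : ∃ w₀ : K, w₀ ^ q ≠ w₀ := by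
    by_contra hcon
    push Not at hcon
    have h1 : (Finset.univ : Finset K).val ⊆
        (Polynomial.X ^ q - Polynomial.X : Polynomial K).roots := by
      intro x _
      rw [Polynomial.mem_roots (FiniteField.X_pow_card_sub_X_ne_zero K (by omega))]
      simp [Polynomial.IsRoot, hcon x]
    have h2 := Polynomial.card_le_degree_of_subset_roots h1
    rw [FiniteField.X_pow_card_sub_X_natDegree_eq K (by omega), Finset.card_univ, hK] at h2
    nlinarith
  obtain ⟨lam, hlam⟩ : ∃ lam : K →ₗ[F] F, lam (w₀ - w₀ ^ q) ≠ 0 := by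
    by_contra hcon
    push Not at hcon
    exact hw₀ (sub_eq_zero.mp
      ((Module.forall_dual_apply_eq_zero_iff F (w₀ - w₀ ^ q)).mp hcon)).symm
  have hsmul : ∀ (c : F) (u : Fin m → K), c • u = (algebraMap F K c) • u := by
    intro c u
    funext i
    simp [Algebra.smul_def]
  have hh_add_l : ∀ u u' v, Cfsg.hermForm m K q (u + u') v
      = Cfsg.hermForm m K q u v + Cfsg.hermForm m K q u' v := by
    intro u u' v
    unfold Cfsg.hermForm
    rw [← Finset.sum_add_distrib]
    apply Finset.sum_congr rfl
    intro i _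
    simp only [Pi.add_apply]
    ring
  have hh_smul_l : ∀ (c : K) u v, Cfsg.hermForm m K q (c • u) v
      = c * Cfsg.hermForm m K q u v := by
    intro c u v
    unfold Cfsg.hermForm
    rw [Finset.mul_sum]
    apply Finset.sum_congr rfl
    intro i _
    simp only [Pi.smul_apply, smul_eq_mul]
    ring
  have hh_add_r : ∀ u v v', Cfsg.hermForm m K q u (v + v')
      = Cfsg.hermForm m K q u v + Cfsg.hermForm m K q u v' := by
    intro u v v'
    unfold Cfsg.hermForm
    rw [← Finset.sum_add_distrib]
    apply Finset.sum_congr rfl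
    intro i _
    simp only [Pi.add_apply]
    rw [hadd]
    ring
  have hh_smul_r : ∀ (c : K) u v, Cfsg.hermForm m K q u (c • v)
      = c ^ q * Cfsg.hermForm m K q u v := by
    intro c u v
    unfold Cfsg.hermForm
    rw [Finset.mul_sum]
    apply Finset.sum_congr rfl
    intro i _
    simp only [Pi.smul_apply, smul_eq_mul]
    rw [mul_pow]
    ring
  have hh_conj : ∀ u v, (Cfsg.hermForm m K q u v) ^ q = Cfsg.hermForm m K q v u := by
    intro u v
    unfold Cfsg.hermForm
    rw [hsum]
    apply Finset.sum_congr rfl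
    intro i _
    rw [mul_pow, hqq]
    ring
  obtain ⟨B, hBdef⟩ : ∃ B : LinearMap.BilinForm F (Fin m → K),
      ∀ u v, B u v = lam (Cfsg.hermForm m K q u v) - lam (Cfsg.hermForm m K q v u) := by
    refine ⟨LinearMap.mk₂ F (fun u v =>
      lam (Cfsg.hermForm m K q u v) - lam (Cfsg.hermForm m K q v u)) ?_ ?_ ?_ ?_,
      fun u v => rfl⟩
    · intro u u' v
      simp only [hh_add_l, hh_add_r, map_add]
      ring
    · intro c u v
      rw [hsmul, hh_smul_l, hh_smul_r, hιq, ← Algebra.smul_def, ← Algebra.smul_def, map_smul,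
        map_smul, smul_sub]
    · intro u v v'
      simp only [hh_add_l, hh_add_r, map_add]
      ring
    · intro c u v
      rw [hsmul, hh_smul_l, hh_smul_r, hιq, ← Algebra.smul_def, ← Algebra.smul_def, map_smul,
        map_smul, smul_sub]
  have hA : B.IsAlt := by
    intro u
    rw [hBdef, sub_self]
  have hleft : B.SeparatingLeft := by
    intro u hu
    by_contra hne
    obtain ⟨x, hx⟩ : ∃ x, u x ≠ 0 := by
      by_contra hcon
      push Not at hcon
      exact hne (funext hcon)
    have h1 := hu (((w₀ / u x) ^ q) • Pi.single x 1)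
    rw [hBdef] at h1
    have h2 : Cfsg.hermForm m K q u (((w₀ / u x) ^ q) • Pi.single x 1) = w₀ := by
      rw [hh_smul_r, hqq]
      unfold Cfsg.hermForm
      simp only [Pi.single_apply]
      have : ∑ i, u i * (if i = x then (1 : K) else 0) ^ q = u x := by
        rw [Finset.sum_eq_single x]
        · simp
        · intro b _ hb
          simp [hb, zero_pow (by omega : q ≠ 0)]
        · intro h
          exact absurd (Finset.mem_univ x) h
      rw [this]
      field_simp
    rw [← hh_conj u, h2, ← map_sub] at h1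
    exact hlam h1
  have hB : B.Nondegenerate := (hA.isRefl).nondegenerate_iff_separatingLeft.mpr hleft
  obtain ⟨ρ, hρ⟩ : ∃ ρ : ↥(Cfsg.GU m K q) →* ((Fin m → K) →ₗ[F] (Fin m → K)),
      ∀ g v, ρ g v = ((g : GL (Fin m) K) : Matrix (Fin m) (Fin m) K) *ᵥ v := by
    refine ⟨{ toFun := fun g =>
                { toFun := fun v => ((g : GL (Fin m) K) : Matrix (Fin m) (Fin m) K) *ᵥ v
                  map_add' := fun u v => Matrix.mulVec_add _ u v
                  map_smul' := fun c v => by
                    rw [hsmul, Matrix.mulVec_smul, ← hsmul]; rfl }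
              map_one' := ?_
              map_mul' := ?_ }, fun g v => rfl⟩
    · apply LinearMap.ext
      intro v
      simp
    · intro g h
      apply LinearMap.ext
      intro v
      simp [Matrix.mulVec_mulVec]
  refine sp_embed B hA hB hV ρ ?_ ?_
  · intro g h hgh
    apply Subtype.ext
    apply Units.ext
    ext i j
    have := congrFun (LinearMap.congr_fun hgh (Pi.single j 1)) i
    rw [hρ, hρ] at this
    simpa [Matrix.mulVec_single_one] using this
  · intro g u v
    have h1 : Cfsg.hermForm m K q (((g : GL (Fin m) K) : Matrix (Fin m) (Fin m) K) *ᵥ u)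
        (((g : GL (Fin m) K) : Matrix (Fin m) (Fin m) K) *ᵥ v) = Cfsg.hermForm m K q u v :=
      g.2 u v
    have h2 : Cfsg.hermForm m K q (((g : GL (Fin m) K) : Matrix (Fin m) (Fin m) K) *ᵥ v)
        (((g : GL (Fin m) K) : Matrix (Fin m) (Fin m) K) *ᵥ u) = Cfsg.hermForm m K q v u :=
      g.2 v u
    rw [hBdef, hBdef, hρ, hρ, h1, h2]

end Cfsg.Agent.Helper5
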